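import Cfsg.Agent.H5.Weak
import Cfsg.Agent.H4.Burnside
import Cfsg.Agent.H4.BrauerC
import Cfsg.Agent.H4.Glb2

/-!
# Simple groups of order p^a q^b r
-/

set_option autoImplicit false
open Cfsg MonoidAlgebra
open CfsgH4 hiding centralChar sum_conj

namespace CfsgH5

theorem pqr_aux {G : Type*} [Group G] [Finite G] [IsSimpleGroup G] {p q r a b : ℕ} [hp : Fact p.Prime]
    (hq : q.Prime) (hr : r.Prime) (hpq : p ≠ q) (hpr : p ≠ r) (hqr : q ≠ r)
    (hcard : Nat.card G = p ^ a * q ^ b * r) {y : G} (hyp : p ∣ orderOf y) (hyr : r ∣ orderOf y) : False := by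
  classical
  haveI : Fintype G := Fintype.ofFinite G
  obtain ⟨M, hM⟩ := exists_mod p
  haveI := IsPModular.isPrime hM
  have hpG : p ∣ Nat.card G := hyp.trans (orderOf_dvd_natCard y)
  have hrG : r ∣ Nat.card G := hyr.trans (orderOf_dvd_natCard y)
  have hnp : ¬ (Nat.card G).Prime := by
    intro h
    have h1 := (Nat.prime_dvd_prime_iff_eq hp.out h).1 hpG
    have h2 := (Nat.prime_dvd_prime_iff_eq hr h).1 hrG
    exact hpr (h1.trans h2.symm)
  have hcen := (simple_center (G := G)).resolve_right hnp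
  -- a nonprincipal character in the principal block with degree prime to q not vanishing at y
  have h1 := weak_orth hM (inS_eSet (isPBlock_principalBlock (M := M) (G := G))) (x := 1)
    (by rw [orderOf_one]; exact hp.out.not_dvd_one) hyp
  have hone : (⟨fun _ => 1, isIrrCharacter_one⟩ : IrrCharacter G) ∈ principalBlock M G := one_mem_principalBlock
  obtain ⟨χ, hχB, hχ1, hχq, hχy⟩ : ∃ χ : IrrCharacter G, χ ∈ principalBlock M G ∧ (χ : G → ℂ) ≠ (fun _ => 1) ∧
      ¬ q ∣ charDegree (χ : G → ℂ) ∧ (χ : G → ℂ) y⁻¹ ≠ 0 := by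
    by_contra hc
    push Not at hc
    rw [← Finset.add_sum_erase _ _ (Finset.mem_univ (⟨fun _ => 1, isIrrCharacter_one⟩ : IrrCharacter G)),
      if_pos hone] at h1
    have h2 : ∀ χ ∈ Finset.univ.erase (⟨fun _ => 1, isIrrCharacter_one⟩ : IrrCharacter G),
        ∃ z : ℂ, IsIntegral ℤ z ∧ (if χ ∈ principalBlock M G then (χ : G → ℂ) 1 * (χ : G → ℂ) y⁻¹ else 0) = q * z := by
      intro χ hχ
      split_ifs with hB
      · by_cases hq' : q ∣ charDegree (χ : G → ℂ)
        · obtain ⟨k, hk⟩ := hq'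
          refine ⟨k * (χ : G → ℂ) y⁻¹, (isIntegral_algebraMap (R := ℤ) (x := (k : ℤ))).mul
            (IsCharacter.isIntegral (IsIrr.isCharacter χ.2) _), ?_⟩
          rw [(IsIrr.one_eq χ.2).1, hk]; push_cast; ring
        · have h3 := hc χ hB (fun h => (Finset.mem_erase.1 hχ).1 (Subtype.ext h)) hq'
          exact ⟨0, isIntegral_zero, by rw [h3, mul_zero, mul_zero]⟩
      · exact ⟨0, isIntegral_zero, by rw [mul_zero]⟩
    choose! z hz1 hz2 using h2
    rw [Finset.sum_congr rfl hz2, ← Finset.mul_sum] at h1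
    have h3 : (q : ℂ) * (-∑ χ ∈ Finset.univ.erase (⟨fun _ => 1, isIrrCharacter_one⟩ : IrrCharacter G), z χ) = 1 := by
      have h4 : (1 : ℂ) * 1 + q * ∑ χ ∈ Finset.univ.erase (⟨fun _ => 1, isIrrCharacter_one⟩ : IrrCharacter G), z χ = 0 := h1
      linear_combination -h4
    have h4 : IsIntegral ℤ (-∑ χ ∈ Finset.univ.erase (⟨fun _ => 1, isIrrCharacter_one⟩ : IrrCharacter G), z χ) :=
      (IsIntegral.sum _ hz1).neg
    have hq0 : (q : ℂ) ≠ 0 := by exact_mod_cast hq.ne_zero
    have h5 : (-∑ χ ∈ Finset.univ.erase (⟨fun _ => 1, isIrrCharacter_one⟩ : IrrCharacter G), z χ) = ((1 / q : ℚ) : ℂ) := by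
      push_cast
      rw [eq_div_iff hq0, mul_comm]; exact h3
    obtain ⟨n, hn⟩ := int_of_isIntegral_rat h4 h5
    rw [hn] at h3
    have h6 : (q : ℤ) * n = 1 := by exact_mod_cast h3
    have h7 : (q : ℤ) ∣ 1 := ⟨n, h6.symm⟩
    have h8 := Int.natCast_dvd_natCast.1 (by exact_mod_cast h7 : ((q : ℕ) : ℤ) ∣ ((1 : ℕ) : ℤ))
    exact hq.one_lt.ne' (Nat.dvd_one.1 h8)
  obtain ⟨d, hd⟩ : ∃ d, d = charDegree (χ : G → ℂ) := ⟨_, rfl⟩
  have hd1 : (χ : G → ℂ) 1 = d := by rw [hd]; exact (IsIrr.one_eq χ.2).1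
  have hdpos : 0 < d := by rw [hd]; exact (IsIrr.one_eq χ.2).2
  have hdG : d ∣ Nat.card G := degree_dvd_card χ.2 hd1
  have hrd : ¬ r ∣ d := by
    intro h
    apply hχy
    refine defect_zero_vanish χ.2 (p := r) (n := 1) (d := d) hr (by rw [pow_one]; exact hrG) ?_ hd1
      (by rw [pow_one]; exact h) (by rw [orderOf_inv]; exact hyr)
    intro h2
    rw [hcard, pow_succ, pow_one] at h2
    have h3 : r ∣ p ^ a * q ^ b := Nat.dvd_of_mul_dvd_mul_right hr.pos h2
    rcases (hr.dvd_mul).1 h3 with h4 | h4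
    · exact hpr ((Nat.prime_dvd_prime_iff_eq hr hp.out).1 (hr.dvd_of_dvd_pow h4)).symm
    · exact hqr ((Nat.prime_dvd_prime_iff_eq hr hq).1 (hr.dvd_of_dvd_pow h4)).symm
  have hdp : ∃ c, d = p ^ c := by
    rw [← hd] at hχq
    rw [hcard] at hdG
    have h2 : d.Coprime r := (Nat.Prime.coprime_iff_not_dvd hr).2 hrd |>.symm
    have h3 : d.Coprime (q ^ b) := ((Nat.Prime.coprime_iff_not_dvd hq).2 hχq).symm.pow_right b
    have h4 := h3.dvd_of_dvd_mul_right (h2.dvd_of_dvd_mul_right hdG)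
    obtain ⟨c, -, hc⟩ := (Nat.dvd_prime_pow hp.out).1 h4
    exact ⟨c, hc⟩
  obtain ⟨c, hc⟩ := hdp
  -- a central element of a Sylow subgroup
  obtain ⟨P0⟩ : Nonempty (Sylow p G) := inferInstance
  have hP0 : Nontrivial (P0 : Subgroup G) := by
    rw [Subgroup.nontrivial_iff_ne_bot]
    exact P0.ne_bot_of_dvd_card hpG
  haveI := P0.isPGroup'.center_nontrivial
  obtain ⟨⟨⟨g, hg⟩, hgc⟩, hg1⟩ := exists_ne (1 : Subgroup.center (P0 : Subgroup G))
  have hg1' : g ≠ 1 := fun h => hg1 (Subtype.ext (Subtype.ext h))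
  have hidx : ¬ p ∣ (Subgroup.centralizer ({g} : Set G)).index := by
    intro h
    apply P0.not_dvd_index
    refine h.trans (Subgroup.index_dvd_of_le ?_)
    intro x hx
    rw [Subgroup.mem_centralizer_singleton_iff]
    exact (congrArg Subtype.val ((Subgroup.mem_center_iff.1 hgc) ⟨x, hx⟩))
  have h2 : SameBlock M (fun _ : G => (1 : ℂ)) (χ : G → ℂ) := hχB
  have h3 := h2 g
  have h4 : (χ : G → ℂ) g ≠ 0 := by
    intro h0
    rw [Cfsg.centralChar, Cfsg.centralChar, h0, mul_zero, zero_div, sub_zero, mul_one, div_one,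
      memLocalIdeal_natCast_iff hM] at h3
    exact hidx h3
  have h5 := (burnside_zero_or_norm χ.2 hd1 g (by
    rw [card_isConj_eq_index, hc]
    exact Nat.Coprime.pow_left c ((Nat.Prime.coprime_iff_not_dvd hp.out).2 hidx))).resolve_left h4
  have h6 := central_of_norm (IsIrr.isCharacter χ.2) (fun g hg => simple_faithful χ.2 hχ1 hg) (g := g) (by
    rw [h5, hd1]; simp)
  rw [hcen, Subgroup.mem_bot] at h6
  exact hg1' h6

theorem pqr_centralizer {G : Type*} [Group G] [Finite G] [IsSimpleGroup G] (p q r a b : ℕ)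
    (hp : p.Prime) (hq : q.Prime) [hr : Fact r.Prime] (hpq : p ≠ q) (hpr : p ≠ r) (hqr : q ≠ r)
    (hcard : Nat.card G = p ^ a * q ^ b * r) (S : Sylow r G) :
    Subgroup.centralizer (S : Set G) = (S : Subgroup G) := by
  classical
  haveI : Fact p.Prime := ⟨hp⟩
  haveI : Fact q.Prime := ⟨hq⟩
  have hfac : (Nat.card G).factorization r = 1 := by
    have h1 : ¬ r ∣ p ^ a * q ^ b := by
      intro h3
      rcases (hr.out.dvd_mul).1 h3 with h4 | h4
      · exact hpr ((Nat.prime_dvd_prime_iff_eq hr.out hp).1 (hr.out.dvd_of_dvd_pow h4)).symm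
      · exact hqr ((Nat.prime_dvd_prime_iff_eq hr.out hq).1 (hr.out.dvd_of_dvd_pow h4)).symm
    rw [hcard, Nat.factorization_mul (mul_ne_zero (pow_ne_zero _ hp.ne_zero) (pow_ne_zero _ hq.ne_zero))
      hr.out.ne_zero, Finsupp.add_apply, Nat.factorization_eq_zero_of_not_dvd h1, hr.out.factorization_self]
  have hS : Nat.card (S : Subgroup G) = r := by
    rw [S.card_eq_multiplicity, hfac, pow_one]
  have hScyc : IsCyclic (S : Subgroup G) := isCyclic_of_prime_card hS
  have hle : (S : Subgroup G) ≤ Subgroup.centralizer (S : Set G) := by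
    intro x hx
    rw [Subgroup.mem_centralizer_iff]
    intro y hy
    letI := hScyc.commGroup
    exact congrArg Subtype.val (mul_comm (⟨y, hy⟩ : (S : Subgroup G)) ⟨x, hx⟩)
  obtain ⟨s, hs, hs1⟩ : ∃ s ∈ (S : Subgroup G), s ≠ 1 := by
    haveI : Nontrivial (S : Subgroup G) := Finite.one_lt_card_iff_nontrivial.1 (by rw [hS]; exact hr.out.one_lt)
    obtain ⟨s, hs⟩ := exists_ne (1 : (S : Subgroup G))
    exact ⟨s, s.2, fun h => hs (Subtype.ext h)⟩
  have hso : orderOf s = r := by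
    have h1 : orderOf (⟨s, hs⟩ : (S : Subgroup G)) ∣ r := by
      have h2 := orderOf_dvd_natCard (⟨s, hs⟩ : (S : Subgroup G))
      rwa [hS] at h2
    rw [Subgroup.orderOf_mk] at h1
    rcases (Nat.dvd_prime hr.out).1 h1 with h | h
    · exact absurd (orderOf_eq_one_iff.1 h) hs1
    · exact h
  -- no element of order p or q centralizes s
  have key : ∀ (t t' : ℕ) (c c' : ℕ), t.Prime → t'.Prime → t ≠ t' → t ≠ r → t' ≠ r →
      Nat.card G = t ^ c * t' ^ c' * r → ¬ t ∣ Nat.card (Subgroup.centralizer (S : Set G)) := by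
    intro t t' c c' ht ht' htt' htr ht'r hcd hdvd
    haveI : Fact t.Prime := ⟨ht⟩
    obtain ⟨z, hz⟩ := exists_prime_orderOf_dvd_card' t hdvd
    have hzo : orderOf (z : G) = t := by rw [Subgroup.orderOf_coe, hz]
    have hcomm : Commute (z : G) s := ((Subgroup.mem_centralizer_iff.1 z.2) s hs).symm
    have hcop : (orderOf (z : G)).Coprime (orderOf s) := by
      rw [hzo, hso]; exact (Nat.coprime_primes ht hr.out).2 htr
    have ho := hcomm.orderOf_mul_eq_mul_orderOf_of_coprime hcop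
    rw [hzo, hso] at ho
    exact pqr_aux (p := t) (q := t') (r := r) ht' hr.out htt' htr ht'r hcd (y := (z : G) * s)
      (by rw [ho]; exact dvd_mul_right _ _) (by rw [ho]; exact dvd_mul_left _ _)
  have hp' := key p q a b hp hq hpq hpr hqr hcard
  have hq' := key q p b a hq hp hpq.symm hqr hpr (by rw [hcard, mul_comm (p ^ a)])
  have h1 : Nat.card (Subgroup.centralizer (S : Set G)) ∣ r := by
    have h2 : Nat.card (Subgroup.centralizer (S : Set G)) ∣ p ^ a * q ^ b * r :=
      hcard ▸ Subgroup.card_subgroup_dvd_card _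
    have h3 : (Nat.card (Subgroup.centralizer (S : Set G))).Coprime (p ^ a * q ^ b) := by
      refine Nat.Coprime.mul_right ?_ ?_
      · exact ((Nat.Prime.coprime_iff_not_dvd hp).2 hp').symm.pow_right a
      · exact ((Nat.Prime.coprime_iff_not_dvd hq).2 hq').symm.pow_right b
    exact h3.dvd_of_dvd_mul_left h2
  have h2 : Nat.card (Subgroup.centralizer (S : Set G)) ≤ Nat.card (S : Subgroup G) := by
    rw [hS]; exact Nat.le_of_dvd hr.out.pos h1
  exact (Subgroup.eq_of_le_of_card_ge hle h2).symm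

end CfsgH5
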