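import Cfsg.Agent.H5.Kuls
import Cfsg.Agent.H5.Weak
import Cfsg.Agent.H5.MinMax
import Cfsg.Agent.H5.LemN
import Cfsg.Agent.H4.Bp1
import Cfsg.Agent.H4.Classes

/-!
# Counting blocks by classes
-/

set_option autoImplicit false
open Cfsg MonoidAlgebra
open CfsgH4 hiding centralChar sum_conj

namespace CfsgH5

universe u

section Lin

variable {F : Type*} [Field F]

open Classical in
theorem card_le_of_inverse {X Y : Type*} [Fintype X] [Fintype Y] (A : Y → X → F) (L : X → Y → F)
    (h : ∀ y y', (∑ x, A y x * L x y') = if y = y' then 1 else 0) : Nat.card Y ≤ Nat.card X := by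
  let T : (Y → F) →ₗ[F] (X → F) :=
    { toFun := fun w x => ∑ y, w y * A y x
      map_add' := by
        intro a b; ext x
        simp only [Pi.add_apply, add_mul, Finset.sum_add_distrib]
      map_smul' := by
        intro c a; ext x
        simp only [Pi.smul_apply, smul_eq_mul, RingHom.id_apply, Finset.mul_sum, mul_assoc] }
  have hT : Function.Injective T := by
    rw [← LinearMap.ker_eq_bot, LinearMap.ker_eq_bot']
    intro w hw
    ext y'
    have h1 : ∑ x, (T w x) * L x y' = w y' := by
      have h2 : ∀ x, (T w x) * L x y' = ∑ y, w y * (A y x * L x y') := by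
        intro x
        show (∑ y, w y * A y x) * L x y' = _
        rw [Finset.sum_mul]
        exact Finset.sum_congr rfl fun y _ => by ring
      rw [Finset.sum_congr rfl fun x _ => h2 x, Finset.sum_comm]
      simp_rw [← Finset.mul_sum, h]
      simp
    rw [← h1, hw]
    simp
  have h2 := LinearMap.finrank_le_finrank_of_injective hT
  rw [Module.finrank_fintype_fun_eq_card, Module.finrank_fintype_fun_eq_card] at h2
  rwa [Nat.card_eq_fintype_card, Nat.card_eq_fintype_card]

theorem card_le_of_inj {X Y : Type*} [Fintype X] [Fintype Y] (L : X → Y → F)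
    (h : ∀ c : X → F, (∀ y, ∑ x, c x * L x y = 0) → c = 0) : Nat.card X ≤ Nat.card Y := by
  let T : (X → F) →ₗ[F] (Y → F) :=
    { toFun := fun w y => ∑ x, w x * L x y
      map_add' := by
        intro a b; ext x
        simp only [Pi.add_apply, add_mul, Finset.sum_add_distrib]
      map_smul' := by
        intro c a; ext x
        simp only [Pi.smul_apply, smul_eq_mul, RingHom.id_apply, Finset.mul_sum, mul_assoc] }
  have hT : Function.Injective T := by
    rw [← LinearMap.ker_eq_bot, LinearMap.ker_eq_bot']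
    intro w hw
    exact h w fun y => congrFun hw y
  have h2 := LinearMap.finrank_le_finrank_of_injective hT
  rw [Module.finrank_fintype_fun_eq_card, Module.finrank_fintype_fun_eq_card] at h2
  rwa [Nat.card_eq_fintype_card, Nat.card_eq_fintype_card]

end Lin

/-- a representative of a conjugacy class -/
noncomputable def clsRep {G : Type u} [Group G] (C : ConjClasses G) : G := Quotient.out C

theorem mk_clsRep {G : Type u} [Group G] (C : ConjClasses G) : ConjClasses.mk (clsRep C) = C := Quotient.out_eq C

variable {G : Type u} [Group G] [Finite G] {M : Ideal AlgInt} {p : ℕ} [hp : Fact p.Prime]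

open Classical in
theorem block_class_sum (B : Set (IrrCharacter G)) (χ : IrrCharacter G) :
    ∑ C : ConjClasses G, blockCoeff B (clsRep C) * Cfsg.centralChar (χ : G → ℂ) (clsRep C) =
      if χ ∈ B then 1 else 0 := by
  haveI : Fintype G := Fintype.ofFinite _
  rw [← om_eSet B χ, om, ev_eq_sum]
  have h1 : ∑ g : G, (eSet B).coeff g * (χ : G → ℂ) g = ∑ C : ConjClasses G,
      (Nat.card {x : G // IsConj (Quotient.out C) x} : ℂ) *
        (blockCoeff B (Quotient.out C) * (χ : G → ℂ) (Quotient.out C)) := by
    refine (Finset.sum_congr rfl fun g _ => ?_).trans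
      (sum_eq_sum_classes (F := fun g => blockCoeff B g * (χ : G → ℂ) g) ?_)
    · rfl
    · intro x y hxy
      show blockCoeff B x * (χ : G → ℂ) x = blockCoeff B y * (χ : G → ℂ) y
      rw [blockCoeff_conj B hxy, IsClassFunction.eq_of_isConj (IsIrr.isClassFunction χ.2) hxy]
  rw [h1, Finset.sum_div]
  refine Finset.sum_congr rfl fun C _ => ?_
  show blockCoeff B (Quotient.out C) * Cfsg.centralChar (χ : G → ℂ) (Quotient.out C) = _
  rw [Cfsg.centralChar, card_isConj_eq_index]
  ring

open Classical in
theorem block_count_le [Fintype {B : Set (IrrCharacter G) // IsPBlock M B}] (hM : IsPModular p M)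
    (Y : Set (Set (IrrCharacter G))) (hY : ∀ B ∈ Y, IsPBlock M B)
    (X : Set (ConjClasses G))
    (hX : ∀ B ∈ Y, ∀ χ ∈ B, ∀ g : G, ¬ p ∣ orderOf g →
      ¬ MemLocalIdeal M (Cfsg.centralChar (χ : G → ℂ) g) → ConjClasses.mk g ∈ X) :
    Nat.card Y ≤ Nat.card X := by
  haveI := IsPModular.isPrime hM
  haveI : Finite Y := by
    have : Finite {B : Set (IrrCharacter G) // IsPBlock M B} := inferInstance
    exact Finite.of_injective (fun y : Y => (⟨y.1, hY y.1 y.2⟩ : {B : Set (IrrCharacter G) // IsPBlock M B}))
      (fun a b h => Subtype.ext (congrArg (fun t => t.1) h))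
  haveI : Fintype Y := Fintype.ofFinite _
  haveI : Fintype X := Fintype.ofFinite _
  have hne : ∀ y : Y, ∃ χ, χ ∈ y.1 := fun y => IsPBlock.nonempty (hY y.1 y.2)
  choose χ hχ using hne
  refine card_le_of_inverse (F := kk M) (fun y x => resid M (blockCoeff y.1 (clsRep x.1)))
    (fun x y => resid M (Cfsg.centralChar (χ y : G → ℂ) (clsRep x.1))) ?_
  intro y y'
  have hS : ∀ g, MemLocalRing M (blockCoeff y.1 g) := fun g => inS_eSet (hY y.1 y.2) g
  have hC : ∀ g, MemLocalRing M (Cfsg.centralChar (χ y' : G → ℂ) g) := fun g => memLocalRing_centralChar (χ y').2 g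
  have h1 := congrArg (resid M) (block_class_sum y.1 (χ y'))
  rw [resid_sum Finset.univ (fun C : ConjClasses G => blockCoeff y.1 (clsRep C) * Cfsg.centralChar (χ y' : G → ℂ) (clsRep C)) (fun C _ => MemLocalRing.mul (hS _) (hC _))] at h1
  have h2 : (if χ y' ∈ y.1 then (1 : ℂ) else 0) = if y = y' then 1 else 0 := by
    by_cases h : y = y'
    · rw [if_pos h, if_pos (by rw [h]; exact hχ y')]
    · rw [if_neg h, if_neg]
      intro hm
      apply h
      apply Subtype.ext
      ext ψ
      rw [IsPBlock.mem_iff (hY y.1 y.2) hm, IsPBlock.mem_iff (hY y'.1 y'.2) (hχ y')]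
  rw [h2] at h1
  have h3 : resid M (if y = y' then (1 : ℂ) else 0) = if y = y' then 1 else 0 := by
    split_ifs
    · exact resid_one
    · exact resid_zero
  rw [h3] at h1
  refine Eq.trans ?_ (h1.trans (by congr))
  have h4 : ∀ C : ConjClasses G, C ∉ X →
      resid M (blockCoeff y.1 (clsRep C) * Cfsg.centralChar (χ y' : G → ℂ) (clsRep C)) = 0 := by
    intro C hCX
    rw [resid_eq_zero_iff (MemLocalRing.mul (hS _) (hC _))]
    by_cases hreg : p ∣ orderOf (clsRep C)
    · rw [blockCoeff_singular hM (inS_eSet (hY y.1 y.2)) hreg, zero_mul]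
      exact memLocalIdeal_zero
    · apply MemLocalIdeal.mul_left (hS _)
      by_contra hc
      apply hCX
      have h5 := hX y'.1 y'.2 (χ y') (hχ y') _ hreg hc
      rwa [mk_clsRep] at h5
  rw [← Finset.sum_subset (Finset.subset_univ (Finset.univ.filter (· ∈ X)))
    (fun C _ hC => h4 C (by simpa using hC))]
  rw [Finset.sum_subtype (p := (· ∈ X)) (Finset.univ.filter (· ∈ X)) (by simp)]
  refine Finset.sum_congr rfl fun x _ => ?_
  rw [resid_mul (hS _) (hC _)]

theorem card_blocks_defect (hM : IsPModular p M) (d : ℕ) :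
    Nat.card {B : Set (IrrCharacter G) // IsPBlock M B ∧ d ≤ blockDefect p B} ≤
    Nat.card {C : ConjClasses G // ∃ g : G, ConjClasses.mk g = C ∧ IsPRegular p g ∧
      d ≤ (Nat.card (Subgroup.centralizer ({g} : Set G))).factorization p} := by
  classical
  haveI := IsPModular.isPrime hM
  haveI : Fintype {B : Set (IrrCharacter G) // IsPBlock M B} := Fintype.ofFinite _
  refine block_count_le hM {B | IsPBlock M B ∧ d ≤ blockDefect p B} (fun B h => h.1)
    {C | ∃ g : G, ConjClasses.mk g = C ∧ IsPRegular p g ∧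
      d ≤ (Nat.card (Subgroup.centralizer ({g} : Set G))).factorization p} ?_
  rintro B ⟨hB, hd⟩ χ hχ g hg hc
  obtain ⟨D, hD⟩ := exists_defectGroup hM hB
  obtain ⟨x, hx, hDx⟩ := defect_le_centralizer hM hB hD hχ hc
  refine ⟨x, (ConjClasses.mk_eq_mk_iff_isConj.2 hx).symm, ?_, ?_⟩
  · show ¬ p ∣ orderOf x
    obtain ⟨c, hc⟩ := isConj_iff.1 hx
    rw [← hc, CfsgH3.orderOf_conj]
    exact hg
  · refine hd.trans ?_
    have h1 := Subgroup.card_dvd_of_le hDx
    rw [defectGroup_card hM hB hD] at h1
    exact (Nat.Prime.pow_dvd_iff_le_factorization hp.out Nat.card_pos.ne').1 h1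

/-- the number of blocks of a group with a normal Sylow p-subgroup -/
theorem card_blocks_normal_sylow (hM : IsPModular p M) (P : Subgroup G) [hPn : P.Normal] (hP : IsPGroup p P)
    (hPi : ¬ p ∣ P.index) :
    Nat.card {B : Set (IrrCharacter G) // IsPBlock M B} =
    Nat.card {C : ConjClasses G // ∀ n : G, ConjClasses.mk n = C →
      ¬ p ∣ orderOf n ∧ n ∈ Subgroup.centralizer (P : Set G)} := by
  classical
  haveI := IsPModular.isPrime hM
  haveI : Fintype G := Fintype.ofFinite _
  haveI : Fintype {B : Set (IrrCharacter G) // IsPBlock M B} := Fintype.ofFinite _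
  obtain ⟨X, hXdef⟩ : ∃ X : Set (ConjClasses G), X = {C : ConjClasses G | ∀ n : G, ConjClasses.mk n = C →
      ¬ p ∣ orderOf n ∧ n ∈ Subgroup.centralizer (P : Set G)} := ⟨_, rfl⟩
  have hmemX : ∀ g : G, ConjClasses.mk g ∈ X ↔ (¬ p ∣ orderOf g ∧ g ∈ Subgroup.centralizer (P : Set G)) := by
    intro g
    rw [hXdef]
    constructor
    · intro h; exact h g rfl
    · rintro ⟨h1, h2⟩ n hn
      obtain ⟨c, hc⟩ := isConj_iff.1 (ConjClasses.mk_eq_mk_iff_isConj.1 hn.symm)
      rw [← hc, CfsgH3.orderOf_conj]
      refine ⟨h1, ?_⟩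
      exact (inferInstance : (Subgroup.centralizer (P : Set G)).Normal).conj_mem g h2 c
  haveI : Fintype X := Fintype.ofFinite _
  have hgoal : Nat.card {B : Set (IrrCharacter G) // IsPBlock M B} = Nat.card X := by
    apply le_antisymm
    · refine block_count_le hM {B | IsPBlock M B} (fun B h => h) X ?_
      intro B hB χ hχ g hg hc
      rw [hmemX]
      refine ⟨hg, ?_⟩
      by_contra h
      exact hc (centralChar_mem_of_notMem hM hP h χ.2)
    · have hne : ∀ y : {B : Set (IrrCharacter G) // IsPBlock M B}, ∃ χ, χ ∈ y.1 :=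
        fun y => IsPBlock.nonempty y.2
      choose χ hχ using hne
      refine card_le_of_inj (F := kk M)
        (fun (x : X) y => resid M (Cfsg.centralChar (χ y : G → ℂ) (clsRep x.1))) ?_
      intro c hc
      have hcsx : ∀ (x : X) (g : G), (cs ℂ (clsRep x.1)).coeff g = if ConjClasses.mk g = x.1 then 1 else 0 := by
        intro x g
        rw [coeff_cs]
        by_cases h : IsConj (clsRep x.1) g
        · rw [if_pos h, if_pos]
          rw [← mk_clsRep x.1]
          exact (ConjClasses.mk_eq_mk_iff_isConj.2 h).symm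
        · rw [if_neg h, if_neg]
          intro h2
          rw [← mk_clsRep x.1] at h2
          exact h (ConjClasses.mk_eq_mk_iff_isConj.1 h2.symm)
      obtain ⟨α, hα⟩ : ∃ α : MonoidAlgebra ℂ G, α = ∑ x : X, rsec (c x) • cs ℂ (clsRep x.1) := ⟨_, rfl⟩
      have hαc : IsCen α := by
        rw [hα]
        exact isCen_sum _ _ (fun x _ => (isCen_cs _).smul _)
      have hαS : InS M α := by
        rw [hα]
        exact inS_sum _ _ (fun x _ => InS.smul (rsec_mem _) (inS_cs _))
      have hαcoeff : ∀ g : G, α.coeff g = ∑ x : X, rsec (c x) * (if ConjClasses.mk g = x.1 then 1 else 0) := by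
        intro g
        rw [hα, MonoidAlgebra.coeff_sum]
        simp only [Finsupp.finset_sum_apply]
        refine Finset.sum_congr rfl fun x _ => ?_
        rw [← hcsx x g]; rfl
      have hom : ∀ ψ : IrrCharacter G, MemLocalIdeal M (om (ψ : G → ℂ) α) := by
        intro ψ
        have hC : ∀ g, MemLocalRing M (Cfsg.centralChar (ψ : G → ℂ) g) := fun g => memLocalRing_centralChar ψ.2 g
        have h1 : om (ψ : G → ℂ) α = ∑ x : X, rsec (c x) * Cfsg.centralChar (ψ : G → ℂ) (clsRep x.1) := by
          rw [hα, om_sum]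
          refine Finset.sum_congr rfl fun x _ => ?_
          rw [om_smul, om_cs ψ.2]
        rw [h1, ← resid_eq_zero_iff (memLocalRing_sum _ _ fun x _ => MemLocalRing.mul (rsec_mem _) (hC _)),
          resid_sum Finset.univ (fun x : X => rsec (c x) * Cfsg.centralChar (ψ : G → ℂ) (clsRep x.1))
            (fun x _ => MemLocalRing.mul (rsec_mem _) (hC _))]
        refine Eq.trans ?_ (hc ⟨blockOf M (ψ : G → ℂ), isPBlock_blockOf ψ⟩)
        refine Finset.sum_congr rfl fun x _ => ?_
        rw [resid_mul (rsec_mem _) (hC _), resid_rsec]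
        congr 1
        rw [resid_eq_iff (hC _) (memLocalRing_centralChar (χ _).2 _)]
        have h2 : SameBlock M (ψ : G → ℂ) (χ ⟨blockOf M (ψ : G → ℂ), isPBlock_blockOf ψ⟩ : G → ℂ) :=
          hχ ⟨blockOf M (ψ : G → ℂ), isPBlock_blockOf ψ⟩
        exact h2 _
      have hnil := nilp hαc hαS hom
      ext x0
      obtain ⟨g0, hg0⟩ : ∃ g0 : G, g0 = clsRep x0.1 := ⟨_, rfl⟩
      have hg0X : ConjClasses.mk g0 = x0.1 := by rw [hg0, mk_clsRep]
      have hg0' := (hmemX g0).1 (hg0X ▸ x0.2)
      obtain ⟨n, hn1, hn2, hn3⟩ := exists_good_pow (p := p) hg0'.1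
      have hpow : InP M (α ^ p ^ n) := by
        have h1 : α ^ p ^ n = α ^ Nat.card (IrrCharacter G) * α ^ (p ^ n - Nat.card (IrrCharacter G)) := by
          rw [← pow_add]; congr 1; omega
        rw [h1]
        exact InP.mul_right hnil (InS.pow hαS _)
      obtain ⟨β, hβ⟩ : ∃ β : MonoidAlgebra ℂ G, β = α * single g0⁻¹ 1 := ⟨_, rfl⟩
      have hβS : InS M β := by rw [hβ]; exact InS.mul hαS (inS_single memLocalRing_one _)
      have hβc : ∀ g : G, β.coeff g = α.coeff (g * g0) := by
        intro g
        rw [hβ, coeff_mul_single_apply, inv_inv, mul_one]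
      have hβp : (β ^ p ^ n).coeff 1 = (α ^ p ^ n).coeff g0 := by
        have h1 : β ^ p ^ n = α ^ p ^ n * single (g0⁻¹ ^ p ^ n) 1 := by
          have hcm : Commute α (single g0⁻¹ 1) := hαc.comm _
          rw [hβ, hcm.mul_pow, MonoidAlgebra.single_pow, one_pow]
        rw [h1, coeff_mul_single_apply, inv_pow, hn2, inv_inv, one_mul, mul_one]
      have h4 := coeff_pow_one hM β hβS n
      have h5 : ∑ g : G, (if g ^ p ^ n = 1 then β.coeff g ^ p ^ n else 0) = α.coeff g0 ^ p ^ n := by
        rw [Finset.sum_eq_single (1 : G)]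
        · rw [if_pos (one_pow _), hβc, one_mul]
        · intro g _ hg
          split_ifs with hgp
          · rw [hβc]
            have h6 : α.coeff (g * g0) = 0 := by
              rw [hαcoeff]
              refine Finset.sum_eq_zero fun x _ => ?_
              rw [if_neg, mul_zero]
              intro hx
              have h7 := (hmemX (g * g0)).1 (hx ▸ x.2)
              obtain ⟨k, hk⟩ := (hn3 g).2 hgp
              have hgP : g ∈ P := by
                rw [← QuotientGroup.eq_one_iff, ← orderOf_eq_one_iff]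
                have h8 : orderOf (g : G ⧸ P) ∣ p ^ k := hk ▸ orderOf_map_dvd (QuotientGroup.mk' P) g
                have h9 : orderOf (g : G ⧸ P) ∣ P.index := orderOf_dvd_natCard _
                obtain ⟨j, -, hj⟩ := (Nat.dvd_prime_pow hp.out).1 h8
                rcases Nat.eq_zero_or_pos j with h0 | h0
                · rw [hj, h0, pow_zero]
                · exact absurd ((dvd_pow_self p h0.ne').trans (hj ▸ h9)) hPi
              have hcomm : Commute g g0 := Subgroup.mem_centralizer_iff.1 hg0'.2 g hgP
              have hcop : (orderOf g).Coprime (orderOf g0) := by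
                rw [hk]
                exact Nat.Coprime.pow_left k ((Nat.Prime.coprime_iff_not_dvd hp.out).2 hg0'.1)
              have h10 := hcomm.orderOf_mul_eq_mul_orderOf_of_coprime hcop
              apply h7.1
              rw [h10, hk]
              rcases Nat.eq_zero_or_pos k with h0 | h0
              · exfalso
                rw [h0, pow_zero, orderOf_eq_one_iff] at hk
                exact hg hk
              · exact (dvd_pow_self p h0.ne').mul_right _
            rw [h6, zero_pow (pow_pos hp.out.pos n).ne']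
          · rfl
        · intro h; exact absurd (Finset.mem_univ _) h
      rw [h5, hβp] at h4
      have h6 : MemLocalIdeal M (α.coeff g0 ^ p ^ n) := by
        have h7 := MemLocalIdeal.sub (hpow g0) h4
        rwa [sub_sub_cancel] at h7
      rw [memLocalIdeal_pow_iff (hαS g0) (pow_pos hp.out.pos n).ne'] at h6
      have h7 : α.coeff g0 = rsec (c x0) := by
        rw [hαcoeff, Finset.sum_eq_single x0]
        · rw [if_pos hg0X, mul_one]
        · intro x _ hx
          rw [if_neg, mul_zero]
          intro h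
          exact hx (Subtype.ext (h.symm.trans hg0X))
        · intro h; exact absurd (Finset.mem_univ _) h
      rw [h7, ← resid_eq_zero_iff (rsec_mem _), resid_rsec] at h6
      exact h6
  rw [hgoal, hXdef]
  rfl

theorem isInducedBlock_unique [hMp : M.IsPrime] {H : Subgroup G} {b : Set (IrrCharacter H)}
    {B B' : Set (IrrCharacter G)} (h : IsInducedBlock M H b B) (h' : IsInducedBlock M H b B') : B = B' := by
  obtain ⟨ξ, hξ⟩ := IsPBlock.nonempty h.1
  obtain ⟨χ, hχ⟩ := IsPBlock.nonempty h.2.1
  have key : ∀ χ' ∈ B', SameBlock M (χ : G → ℂ) (χ' : G → ℂ) := by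
    intro χ' hχ' g
    have h1 := MemLocalIdeal.sub (h'.2.2 ξ hξ χ' hχ' g) (h.2.2 ξ hξ χ hχ g)
    have h2 : inducedCentralChar H (ξ : H → ℂ) g - Cfsg.centralChar (χ' : G → ℂ) g -
        (inducedCentralChar H (ξ : H → ℂ) g - Cfsg.centralChar (χ : G → ℂ) g) =
        Cfsg.centralChar (χ : G → ℂ) g - Cfsg.centralChar (χ' : G → ℂ) g := by ring
    rwa [h2] at h1
  obtain ⟨χ', hχ'⟩ := IsPBlock.nonempty h'.2.1
  have h1 : χ' ∈ B := (IsPBlock.mem_iff h.2.1 hχ).2 (key χ' hχ')
  ext ψ
  rw [IsPBlock.mem_iff h.2.1 h1, IsPBlock.mem_iff h'.2.1 hχ']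

theorem card_blocks_sylow (hM : IsPModular p M) (P : Sylow p G) :
    Nat.card {B : Set (IrrCharacter G) // IsPBlock M B ∧ IsDefectGroup p M B (P : Subgroup G)} =
    Nat.card {C : ConjClasses (Subgroup.normalizer ((P : Subgroup G) : Set G)) //
      ∀ n : Subgroup.normalizer ((P : Subgroup G) : Set G), ConjClasses.mk n = C →
        ¬ p ∣ orderOf n ∧ (n : G) ∈ Subgroup.centralizer ((P : Subgroup G) : Set G)} := by
  classical
  haveI := IsPModular.isPrime hM
  have hP := P.isPGroup'
  obtain ⟨D, hD⟩ : ∃ D : Subgroup (Subgroup.normalizer ((P : Subgroup G) : Set G)),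
    D = (P : Subgroup G).subgroupOf (Subgroup.normalizer ((P : Subgroup G) : Set G)) := ⟨_, rfl⟩
  haveI hDn : D.Normal := by rw [hD]; exact Subgroup.normal_subgroupOf_of_le_normalizer le_rfl
  have hDp : IsPGroup p D := by
    rw [hD]; exact hP.of_equiv (Subgroup.subgroupOfEquivOfLe Subgroup.le_normalizer).symm
  have hDi : ¬ p ∣ D.index := by
    rw [hD]
    intro h
    exact P.not_dvd_index (h.trans (Subgroup.relIndex_dvd_index_of_le Subgroup.le_normalizer))
  have h1 := card_blocks_normal_sylow hM D hDp hDi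
  have hcz : ∀ n : Subgroup.normalizer ((P : Subgroup G) : Set G),
      n ∈ Subgroup.centralizer (D : Set (Subgroup.normalizer ((P : Subgroup G) : Set G))) ↔
      (n : G) ∈ Subgroup.centralizer ((P : Subgroup G) : Set G) := by
    intro n
    rw [Subgroup.mem_centralizer_iff, Subgroup.mem_centralizer_iff]
    constructor
    · intro h x hx
      have h2 := h ⟨x, Subgroup.le_normalizer hx⟩ (by rw [hD]; exact hx)
      exact congrArg Subtype.val h2
    · intro h x hx
      rw [hD] at hx
      exact Subtype.ext (h x hx)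
  have h2 : Nat.card {C : ConjClasses (Subgroup.normalizer ((P : Subgroup G) : Set G)) //
      ∀ n : Subgroup.normalizer ((P : Subgroup G) : Set G), ConjClasses.mk n = C →
        ¬ p ∣ orderOf n ∧ (n : G) ∈ Subgroup.centralizer ((P : Subgroup G) : Set G)} =
      Nat.card {C : ConjClasses (Subgroup.normalizer ((P : Subgroup G) : Set G)) //
      ∀ n : Subgroup.normalizer ((P : Subgroup G) : Set G), ConjClasses.mk n = C →
        ¬ p ∣ orderOf n ∧ n ∈ Subgroup.centralizer (D : Set (Subgroup.normalizer ((P : Subgroup G) : Set G)))} := by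
    simp only [hcz]
  rw [h2, ← h1]
  -- all blocks of the normalizer have defect group D
  have hall : ∀ b : Set (IrrCharacter (Subgroup.normalizer ((P : Subgroup G) : Set G))), IsPBlock M b →
      IsDefectGroup p M b ((P : Subgroup G).subgroupOf (Subgroup.normalizer ((P : Subgroup G) : Set G))) := by
    intro b hb
    obtain ⟨E, hE⟩ := exists_defectGroup hM hb
    have h3 : D ≤ E := normal_le_defect hM hb hE hDp
    have hEp : IsPGroup p E := IsDefectGroup.isPGroup hE
    have h4 : E ≤ D := by
      have h5 := (hDp.toSylow hDi).is_maximal' (Q := E) hEp (by exact h3)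
      exact le_of_eq h5
    rw [← hD, le_antisymm h3 h4]
    exact hE
  symm
  have hdef : ∀ b : {b : Set (IrrCharacter (Subgroup.normalizer ((P : Subgroup G) : Set G))) // IsPBlock M b},
      ∃ B : {B : Set (IrrCharacter G) // IsPBlock M B ∧ IsDefectGroup p M B (P : Subgroup G)},
        IsInducedBlock M (Subgroup.normalizer ((P : Subgroup G) : Set G)) b.1 B.1 := by
    intro b
    obtain ⟨B, hB⟩ := inducedBlockDefined hM hP Subgroup.le_normalizer centralizer_le_normalizer' le_rfl b.2
    exact ⟨⟨B, hB.2.1, first_main_defect hM hP (hall b.1 b.2) hB⟩, hB⟩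
  choose f hf using hdef
  refine Nat.card_congr (Equiv.ofBijective f ⟨?_, ?_⟩)
  · intro a b hab
    apply Subtype.ext
    exact first_main_unique hM hP (hall a.1 a.2) (hf a) (by rw [hab]; exact hf b)
  · rintro ⟨B, hB, hBD⟩
    obtain ⟨b, -, hb⟩ := first_main_exists hM hP hB hBD
    refine ⟨⟨b, hb.1⟩, Subtype.ext ?_⟩
    exact isInducedBlock_unique (hf ⟨b, hb.1⟩) hb

end CfsgH5
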