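import Cfsg.Agent.H5.Over2
import Cfsg.Agent.H4.Cov4
import Cfsg.Agent.H1.Basic

/-!
# Covering blocks of maximal defect over an invariant block
-/

set_option autoImplicit false
open Cfsg MonoidAlgebra
open CfsgH4 hiding centralChar sum_conj

namespace CfsgH5

open scoped ComplexConjugate

section Fong

variable {G : Type*} [Group G] [Fintype G] {M : Ideal AlgInt} {p : ℕ} [hp : Fact p.Prime]

/-- the central characters over an invariant block on elements of the normal subgroup -/
theorem cc_over [hMp : M.IsPrime] {N : Subgroup G} [hN : N.Normal] [Fintype N]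
    {b : Set (IrrCharacter N)} (hb : IsPBlock M b) (hst : ∀ (x : G) (θ : IrrCharacter N), θ ∈ b → cjI N x θ ∈ b)
    {χ : IrrCharacter G} {θ : IrrCharacter N} (hθ : θ ∈ b)
    (h : classInner (fun n : N => (χ : G → ℂ) n) (θ : N → ℂ) ≠ 0) (g : N) :
    MemLocalIdeal M (Cfsg.centralChar (χ : G → ℂ) (g : G) -
      ((Subgroup.centralizer ({(g : G)} : Set G) ⊔ N).index : ℂ) * Cfsg.centralChar (θ : N → ℂ) g) := by
  classical
  set C := Subgroup.centralizer ({(g : G)} : Set G) with hC
  haveI : Fintype (G ⧸ (C ⊔ N)) := Fintype.ofFinite _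
  rw [centralChar_quot h g C hC]
  have h3 : ((C ⊔ N).index : ℂ) * Cfsg.centralChar (θ : N → ℂ) g =
      ∑ q : G ⧸ (C ⊔ N), Cfsg.centralChar (θ : N → ℂ) g := by
    rw [Finset.sum_const, Finset.card_univ, nsmul_eq_mul, Subgroup.index_eq_card,
      Nat.card_eq_fintype_card]
  rw [h3, ← Finset.sum_sub_distrib]
  refine memLocalIdeal_sum _ _ fun q _ => ?_
  have h4 := IsPBlock.eq_blockOf hb hθ
  have h5 := hst q.out θ hθ
  rw [h4] at h5
  exact (sameBlock_symm h5) g

theorem idH_central_of_stab [hMp : M.IsPrime] {N : Subgroup G} [hN : N.Normal] [Fintype N]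
    {b : Set (IrrCharacter N)} (hb : IsPBlock M b)
    (hst : ∀ (x : G) (θ : IrrCharacter N), θ ∈ b → cjI N x θ ∈ b) :
    Fx (⊤ : Subgroup G) (idH M N b) := by
  rw [← stab_top_iff hb]
  intro x
  refine ⟨mem_nz_normal x, fun χ hχ => ⟨cjI N x⁻¹ χ, hst x⁻¹ χ hχ, ?_⟩⟩
  intro k k' hk
  rw [cjI_apply]
  refine congrArg (χ : N → ℂ) (Subtype.ext ?_)
  show x⁻¹ * (k' : G) * (x⁻¹)⁻¹ = k
  rw [hk]; group

theorem exists_full_cover (hM : IsPModular p M) {N : Subgroup G} [hN : N.Normal] [Fintype N]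
    {b : Set (IrrCharacter N)} (hb : IsPBlock M b)
    (hst : ∀ (x : G) (θ : IrrCharacter N), θ ∈ b → cjI N x θ ∈ b) :
    ∃ (B : Set (IrrCharacter G)) (P : Subgroup G), IsPBlock M B ∧ Covers N B b ∧
      IsDefectGroup p M B P ∧ ¬ p ∣ (P ⊔ N).index := by
  classical
  haveI := IsPModular.isPrime hM
  have hfx := idH_central_of_stab hb hst
  have hcen : IsCen (idH M N b) := fx_top.1 hfx
  have hbl := isBl_idH (M := M) (H := N) hb
  obtain ⟨θ, rfl⟩ := id hb
  have hθ : θ ∈ blockOf M (θ : N → ℂ) := mem_blockOf_self θ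
  obtain ⟨χ, hχ⟩ := exists_over (N := N) θ
  -- a class of `N`
  have h1 : lam θ (rsK N (idH M N (blockOf M (θ : N → ℂ)))) = 1 := by
    rw [← mul_idH_iff hb hbl.sup hbl.fx hbl.idem hθ]
    exact hbl.idem
  have h2 : lam χ (idH M N (blockOf M (θ : N → ℂ))) = 1 := by
    rw [lam_res hbl.sup hfx hχ, h1]
  obtain ⟨g, hg1, hg2⟩ := exists_class_lam hcen (χ := χ) (by rw [h2]; exact one_ne_zero)
  have hgN : g ∈ N := by
    by_contra h
    exact hg1 (hbl.sup g h)
  -- a block of `G` containing the class in its idempotent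
  haveI : Fintype {B : Set (IrrCharacter G) // IsPBlock M B} := Fintype.ofFinite _
  have h3 : ∃ B : {B : Set (IrrCharacter G) // IsPBlock M B},
      (idB M B.1 * idH M N (blockOf M (θ : N → ℂ))).coeff g ≠ 0 := by
    by_contra hc
    push Not at hc
    apply hg1
    have h4 : idH M N (blockOf M (θ : N → ℂ)) =
        ∑ B : {B : Set (IrrCharacter G) // IsPBlock M B}, idB M B.1 * idH M N (blockOf M (θ : N → ℂ)) := by
      rw [← Finset.sum_mul, sum_idB, one_mul]
    rw [h4, coeff_sum, Finsupp.finset_sum_apply]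
    exact Finset.sum_eq_zero fun B _ => hc B
  obtain ⟨⟨B, hB⟩, hBg⟩ := h3
  have hne : idB M B * idH M N (blockOf M (θ : N → ℂ)) ≠ 0 := by
    intro h
    rw [h] at hBg
    exact hBg rfl
  have hcov : Covers N B (blockOf M (θ : N → ℂ)) := (cover_iff hB hb).2 hne
  have hmul : idB M B * idH M N (blockOf M (θ : N → ℂ)) = idB M B := by
    have hcomm : idB M B * idH M N (blockOf M (θ : N → ℂ)) = idH M N (blockOf M (θ : N → ℂ)) * idB M B :=
      (isBl_top hB).fx.comm_sup (sup_top _)
    rcases idB_prim hB hcen hbl.idem with h | h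
    · rw [hcomm]; exact h
    · exact absurd (hcomm.trans h) hne
  rw [hmul] at hBg
  have hS : MemLocalRing M (blockCoeff B g) := inS_eSet hB g
  have hB1 : ¬ MemLocalIdeal M (blockCoeff B g) := by
    intro h
    apply hBg
    show (idB M B).coeff g = 0
    rw [coeff_idB, resid_eq_zero_iff hS]
    exact h
  have hcc := cc_over hb hst hθ hχ ⟨g, hgN⟩
  have hB2 : ∀ ψ ∈ B, ¬ MemLocalIdeal M (Cfsg.centralChar (ψ : G → ℂ) g) := by
    intro ψ hψ h
    obtain ⟨θ', hθ', hne'⟩ := covers_exists hB hb hcov hψ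
    have h5 := cc_over hb hst hθ' hne' ⟨g, hgN⟩
    have h6 : MemLocalIdeal M (Cfsg.centralChar (θ : N → ℂ) ⟨g, hgN⟩ - Cfsg.centralChar (θ' : N → ℂ) ⟨g, hgN⟩) :=
      hθ' ⟨g, hgN⟩
    apply hg2
    have h7 : Cfsg.centralChar (χ : G → ℂ) g =
        (Cfsg.centralChar (χ : G → ℂ) g - ((Subgroup.centralizer ({g} : Set G) ⊔ N).index : ℂ) *
          Cfsg.centralChar (θ : N → ℂ) ⟨g, hgN⟩) -
        (Cfsg.centralChar (ψ : G → ℂ) g - ((Subgroup.centralizer ({g} : Set G) ⊔ N).index : ℂ) *
          Cfsg.centralChar (θ' : N → ℂ) ⟨g, hgN⟩) +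
        ((Subgroup.centralizer ({g} : Set G) ⊔ N).index : ℂ) *
          (Cfsg.centralChar (θ : N → ℂ) ⟨g, hgN⟩ - Cfsg.centralChar (θ' : N → ℂ) ⟨g, hgN⟩) +
        Cfsg.centralChar (ψ : G → ℂ) g := by ring
    rw [h7]
    exact MemLocalIdeal.add (MemLocalIdeal.add (MemLocalIdeal.sub hcc h5)
      (MemLocalIdeal.mul_left (memLocalRing_natCast _) h6)) h
  have hdc : IsDefectClass M B g := ⟨hS, hB1, hB2⟩
  have hidx : ∀ P : Subgroup G, IsSyl p (Subgroup.centralizer ({g} : Set G)) P → ¬ p ∣ (P ⊔ N).index := by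
    intro P hsyl hd
    have h8 : (P ⊔ N).relIndex (Subgroup.centralizer ({g} : Set G) ⊔ N) *
        (Subgroup.centralizer ({g} : Set G) ⊔ N).index = (P ⊔ N).index :=
      Subgroup.relIndex_mul_index (sup_le_sup_right hsyl.1 N)
    rw [← h8] at hd
    rcases hp.out.dvd_mul.1 hd with h5 | h5
    · exact syl_relIndex hsyl h5
    · apply hg2
      obtain ⟨m, hm⟩ := h5
      have h9 : MemLocalIdeal M (((Subgroup.centralizer ({g} : Set G) ⊔ N).index : ℂ) *
          Cfsg.centralChar (θ : N → ℂ) ⟨g, hgN⟩) := by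
        rw [hm]
        push_cast
        rw [mul_assoc]
        refine MemLocalIdeal.mul_right (memLocalIdeal_p hM) ?_
        exact MemLocalRing.mul (memLocalRing_natCast m) (memLocalRing_centralChar θ.2 _)
      have h10 := MemLocalIdeal.add hcc h9
      rwa [sub_add_cancel] at h10
  obtain ⟨S⟩ := (inferInstance : Nonempty (Sylow p (Subgroup.centralizer ({g} : Set G))))
  exact ⟨B, _, hB, hcov, ⟨g, hdc, S, rfl⟩, hidx _ (isSyl_map S)⟩

theorem fong_main (hM : IsPModular p M) {N : Subgroup G} [hN : N.Normal] [Fintype N]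
    {b : Set (IrrCharacter N)} (hb : IsPBlock M b)
    (hst : ∀ (x : G) (θ : IrrCharacter N), θ ∈ b → cjI N x θ ∈ b)
    {B : Set (IrrCharacter G)} (hB : IsPBlock M B) (hcov : Covers N B b)
    {P : Subgroup G} (hP : IsDefectGroup p M B P) :
    IsDefectGroup p M b ((P ⊓ N).subgroupOf N) ∧
      blockDefect p B + (P ⊔ N).index.factorization p = blockDefect p b + N.index.factorization p := by
  classical
  haveI := IsPModular.isPrime hM
  have hfx := idH_central_of_stab hb hst
  have hbl := isBl_idH (M := M) (H := N) hb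
  have hne := (cover_iff hB hb).1 hcov
  have hP' := (isDefectGroup_iff_DG hM hB).1 hP
  obtain ⟨c, hc, hBc, -, hDG⟩ := knorr_stable hM (N := N) (isBl_top hB) hP'
  obtain ⟨x, hx⟩ := cover_conj (isBl_top hB) hbl hc hne hBc
  rw [hfx.ca_eq (Subgroup.mem_top x)] at hx
  rw [hx] at hDG
  have h1 : IsDefectGroup p M b ((P ⊓ N).subgroupOf N) :=
    (isDefectGroup_iff_DG' hM hb inf_le_right).2 hDG
  refine ⟨h1, ?_⟩
  have hc1 := defectGroup_card hM hB hP
  have hc2 := defectGroup_card hM hb h1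
  have hc3 : Nat.card ((P ⊓ N).subgroupOf N) = Nat.card (P ⊓ N : Subgroup G) :=
    Nat.card_congr (Subgroup.subgroupOfEquivOfLe inf_le_right).toEquiv
  rw [hc3] at hc2
  have h2 := CfsgH1.card_sup_mul_card_inf (H := P) (K := N)
    (fun x _ => mem_nz_normal x)
  have h3 := Subgroup.card_mul_index (P ⊔ N)
  have h4 := Subgroup.card_mul_index N
  have h5 : Nat.card P * (P ⊔ N).index = Nat.card (P ⊓ N : Subgroup G) * N.index := by
    have h6 : Nat.card N * (Nat.card P * (P ⊔ N).index) = Nat.card N * (Nat.card (P ⊓ N : Subgroup G) * N.index) := by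
      calc Nat.card N * (Nat.card P * (P ⊔ N).index) = (Nat.card P * Nat.card N) * (P ⊔ N).index := by ring
        _ = Nat.card (P ⊓ N : Subgroup G) * (Nat.card (P ⊔ N : Subgroup G) * (P ⊔ N).index) := by
            rw [← h2]; ring
        _ = Nat.card (P ⊓ N : Subgroup G) * (Nat.card N * N.index) := by rw [h3, h4]
        _ = _ := by ring
    exact Nat.eq_of_mul_eq_mul_left Nat.card_pos h6
  rw [hc1, hc2] at h5
  have hi1 : (P ⊔ N).index ≠ 0 := Subgroup.index_ne_zero_of_finite
  have hi2 : N.index ≠ 0 := Subgroup.index_ne_zero_of_finite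
  have h6 := congrArg (fun n : ℕ => n.factorization p) h5
  have h7 : (p ^ blockDefect p B * (P ⊔ N).index).factorization p =
      blockDefect p B + (P ⊔ N).index.factorization p := by
    rw [Nat.factorization_mul (pow_ne_zero _ hp.out.ne_zero) hi1, Finsupp.add_apply,
      hp.out.factorization_pow, Finsupp.single_eq_same]
  have h8 : (p ^ blockDefect p b * N.index).factorization p =
      blockDefect p b + N.index.factorization p := by
    rw [Nat.factorization_mul (pow_ne_zero _ hp.out.ne_zero) hi2, Finsupp.add_apply,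
      hp.out.factorization_pow, Finsupp.single_eq_same]
  rw [← h7, ← h8]
  exact h6

theorem fong_max (hM : IsPModular p M) {N : Subgroup G} [hN : N.Normal] [Fintype N]
    {b : Set (IrrCharacter N)} (hb : IsPBlock M b)
    (hst : ∀ (x : G) (θ : IrrCharacter N), θ ∈ b → cjI N x θ ∈ b)
    {B : Set (IrrCharacter G)} (hB : IsPBlock M B) (hcov : Covers N B b)
    (hmax : ∀ B' : Set (IrrCharacter G), IsPBlock M B' → Covers N B' b → blockDefect p B' ≤ blockDefect p B)
    {P : Subgroup G} (hP : IsDefectGroup p M B P) :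
    ¬ p ∣ (P ⊔ N).index ∧ IsDefectGroup p M b ((P ⊓ N).subgroupOf N) ∧
      blockDefect p B = blockDefect p b + N.index.factorization p := by
  obtain ⟨h1, h2⟩ := fong_main hM hb hst hB hcov hP
  obtain ⟨B0, P0, hB0, hcov0, hP0, hidx⟩ := exists_full_cover hM hb hst
  obtain ⟨-, h3⟩ := fong_main hM hb hst hB0 hcov0 hP0
  have h4 := hmax B0 hB0 hcov0
  rw [Nat.factorization_eq_zero_of_not_dvd hidx] at h3
  have h5 : (P ⊔ N).index.factorization p = 0 := by omega
  refine ⟨fun hd => ?_, h1, by omega⟩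
  have h6 := (hp.out.dvd_iff_one_le_factorization Subgroup.index_ne_zero_of_finite).1 hd
  omega

end Fong

end CfsgH5
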