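import Cfsg.Agent.H5.FrobH

/-!
# The case `m = 3`, `p = 2`
-/

set_option autoImplicit false

open Cfsg MonoidAlgebra
open CfsgH4 hiding centralChar sum_conj regInner_symm

namespace CfsgH5

open scoped ComplexConjugate

section Gen

variable {G : Type*} [Group G] [Fintype G] {p : ℕ} [hp : Fact p.Prime]
variable {P : Sylow p G} {M : Ideal AlgInt}

theorem FH.triple (h : FH P 3) {n : nP P} (hn : (n : G) ∉ cP P) (s : (P : Subgroup G)) :
    s * cjP P n s * cjP P n (cjP P n s) = 1 := by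
  by_contra hT
  apply hn
  have h1 : cjP P n (cjP P n (cjP P n s)) = s := by
    rw [← cjP_mul, ← cjP_mul]
    apply cjP_cent
    have h2 := h.pow3 n.2
    have h3 : ((n * n * n : nP P) : G) = (n : G) ^ 3 := by push_cast; rw [pow_succ, pow_two]
    rw [h3]; exact h2
  have h2 : cjP P n (s * cjP P n s * cjP P n (cjP P n s)) = s * cjP P n s * cjP P n (cjP P n s) := by
    rw [map_mul, map_mul, h1, h.pab _ s, ← mul_assoc]
  rw [← h.free ((s * cjP P n s * cjP P n (cjP P n s) : (P : Subgroup G)) : G) (SetLike.coe_mem _)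
    (fun h' => hT (Subtype.ext h'))]
  refine ⟨Subgroup.mem_centralizer_singleton_iff.2 ?_, n.2⟩
  have h3 := congrArg Subtype.val h2
  rw [coe_cjP] at h3
  exact mul_inv_eq_iff_eq_mul.1 h3

theorem FH.exists_out (h : FH P 3) : ∃ n : nP P, (n : G) ∉ cP P := by
  by_contra hc
  push Not at hc
  have h1 : nP P ≤ cP P := fun x hx => hc ⟨x, hx⟩
  have h2 := h.idx
  rw [Subgroup.relIndex_eq_one.2 h1] at h2
  omega

theorem FH.exists_notorb (h : FH P 3) (hm : 3 + 1 < Nat.card (P : Subgroup G)) (t : (P : Subgroup G)) (ht : t ≠ 1) :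
    ∃ y : (P : Subgroup G), y ≠ 1 ∧ ∀ n : nP P, cjP P n t ≠ y := by
  classical
  by_contra hc
  push Not at hc
  haveI := Fintype.ofFinite (nP P)
  haveI := Fintype.ofFinite (P : Subgroup G)
  have htG : (t : G) ≠ 1 := fun h' => ht (Subtype.ext h')
  have hinj : ∀ n : nP P, cjP P n t ≠ 1 := by
    intro n h'
    apply ht
    have h2 := congrArg (cjP P n⁻¹) h'
    rwa [← cjP_mul, inv_mul_cancel, cjP_one, map_one] at h2
  have h1 := Finset.card_eq_sum_card_fiberwise (s := (Finset.univ : Finset (nP P)))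
    (t := (Finset.univ : Finset (P : Subgroup G)).erase 1) (f := fun n => cjP P n t)
    (fun n _ => by rw [Finset.mem_coe, Finset.mem_erase]; exact ⟨hinj n, Finset.mem_univ _⟩)
  have h2 : ∀ y ∈ (Finset.univ : Finset (P : Subgroup G)).erase 1,
      ((Finset.univ : Finset (nP P)).filter fun n => cjP P n t = y).card = Nat.card (cP P) := by
    intro y hy
    obtain ⟨n, hn⟩ := hc y (Finset.mem_erase.1 hy).1
    rw [← card_coset_elt h t.2 htG (y' := (y : G)) ⟨n, n.2, congrArg Subtype.val hn⟩, Nat.card_eq_fintype_card,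
      Fintype.card_subtype]
    congr 1
    ext m
    simp only [Finset.mem_filter, Finset.mem_univ, true_and]
    exact ⟨fun h' => congrArg Subtype.val h', fun h' => Subtype.ext h'⟩
  rw [Finset.sum_congr rfl h2, Finset.sum_const, smul_eq_mul, Finset.card_erase_of_mem (Finset.mem_univ _),
    Finset.card_univ, Finset.card_univ, ← Nat.card_eq_fintype_card, ← Nat.card_eq_fintype_card, card_nP h] at h1
  have h3 := Nat.eq_of_mul_eq_mul_right (Nat.card_pos (α := cP P)) h1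
  omega

end Gen

section Two

variable {G : Type*} [Group G] [Fintype G]
variable {P : Sylow 2 G} {M : Ideal AlgInt}
variable {w : IrrCharacter G → ℤ} {d δ : ℤ} {ζ : ((P : Subgroup G) →* ℂˣ) → IrrCharacter G}

/-- in `C(y)` -/
theorem FH.mod_core (h : FH P 3) {y : G} (hy : y ∈ (P : Subgroup G)) (hy1 : y ≠ 1)
    {s : G} (hs : s * s = 1) (hsC : s ∈ Subgroup.centralizer ({y} : Set G)) {t : G} (ht : t ∈ (P : Subgroup G))
    (hst : IsConj t s) : ∃ n : nP P, ∃ (k : Subgroup.centralizer ({y} : Set G)),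
      k ∈ pPrimeCore 2 (Subgroup.centralizer ({y} : Set G)) ∧ s = k * (n * t * (n : G)⁻¹) := by
  classical
  have hPC := h.P_le_cent hy
  have hxp : ∃ k, orderOf (⟨s, hsC⟩ : Subgroup.centralizer ({y} : Set G)) = 2 ^ k := by
    have h1 : (⟨s, hsC⟩ : Subgroup.centralizer ({y} : Set G)) ^ 2 = 1 := Subtype.ext (by
      show s ^ 2 = 1
      rw [pow_two]; exact hs)
    have h2 := orderOf_dvd_of_pow_eq_one h1
    rcases (Nat.dvd_prime Nat.prime_two).1 h2 with h3 | h3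
    · exact ⟨0, by rw [h3, pow_zero]⟩
    · exact ⟨1, by rw [h3, pow_one]⟩
  haveI := Fintype.ofFinite (Subgroup.centralizer ({y} : Set G))
  obtain ⟨c, hc⟩ := conj_intoP (P.subtype hPC) hxp
  rw [Sylow.coe_subtype, Subgroup.mem_subgroupOf] at hc
  have hc' : (c : G) * s * (c : G)⁻¹ ∈ (P : Subgroup G) := hc
  obtain ⟨n, hn, hnt⟩ := h.fusion ht hc' (hst.trans (isConj_iff.2 ⟨c, rfl⟩))
  obtain ⟨K, hK⟩ : ∃ K, K = pPrimeCore 2 (Subgroup.centralizer ({y} : Set G)) := ⟨_, rfl⟩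
  haveI hKn : K.Normal := by rw [hK]; infer_instance
  -- the quotient is abelian
  have hcardK : K.index = Nat.card (P : Subgroup G) := by
    rw [hK, index_pPrimeCore Nat.prime_two (h.idx_core hy hy1), h.card_cent hy]
  let f : (P : Subgroup G) →* (Subgroup.centralizer ({y} : Set G)) ⧸ K :=
    (QuotientGroup.mk' K).comp (Subgroup.inclusion hPC)
  have hKodd : ¬ 2 ∣ Nat.card K := by rw [hK]; exact not_dvd_pPrimeCore Nat.prime_two
  have hfinj : Function.Injective f := by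
    rw [injective_iff_map_eq_one]
    intro x hx
    have h1 : Subgroup.inclusion hPC x ∈ K := (QuotientGroup.eq_one_iff _).1 hx
    obtain ⟨j, hj⟩ := FH.ppow P x.2
    have h2 : orderOf (Subgroup.inclusion hPC x) ∣ Nat.card K := by
      have := orderOf_dvd_natCard (⟨Subgroup.inclusion hPC x, h1⟩ : K)
      rwa [Subgroup.orderOf_mk] at this
    have h3 : orderOf (Subgroup.inclusion hPC x) = orderOf (x : G) := by
      rw [← Subgroup.orderOf_coe]; rfl
    rw [h3, hj] at h2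
    have hj0 : j = 0 := by
      by_contra hj0
      exact hKodd ((dvd_pow_self 2 hj0).trans h2)
    rw [hj0, pow_zero, orderOf_eq_one_iff] at hj
    exact Subtype.ext hj
  have hfsurj : Function.Surjective f := by
    have := (Nat.bijective_iff_injective_and_card f).2 ⟨hfinj, by
      rw [← hcardK]; rfl⟩
    exact this.2
  have hqab : ∀ u v : (Subgroup.centralizer ({y} : Set G)) ⧸ K, u * v = v * u := by
    intro u v
    obtain ⟨u', rfl⟩ := hfsurj u
    obtain ⟨v', rfl⟩ := hfsurj v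
    rw [← map_mul, ← map_mul, h.pab]
  have hq : (QuotientGroup.mk' K) (c * ⟨s, hsC⟩ * c⁻¹) = (QuotientGroup.mk' K) ⟨s, hsC⟩ := by
    rw [map_mul, map_mul, hqab (QuotientGroup.mk' K c), mul_assoc, ← map_mul, mul_inv_cancel, map_one, mul_one]
  have h5 : (⟨s, hsC⟩ : Subgroup.centralizer ({y} : Set G)) * (c * ⟨s, hsC⟩ * c⁻¹)⁻¹ ∈ K := by
    rw [← QuotientGroup.eq_one_iff]
    show (QuotientGroup.mk' K) (⟨s, hsC⟩ * (c * ⟨s, hsC⟩ * c⁻¹)⁻¹) = 1
    rw [map_mul, map_inv, hq, mul_inv_cancel]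
  refine ⟨⟨n, hn⟩, _, hK ▸ h5, ?_⟩
  show s = s * (c * s * (c : G)⁻¹)⁻¹ * (n * t * n⁻¹)
  rw [hnt]; group

theorem FH.no_pair_two (h : FH P 3) {t y : G} (ht : t * t = 1) (htP : t ∈ (P : Subgroup G))
    (hy : y ∈ (P : Subgroup G)) (hy1 : y ≠ 1) (hyt : ∀ n ∈ nP P, n * t * n⁻¹ ≠ y)
    (a b : G) : ¬ IsPPart 2 (a * t * a⁻¹ * (b * t * b⁻¹)) y := by
  classical
  intro hpp
  haveI := Fintype.ofFinite (Subgroup.centralizer ({y} : Set G))
  obtain ⟨s1, hs1⟩ : ∃ s, s = a * t * a⁻¹ := ⟨_, rfl⟩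
  obtain ⟨s2, hs2⟩ : ∃ s, s = b * t * b⁻¹ := ⟨_, rfl⟩
  rw [← hs1, ← hs2] at hpp
  have hs : s1 * s1 = 1 := by
    rw [hs1]
    calc a * t * a⁻¹ * (a * t * a⁻¹) = a * (t * t) * a⁻¹ := by group
      _ = 1 := by rw [ht]; group
  have hu : s2 * s2 = 1 := by
    rw [hs2]
    calc b * t * b⁻¹ * (b * t * b⁻¹) = b * (t * t) * b⁻¹ := by group
      _ = 1 := by rw [ht]; group
  have h1 := conj_inv_of_pair hs hu hpp
  have h2 := h.real hy (isConj_iff.2 ⟨_, h1⟩)
  have hyi : y⁻¹ = y := inv_eq_of_mul_eq_one_left h2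
  rw [hyi] at h1
  have hs1C : s1 ∈ Subgroup.centralizer ({y} : Set G) :=
    Subgroup.mem_centralizer_singleton_iff.2 (mul_inv_eq_iff_eq_mul.1 h1)
  have hgC := ppart_mem_centralizer hpp
  have hs2C : s2 ∈ Subgroup.centralizer ({y} : Set G) := by
    have h3 : s2 = s1⁻¹ * (s1 * s2) := by group
    rw [h3]
    exact mul_mem (inv_mem hs1C) hgC
  obtain ⟨n1, k1, hk1, e1⟩ := h.mod_core hy hy1 hs hs1C htP (isConj_iff.2 ⟨a, hs1.symm⟩)
  obtain ⟨n2, k2, hk2, e2⟩ := h.mod_core hy hy1 hu hs2C htP (isConj_iff.2 ⟨b, hs2.symm⟩)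
  obtain ⟨p1, hp1⟩ : ∃ p1, p1 = cjP P n1 ⟨t, htP⟩ := ⟨_, rfl⟩
  obtain ⟨p2, hp2⟩ : ∃ p2, p2 = cjP P n2 ⟨t, htP⟩ := ⟨_, rfl⟩
  have hp1' : (p1 : G) = n1 * t * (n1 : G)⁻¹ := by rw [hp1]; rfl
  have hp2' : (p2 : G) = n2 * t * (n2 : G)⁻¹ := by rw [hp2]; rfl
  rw [← hp1'] at e1
  rw [← hp2'] at e2
  -- y v = k1 p1 k2 p2
  obtain ⟨v, hv1, hv2, hv3, hv4⟩ := hpp
  have hPC := h.P_le_cent hy
  have hvC : v ∈ Subgroup.centralizer ({y} : Set G) := Subgroup.mem_centralizer_singleton_iff.2 hv2.symm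
  have hvK : (⟨v, hvC⟩ : Subgroup.centralizer ({y} : Set G)) ∈ pPrimeCore 2 (Subgroup.centralizer ({y} : Set G)) := by
    apply regular_mem_core (h.idx_core hy hy1)
    rw [Subgroup.orderOf_mk]; exact hv4
  obtain ⟨K, hK⟩ : ∃ K, K = pPrimeCore 2 (Subgroup.centralizer ({y} : Set G)) := ⟨_, rfl⟩
  haveI hKn : K.Normal := by rw [hK]; infer_instance
  rw [← hK] at hk1 hk2 hvK
  have hKodd : ¬ 2 ∣ Nat.card K := by rw [hK]; exact not_dvd_pPrimeCore Nat.prime_two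
  have h6 : (⟨y, hPC hy⟩ : Subgroup.centralizer ({y} : Set G)) * ⟨v, hvC⟩ =
      k1 * (⟨p1, hPC p1.2⟩ : Subgroup.centralizer ({y} : Set G)) * (k2 * (⟨p2, hPC p2.2⟩ : Subgroup.centralizer ({y} : Set G))) := by
    apply Subtype.ext
    show y * v = k1 * (p1 : G) * (k2 * (p2 : G))
    rw [hv1, ← e1, ← e2]
  have h7 : (⟨y, hPC hy⟩ : Subgroup.centralizer ({y} : Set G))⁻¹ * (⟨p1, hPC p1.2⟩ * ⟨p2, hPC p2.2⟩) ∈ K := by
    rw [← QuotientGroup.eq_one_iff]
    have h8 := congrArg (QuotientGroup.mk' K) h6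
    rw [map_mul, map_mul, map_mul, map_mul] at h8
    have e3 : (QuotientGroup.mk' K) ⟨v, hvC⟩ = 1 := (QuotientGroup.eq_one_iff _).2 hvK
    have e4 : (QuotientGroup.mk' K) k1 = 1 := (QuotientGroup.eq_one_iff _).2 hk1
    have e5 : (QuotientGroup.mk' K) k2 = 1 := (QuotientGroup.eq_one_iff _).2 hk2
    rw [e3, e4, e5, mul_one, one_mul, one_mul] at h8
    show (QuotientGroup.mk' K) ((⟨y, hPC hy⟩ : Subgroup.centralizer ({y} : Set G))⁻¹ * (⟨p1, hPC p1.2⟩ * ⟨p2, hPC p2.2⟩)) = 1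
    rw [map_mul, map_inv, map_mul, h8, inv_mul_cancel]
  have h8 : (⟨y, hPC hy⟩ : Subgroup.centralizer ({y} : Set G))⁻¹ * (⟨p1, hPC p1.2⟩ * ⟨p2, hPC p2.2⟩) = 1 := by
    have hx : y⁻¹ * ((p1 : G) * p2) ∈ (P : Subgroup G) := mul_mem (inv_mem hy) (mul_mem p1.2 p2.2)
    obtain ⟨j, hj⟩ := FH.ppow P hx
    have h9 := orderOf_dvd_natCard (⟨_, h7⟩ : K)
    rw [Subgroup.orderOf_mk, ← Subgroup.orderOf_coe] at h9
    have h10 : (((⟨y, hPC hy⟩ : Subgroup.centralizer ({y} : Set G))⁻¹ * (⟨p1, hPC p1.2⟩ * ⟨p2, hPC p2.2⟩) :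
      Subgroup.centralizer ({y} : Set G)) : G) = y⁻¹ * ((p1 : G) * p2) := rfl
    rw [h10, hj] at h9
    have hj0 : j = 0 := by
      by_contra hj0
      exact hKodd ((dvd_pow_self 2 hj0).trans h9)
    rw [hj0, pow_zero, orderOf_eq_one_iff] at hj
    exact Subtype.ext hj
  have h9 : (p1 : G) * p2 = y := by
    have h10 : y⁻¹ * ((p1 : G) * p2) = 1 := congrArg Subtype.val h8
    exact (inv_mul_eq_one.1 h10).symm
  have ht' : (⟨t, htP⟩ : (P : Subgroup G)) * ⟨t, htP⟩ = 1 := Subtype.ext ht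
  have hinv : ∀ n : nP P, cjP P n ⟨t, htP⟩ * cjP P n ⟨t, htP⟩ = 1 := fun n => by rw [← map_mul, ht', map_one]
  by_cases hpe : p1 = p2
  · apply hy1
    rw [← h9, hpe, hp2]
    exact congrArg Subtype.val (hinv n2)
  · have hn : ((n2 * n1⁻¹ : nP P) : G) ∉ cP P := by
      intro hc
      apply hpe
      rw [hp1, hp2]
      have h11 := cjP_cent hc (cjP P n1 ⟨t, htP⟩)
      rw [← cjP_mul, mul_assoc, inv_mul_cancel, mul_one] at h11
      exact h11.symm
    have h11 := h.triple hn p1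
    have h12 : cjP P (n2 * n1⁻¹) p1 = p2 := by
      rw [hp1, hp2, ← cjP_mul, mul_assoc, inv_mul_cancel, mul_one]
    rw [h12] at h11
    have h13 : cjP P (n2 * n1⁻¹) p2 = cjP P (n2 * n1⁻¹ * n2) ⟨t, htP⟩ := by
      rw [hp2, ← cjP_mul]
    rw [h13] at h11
    have h14 : p1 * p2 = cjP P (n2 * n1⁻¹ * n2) ⟨t, htP⟩ := by
      rw [mul_eq_one_iff_eq_inv.1 h11]
      exact inv_eq_of_mul_eq_one_left (hinv _)
    apply hyt _ (n2 * n1⁻¹ * n2).2
    rw [← h9]
    exact (congrArg Subtype.val h14).symm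

end Two

end CfsgH5
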