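import Cfsg.Agent.H5.FrobI

/-!
# The case `m = 3`, `p = 2`: the relation
-/

set_option autoImplicit false

open Cfsg MonoidAlgebra
open CfsgH4 hiding centralChar sum_conj regInner_symm

namespace CfsgH5

open scoped ComplexConjugate

section Two

variable {G : Type*} [Group G] [Fintype G]
variable {P : Sylow 2 G} {M : Ideal AlgInt}
variable {w : IrrCharacter G → ℤ} {d δ : ℤ} {ζ : ((P : Subgroup G) →* ℂˣ) → IrrCharacter G}
variable {a b : IrrCharacter G}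

theorem hom_pm {A : Type*} [Group A] (ψ : A →* ℂˣ) {s : A} (hs : s * s = 1) : (ψ s : ℂ) = 1 ∨ (ψ s : ℂ) = -1 := by
  have h1 : (ψ s : ℂ) * (ψ s : ℂ) = 1 := by
    rw [← Units.val_mul, ← map_mul, hs, map_one, Units.val_one]
  exact mul_self_eq_one_iff.1 h1

theorem hom_ext' {A : Type*} [Group A] {ψ ψ' : A →* ℂˣ} (h : ∀ s, (ψ s : ℂ) = ψ' s) : ψ = ψ' := by
  ext s; exact h s

open Classical in
/-- the orbit sum -/
theorem FH.theta (h : FH P 3) [Fintype ((P : Subgroup G) →* ℂˣ)] {n : nP P} (hn : (n : G) ∉ cP P)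
    {ψ : (P : Subgroup G) →* ℂˣ} (hψ : ψ ≠ 1) (s : (P : Subgroup G)) :
    ∑ ψ' : (P : Subgroup G) →* ℂˣ, (if ∃ k : nP P, ψ'.comp (cjP P k) = ψ then (ψ' s : ℂ) else 0) =
      (ψ s : ℂ) + (ψ (cjP P n s) : ℂ) + (ψ (cjP P n (cjP P n s)) : ℂ) := by
  have h1 := orbit_card h hψ
  rw [← Finset.sum_filter]
  have hcc : ∀ (ψ : (P : Subgroup G) →* ℂˣ), ((ψ.comp (cjP P n)).comp (cjP P n⁻¹)) = ψ := by
    intro ψ
    apply hom_ext'
    intro s
    show ((ψ (cjP P n (cjP P n⁻¹ s)) : ℂˣ) : ℂ) = _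
    rw [← cjP_mul, mul_inv_cancel, cjP_one]
  have hne1 : ∀ (ψ : (P : Subgroup G) →* ℂˣ), ψ ≠ 1 → ψ.comp (cjP P n) ≠ ψ := fun ψ hψ h' => hn (h.char_free hψ h')
  have hnn1 : ψ.comp (cjP P n) ≠ 1 := by
    intro h'
    apply hψ
    rw [← hcc ψ, h']; rfl
  have hne2 : (ψ.comp (cjP P n)).comp (cjP P n) ≠ ψ := by
    intro h'
    have h2 : ψ.comp (cjP P (n * n)) = ψ := by
      apply hom_ext'
      intro s
      show ((ψ (cjP P (n * n) s) : ℂˣ) : ℂ) = _
      rw [cjP_mul]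
      exact congrArg _ (DFunLike.congr_fun h' s)
    have h3 := h.char_free hψ h2
    apply hn
    have h4 := h.pow3 n.2
    have h5 : (n : G) = (n : G) ^ 3 * ((n : G) * n)⁻¹ := by group
    rw [h5]
    exact (cP P).mul_mem h4 ((cP P).inv_mem h3)
  have hS : (Finset.univ.filter fun ψ' : (P : Subgroup G) →* ℂˣ => ∃ k : nP P, ψ'.comp (cjP P k) = ψ) =
      {ψ, ψ.comp (cjP P n), (ψ.comp (cjP P n)).comp (cjP P n)} := by
    symm
    apply Finset.eq_of_subset_of_card_le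
    · intro ψ' hψ'
      rw [Finset.mem_filter]
      refine ⟨Finset.mem_univ _, ?_⟩
      rw [Finset.mem_insert, Finset.mem_insert, Finset.mem_singleton] at hψ'
      rcases hψ' with rfl | rfl | rfl
      · refine ⟨1, ?_⟩
        apply hom_ext'; intro s
        show ((ψ' (cjP P 1 s) : ℂˣ) : ℂ) = _
        rw [cjP_one]
      · exact ⟨n⁻¹, hcc ψ⟩
      · refine ⟨n⁻¹ * n⁻¹, ?_⟩
        apply hom_ext'; intro s
        show ((ψ (cjP P n (cjP P n (cjP P (n⁻¹ * n⁻¹) s))) : ℂˣ) : ℂ) = _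
        rw [← cjP_mul, ← cjP_mul]
        have : n * n * (n⁻¹ * n⁻¹) = 1 := by group
        rw [this, cjP_one]
    · have h2 : (Finset.univ.filter fun ψ' : (P : Subgroup G) →* ℂˣ => ∃ k : nP P, ψ'.comp (cjP P k) = ψ).card = 3 := by
        rw [← h1, Nat.card_eq_fintype_card, Fintype.card_subtype]
      rw [h2, Finset.card_insert_of_notMem, Finset.card_insert_of_notMem, Finset.card_singleton]
      · rw [Finset.mem_singleton]
        exact fun h' => hne1 _ hnn1 h'.symm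
      · rw [Finset.mem_insert, Finset.mem_singleton]
        rintro (h' | h')
        · exact hne1 _ hψ h'.symm
        · exact hne2 h'.symm
  rw [hS, Finset.sum_insert, Finset.sum_insert, Finset.sum_singleton, add_assoc]
  · rfl
  · rw [Finset.mem_singleton]
    exact fun h' => hne1 _ hnn1 h'.symm
  · rw [Finset.mem_insert, Finset.mem_singleton]
    rintro (h' | h')
    · exact hne1 _ hψ h'.symm
    · exact hne2 h'.symm

/-- value of the exceptional characters at an involution -/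
theorem SX.val_invol (h : FH P 3) (S : SX M P w δ ζ a b) {n : nP P} (hn : (n : G) ∉ cP P)
    {ψ : (P : Subgroup G) →* ℂˣ} (hψ : ψ ≠ 1) {s : (P : Subgroup G)} (hs : s ≠ 1) :
    (ζ ψ : G → ℂ) s = δ * ((ψ s : ℂ) + (ψ (cjP P n s) : ℂ) + (ψ (cjP P n (cjP P n s)) : ℂ)) := by
  classical
  haveI : Finite ((P : Subgroup G) →* ℂˣ) := finite_hom _
  haveI := Fintype.ofFinite ((P : Subgroup G) →* ℂˣ)
  rw [S.D.val_Y h hψ hs, h.theta hn hψ s]
  push_cast; ring

theorem three_facts (h : FH P 3) {n : nP P} (hn : (n : G) ∉ cP P) {s : (P : Subgroup G)} (hs : s * s = 1)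
    (ψ : (P : Subgroup G) →* ℂˣ) :
    ((ψ s : ℂ) + (ψ (cjP P n s) : ℂ) + (ψ (cjP P n (cjP P n s)) : ℂ) = 3 ∨
      (ψ s : ℂ) + (ψ (cjP P n s) : ℂ) + (ψ (cjP P n (cjP P n s)) : ℂ) = -1) ∧
    ((ψ s : ℂ) + (ψ (cjP P n s) : ℂ) + (ψ (cjP P n (cjP P n s)) : ℂ)) ^ 2 =
      3 + 2 * ((ψ s : ℂ) + (ψ (cjP P n s) : ℂ) + (ψ (cjP P n (cjP P n s)) : ℂ)) := by
  have e1 := hom_pm ψ hs
  have e2 := hom_pm ψ (s := cjP P n s) (by rw [← map_mul, hs, map_one])
  have e3 : (ψ (cjP P n (cjP P n s)) : ℂ) = (ψ s : ℂ) * (ψ (cjP P n s) : ℂ) := by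
    have h1 := h.triple hn s
    have h2 : s * cjP P n s = cjP P n (cjP P n s) := by
      rw [mul_eq_one_iff_eq_inv.1 h1]
      apply inv_eq_of_mul_eq_one_left
      rw [← map_mul, ← map_mul, hs, map_one, map_one]
    rw [← Units.val_mul, ← map_mul, h2]
  rw [e3]
  rcases e1 with e1 | e1 <;> rcases e2 with e2 | e2 <;> rw [e1, e2] <;> norm_num

/-- the relation at `p = 2` -/
theorem SX.even_rel (h : FH P 3) (S : SX M P w δ ζ a b) (hM : IsPModular 2 M) (hm : 3 + 1 < Nat.card (P : Subgroup G))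
    {t : (P : Subgroup G)} (ht : t * t = 1) (ht1 : t ≠ 1) {η : IrrCharacter G} (hη : η ∈ YY ζ) :
    (1 : ℚ) + w a / charDegree (a : G → ℂ) + w b / charDegree (b : G → ℂ) - 9 * δ / charDegree (η : G → ℂ) = 0 := by
  classical
  haveI := IsPModular.isPrime hM
  haveI : Finite ((P : Subgroup G) →* ℂˣ) := finite_hom _
  haveI := Fintype.ofFinite ((P : Subgroup G) →* ℂˣ)
  obtain ⟨n, hn⟩ := h.exists_out
  obtain ⟨y, hy1, hyt⟩ := h.exists_notorb hm t ht1
  have htG : (t : G) ≠ 1 := fun h' => ht1 (Subtype.ext h')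
  have hyG : (y : G) ≠ 1 := fun h' => hy1 (Subtype.ext h')
  have h1 := h.sum_zero hM (t := (t : G)) y.2 hyG (h.no_pair_two (congrArg Subtype.val ht) t.2 y.2 hyG
    (fun k hk h' => hyt ⟨k, hk⟩ (Subtype.ext h')))
  rw [S.relF h (fun χ => conj ((χ : G → ℂ) t * (χ : G → ℂ) t) / (χ : G → ℂ) 1) hy1] at h1
  have hva : (a : G → ℂ) t = w a := S.D.val_X h ((S.mem a).2 (Or.inr (Or.inl rfl))) t.2 htG
  have hvb : (b : G → ℂ) t = w b := S.D.val_X h ((S.mem b).2 (Or.inr (Or.inr rfl))) t.2 htG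
  have hconj : ∀ ψ : (P : Subgroup G) →* ℂˣ, ψ ≠ 1 → conj ((ζ ψ : G → ℂ) t * (ζ ψ : G → ℂ) t) =
      3 + 2 * ((ψ t : ℂ) + (ψ (cjP P n t) : ℂ) + (ψ (cjP P n (cjP P n t)) : ℂ)) := by
    intro ψ hψ
    obtain ⟨h2, h3⟩ := three_facts h hn ht ψ
    rw [S.val_invol h hn hψ ht1, ← h3]
    have hδ2 : (δ : ℂ) * δ = 1 := by
      have : δ * δ = 1 := by rcases S.D.sgn with h' | h' <;> rw [h'] <;> norm_num
      exact_mod_cast this
    rcases h2 with h2 | h2
    · rw [h2, map_mul, map_mul, map_intCast, map_ofNat]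
      linear_combination 9 * hδ2
    · rw [h2, map_mul, map_mul, map_intCast, map_neg, map_one]
      linear_combination hδ2
  have hne : ∀ s : (P : Subgroup G), (∃ k : nP P, s = cjP P k t) → y * s ≠ 1 := by
    rintro s ⟨k, rfl⟩ h'
    apply hyt k
    have h2 : cjP P k t * cjP P k t = 1 := by rw [← map_mul, ht, map_one]
    rw [← inv_eq_of_mul_eq_one_left h']
    exact (inv_eq_of_mul_eq_one_left h2).symm
  have h2 : ∀ ψ : (P : Subgroup G) →* ℂˣ, (if ψ ≠ 1 then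
      (conj ((ζ ψ : G → ℂ) t * (ζ ψ : G → ℂ) t) / (ζ ψ : G → ℂ) 1) * (ψ y : ℂ) else 0) =
      (1 / (η : G → ℂ) 1) * (3 * (if ψ ≠ 1 then (ψ y : ℂ) else 0) + 2 * ((if ψ ≠ 1 then (ψ (y * t) : ℂ) else 0) +
        (if ψ ≠ 1 then (ψ (y * cjP P n t) : ℂ) else 0) + (if ψ ≠ 1 then (ψ (y * cjP P n (cjP P n t)) : ℂ) else 0))) := by
    intro ψ
    by_cases hψ : ψ = 1
    · rw [if_neg (not_not.2 hψ), if_neg (not_not.2 hψ), if_neg (not_not.2 hψ), if_neg (not_not.2 hψ), if_neg (not_not.2 hψ)]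
      ring
    · rw [if_pos hψ, if_pos hψ, if_pos hψ, if_pos hψ, if_pos hψ, hconj ψ hψ,
        S.D.reg_agree hM ⟨ψ, hψ, rfl⟩ hη (g := 1) (by rw [orderOf_one]; norm_num)]
      simp only [map_mul, Units.val_mul]
      ring
  rw [Finset.sum_congr rfl fun ψ _ => h2 ψ, ← Finset.mul_sum, Finset.sum_add_distrib, ← Finset.mul_sum,
    ← Finset.mul_sum, Finset.sum_add_distrib, Finset.sum_add_distrib, h.sum_ne_one hy1,
    h.sum_ne_one (hne t ⟨1, by rw [cjP_one]⟩), h.sum_ne_one (hne _ ⟨n, rfl⟩),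
    h.sum_ne_one (hne _ ⟨n * n, by rw [cjP_mul]⟩), hva, hvb,
    (IsIrr.one_eq a.2).1, (IsIrr.one_eq b.2).1, (IsIrr.one_eq η.2).1] at h1
  have h1' : ((irrOne G : IrrCharacter G) : G → ℂ) t = 1 := rfl
  have h1'' : ((irrOne G : IrrCharacter G) : G → ℂ) 1 = 1 := rfl
  rw [h1', h1''] at h1
  simp only [map_mul, map_one, map_intCast] at h1
  have ha2 : (w a : ℂ) * w a = 1 := by
    have : w a * w a = 1 := by rcases S.wa with h' | h' <;> rw [h'] <;> norm_num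
    exact_mod_cast this
  have hb2 : (w b : ℂ) * w b = 1 := by
    have : w b * w b = 1 := by rcases S.wb with h' | h' <;> rw [h'] <;> norm_num
    exact_mod_cast this
  rw [ha2, hb2] at h1
  have h5 : (((1 : ℚ) + w a / charDegree (a : G → ℂ) + w b / charDegree (b : G → ℂ) -
      9 * δ / charDegree (η : G → ℂ) : ℚ) : ℂ) = 0 := by
    push_cast
    linear_combination h1
  exact_mod_cast h5

theorem SX.exists_three (h : FH P 3) (hm : 3 + 1 < Nat.card (P : Subgroup G)) {n : nP P} (hn : (n : G) ∉ cP P)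
    {t : (P : Subgroup G)} (ht : t * t = 1) (ht1 : t ≠ 1) :
    ∃ ψ : (P : Subgroup G) →* ℂˣ, ψ ≠ 1 ∧ (ψ t : ℂ) + (ψ (cjP P n t) : ℂ) + (ψ (cjP P n (cjP P n t)) : ℂ) = 3 := by
  classical
  haveI : Finite ((P : Subgroup G) →* ℂˣ) := finite_hom _
  haveI := Fintype.ofFinite ((P : Subgroup G) →* ℂˣ)
  haveI := Fintype.ofFinite (P : Subgroup G)
  by_contra hc
  push Not at hc
  have hcj : ∀ k : nP P, cjP P k t ≠ 1 := by
    intro k h'
    apply ht1
    have h2 := congrArg (cjP P k⁻¹) h'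
    rwa [← cjP_mul, inv_mul_cancel, cjP_one, map_one] at h2
  have h1 : ∑ ψ : (P : Subgroup G) →* ℂˣ, (if ψ ≠ 1 then
      ((ψ t : ℂ) + (ψ (cjP P n t) : ℂ) + (ψ (cjP P n (cjP P n t)) : ℂ)) else 0) = -3 := by
    have h2 : ∀ ψ : (P : Subgroup G) →* ℂˣ, (if ψ ≠ 1 then
      ((ψ t : ℂ) + (ψ (cjP P n t) : ℂ) + (ψ (cjP P n (cjP P n t)) : ℂ)) else 0) =
      (if ψ ≠ 1 then (ψ t : ℂ) else 0) + (if ψ ≠ 1 then (ψ (cjP P n t) : ℂ) else 0) +
        (if ψ ≠ 1 then (ψ (cjP P n (cjP P n t)) : ℂ) else 0) := by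
      intro ψ; split_ifs <;> simp
    have e : ∀ s : (P : Subgroup G), s ≠ 1 → ∑ ψ : (P : Subgroup G) →* ℂˣ, (if ψ ≠ 1 then (ψ s : ℂ) else 0) = -1 := by
      intro s hs
      have := h.sum_ne_one hs
      convert this
    rw [Finset.sum_congr rfl fun ψ _ => h2 ψ, Finset.sum_add_distrib, Finset.sum_add_distrib, e _ ht1,
      e _ (hcj n), e _ (by rw [← cjP_mul]; exact hcj _)]
    norm_num
  have h3 : ∀ ψ : (P : Subgroup G) →* ℂˣ, (if ψ ≠ 1 then
      ((ψ t : ℂ) + (ψ (cjP P n t) : ℂ) + (ψ (cjP P n (cjP P n t)) : ℂ)) else 0) = -(1 - (if ψ = 1 then 1 else 0)) := by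
    intro ψ
    by_cases hψ : ψ = 1
    · rw [if_neg (not_not.2 hψ), if_pos hψ]; norm_num
    · rw [if_pos hψ, if_neg hψ, ((three_facts h hn ht ψ).1).resolve_left (hc ψ hψ)]; norm_num
  rw [Finset.sum_congr rfl fun ψ _ => h3 ψ, Finset.sum_neg_distrib, Finset.sum_sub_distrib,
    Finset.sum_ite_eq' Finset.univ (1 : (P : Subgroup G) →* ℂˣ), if_pos (Finset.mem_univ _)] at h1
  have h4 := sum_hom_val h.pab 1
  simp only [map_one, Units.val_one, if_true] at h4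
  rw [h4] at h1
  have h5 : (Nat.card (P : Subgroup G) : ℂ) = ((4 : ℕ) : ℂ) := by push_cast; linear_combination -h1
  have h6 : Nat.card (P : Subgroup G) = 4 := by exact_mod_cast h5
  omega

theorem SX.bounds (h : FH P 3) (S : SX M P w δ ζ a b) (hM : IsPModular 2 M) (hm : 3 + 1 < Nat.card (P : Subgroup G))
    {t : (P : Subgroup G)} (ht : t * t = 1) (ht1 : t ≠ 1)
    (htop : ∀ K : Subgroup G, K.Normal → (t : G) ∈ K → K = ⊤) {η : IrrCharacter G} (hη : η ∈ YY ζ) :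
    (w a = 1 → 1 < charDegree (a : G → ℂ)) ∧ (w b = 1 → 1 < charDegree (b : G → ℂ)) ∧
      (δ = 1 → 3 < charDegree (η : G → ℂ)) := by
  haveI := IsPModular.isPrime hM
  have htG : (t : G) ≠ 1 := fun h' => ht1 (Subtype.ext h')
  have hva : (a : G → ℂ) t = w a := S.D.val_X h ((S.mem a).2 (Or.inr (Or.inl rfl))) t.2 htG
  have hvb : (b : G → ℂ) t = w b := S.D.val_X h ((S.mem b).2 (Or.inr (Or.inr rfl))) t.2 htG
  have ht' : (t : G) * t = 1 := congrArg Subtype.val ht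
  refine ⟨fun h1 => ?_, fun h1 => ?_, fun h1 => ?_⟩
  · obtain ⟨n, h2, h3, -⟩ := val_lt ht' htop S.a1
    rw [hva, h1] at h2
    have h4 : (1 : ℤ) = n := by exact_mod_cast h2
    omega
  · obtain ⟨n, h2, h3, -⟩ := val_lt ht' htop S.b1
    rw [hvb, h1] at h2
    have h4 : (1 : ℤ) = n := by exact_mod_cast h2
    omega
  · obtain ⟨k, hk⟩ := h.exists_out
    obtain ⟨ψ, hψ, h2⟩ := SX.exists_three h hm hk ht ht1
    have h3 := S.val_invol h hk hψ ht1
    rw [h2, h1] at h3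
    have hne : ζ ψ ≠ irrOne G := by
      intro h'
      exact (S.D.irrOne_notMem h hm).1 ⟨ψ, hψ, h'⟩
    obtain ⟨n, h4, h5, -⟩ := val_lt ht' htop hne
    rw [h3] at h4
    have h6 : (3 : ℤ) = n := by
      have : ((3 : ℤ) : ℂ) = n := by rw [← h4]; push_cast; ring
      exact_mod_cast this
    have h7 : charDegree (ζ ψ : G → ℂ) = charDegree (η : G → ℂ) := by
      have := S.D.reg_agree hM ⟨ψ, hψ, rfl⟩ hη (g := 1) (by rw [orderOf_one]; norm_num)
      rw [(IsIrr.one_eq η.2).1, (IsIrr.one_eq (ζ ψ).2).1] at this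
      exact_mod_cast this
    omega

end Two

end CfsgH5
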