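import Cfsg.Agent.H5.FrobJ

/-!
# S4721
-/

set_option autoImplicit false

open Cfsg MonoidAlgebra
open CfsgH4 hiding centralChar sum_conj regInner_symm

namespace CfsgH5

open scoped ComplexConjugate

section Two

variable {G : Type*} [Group G] [Fintype G]
variable {P : Sylow 2 G} {M : Ideal AlgInt}
variable {w : IrrCharacter G → ℤ} {d δ : ℤ} {ζ : ((P : Subgroup G) →* ℂˣ) → IrrCharacter G}
variable {a b : IrrCharacter G}

theorem SX.even (h : FH P 3) (S : SX M P w δ ζ a b) (hM : IsPModular 2 M) (hm : 3 + 1 < Nat.card (P : Subgroup G))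
    {t : G} (ht : orderOf t = 2)
    (htop : ∀ K : Subgroup G, K.Normal → t ∈ K → K = ⊤) {η : IrrCharacter G} (hη : η ∈ YY ζ) :
    ((if w a = -1 then 1 else 0) + (if w b = -1 then 1 else 0) + (if δ = 1 then 1 else 0) = 2) ∧
      IsSquare (charDegree (η : G → ℂ) * (charDegree (a : G → ℂ) * charDegree (b : G → ℂ))) := by
  obtain ⟨c, hc⟩ := conj_intoP P (x := t) ⟨1, by rw [ht, pow_one]⟩
  have hts : t * t = 1 := by rw [← pow_two, ← ht]; exact pow_orderOf_eq_one t
  obtain ⟨s, hs⟩ : ∃ s : (P : Subgroup G), s = ⟨c * t * c⁻¹, hc⟩ := ⟨_, rfl⟩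
  have hsG : (s : G) = c * t * c⁻¹ := by rw [hs]
  have hss : s * s = 1 := by
    apply Subtype.ext
    show (s : G) * s = 1
    rw [hsG]
    calc c * t * c⁻¹ * (c * t * c⁻¹) = c * (t * t) * c⁻¹ := by group
      _ = 1 := by rw [hts]; group
  have hs1 : s ≠ 1 := by
    intro h'
    have h1 : c * t * c⁻¹ = 1 := by rw [← hsG, h']; rfl
    have h2 : t = 1 := by
      have := congrArg (fun z => c⁻¹ * z * c) h1
      simpa [mul_assoc] using this
    rw [h2, orderOf_one] at ht
    omega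
  have hstop : ∀ K : Subgroup G, K.Normal → (s : G) ∈ K → K = ⊤ := by
    intro K hK h1
    apply htop K hK
    rw [hsG] at h1
    have h2 := hK.conj_mem _ h1 c⁻¹
    have h3 : c⁻¹ * (c * t * c⁻¹) * c⁻¹⁻¹ = t := by group
    rwa [h3] at h2
  obtain ⟨b1, b2, b3⟩ := S.bounds h hM hm hss hs1 hstop hη
  have hrel := S.even_rel h hM hm hss hs1 hη
  have da : (0 : ℚ) < charDegree (a : G → ℂ) := by exact_mod_cast (IsIrr.one_eq a.2).2
  have db : (0 : ℚ) < charDegree (b : G → ℂ) := by exact_mod_cast (IsIrr.one_eq b.2).2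
  have dη : (0 : ℚ) < charDegree (η : G → ℂ) := by exact_mod_cast (IsIrr.one_eq η.2).2
  have hwa2 : (w a : ℚ) * w a = 1 := by rcases S.wa with h' | h' <;> rw [h'] <;> norm_num
  have hwb2 : (w b : ℚ) * w b = 1 := by rcases S.wb with h' | h' <;> rw [h'] <;> norm_num
  have hδ2 : (δ : ℚ) * δ = 1 := by rcases S.D.sgn with h' | h' <;> rw [h'] <;> norm_num
  refine S.concl hη hM (z2 := w a / charDegree (a : G → ℂ)) (z3 := w b / charDegree (b : G → ℂ))
    (z4 := 3 * δ / charDegree (η : G → ℂ)) ?_ ?_ ?_ ?_ ?_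
  · field_simp
    linear_combination hwa2 + hwb2 - 3 * hδ2
  · have e1 : ((w a : ℚ) * charDegree (a : G → ℂ)) * (w a / charDegree (a : G → ℂ)) ^ 2 =
        (w a * w a) * (w a / charDegree (a : G → ℂ)) := by field_simp
    have e2 : ((w b : ℚ) * charDegree (b : G → ℂ)) * (w b / charDegree (b : G → ℂ)) ^ 2 =
        (w b * w b) * (w b / charDegree (b : G → ℂ)) := by field_simp
    have e3 : (-(δ : ℚ) * charDegree (η : G → ℂ)) * (3 * δ / charDegree (η : G → ℂ)) ^ 2 =
        -(δ * δ) * (9 * δ / charDegree (η : G → ℂ)) := by field_simp; ring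
    rw [e1, e2, e3, hwa2, hwb2, hδ2]
    linear_combination hrel
  · rcases S.wa with h' | h'
    · rw [div_lt_one da, h']
      exact_mod_cast b1 h'
    · rw [h', div_lt_one da]; push_cast; linarith
  · rcases S.wb with h' | h'
    · rw [div_lt_one db, h']
      exact_mod_cast b2 h'
    · rw [h', div_lt_one db]; push_cast; linarith
  · rcases S.D.sgn with h' | h'
    · rw [div_lt_one dη, h']
      have := b3 h'
      have h3 : (3 : ℚ) < charDegree (η : G → ℂ) := by exact_mod_cast this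
      push_cast; linarith
    · rw [h', div_lt_one dη]; push_cast; linarith

end Two

section All

variable {G : Type*} [Group G] [Fintype G] {p : ℕ} [hp : Fact p.Prime]
variable {P : Sylow p G} {M : Ideal AlgInt}
variable {w : IrrCharacter G → ℤ} {d δ : ℤ} {ζ : ((P : Subgroup G) →* ℂˣ) → IrrCharacter G}
variable {a b : IrrCharacter G}

theorem SX.all (h : FH P 3) (S : SX M P w δ ζ a b) (hM : IsPModular p M) (hm : 3 + 1 < Nat.card (P : Subgroup G))
    {t : G} (ht : orderOf t = 2)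
    (htop : ∀ K : Subgroup G, K.Normal → t ∈ K → K = ⊤) {η : IrrCharacter G} (hη : η ∈ YY ζ) :
    ((if w a = -1 then 1 else 0) + (if w b = -1 then 1 else 0) + (if δ = 1 then 1 else 0) = 2) ∧
      IsSquare (charDegree (η : G → ℂ) * (charDegree (a : G → ℂ) * charDegree (b : G → ℂ))) := by
  by_cases hp2 : p = 2
  · subst hp2
    exact S.even h hM hm ht htop hη
  · exact S.odd h hM hm hp2 ht htop hη

theorem ne_one_iff (χ : IrrCharacter G) : ((χ : G → ℂ) ≠ fun _ => 1) ↔ χ ≠ irrOne G :=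
  ⟨fun h h' => h (by rw [h']; rfl), fun h h' => h (Subtype.ext h')⟩

theorem SX.mem' (S : SX M P w δ ζ a b) (χ : IrrCharacter G) :
    (χ ∈ XX M ζ ∧ (χ : G → ℂ) ≠ fun _ => 1) ↔ (χ = a ∨ χ = b) := by
  rw [S.mem, ne_one_iff]
  constructor
  · rintro ⟨h1 | h1, h2⟩
    · exact absurd h1 h2
    · exact h1
  · rintro (rfl | rfl)
    · exact ⟨Or.inr (Or.inl rfl), S.a1⟩
    · exact ⟨Or.inr (Or.inr rfl), S.b1⟩

theorem SX.card_neg (S : SX M P w δ ζ a b) :
    Nat.card {χ : IrrCharacter G // χ ∈ XX M ζ ∧ (χ : G → ℂ) ≠ (fun _ => 1) ∧ w χ = -1} =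
      (if w a = -1 then 1 else 0) + (if w b = -1 then 1 else 0) := by
  classical
  have h1 : ∀ χ : IrrCharacter G, (χ ∈ XX M ζ ∧ (χ : G → ℂ) ≠ (fun _ => 1) ∧ w χ = -1) ↔
      χ ∈ (({a, b} : Finset (IrrCharacter G)).filter fun χ => w χ = -1) := by
    intro χ
    rw [← and_assoc, S.mem', Finset.mem_filter, Finset.mem_insert, Finset.mem_singleton]
  rw [Nat.card_congr (Equiv.subtypeEquivRight h1), Nat.card_eq_fintype_card, Fintype.card_coe,
    Finset.filter_insert, Finset.filter_singleton]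
  split_ifs
  · rw [Finset.card_insert_of_notMem (by rw [Finset.mem_singleton]; exact S.ab), Finset.card_singleton]
  · rfl
  · rfl
  · rfl

theorem SX.prod (S : SX M P w δ ζ a b) :
    ∏ᶠ χ ∈ {χ : IrrCharacter G | χ ∈ XX M ζ ∧ (χ : G → ℂ) ≠ fun _ => 1}, charDegree (χ : G → ℂ) =
      charDegree (a : G → ℂ) * charDegree (b : G → ℂ) := by
  have h1 : {χ : IrrCharacter G | χ ∈ XX M ζ ∧ (χ : G → ℂ) ≠ fun _ => 1} = {a, b} := by
    ext χ
    rw [Set.mem_setOf_eq, S.mem']
    rfl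
  rw [h1, finprod_mem_pair S.ab]

theorem SX.card_X (S : SX M P w δ ζ a b) : Nat.card (XX M ζ) = 3 := by
  classical
  have h1 : XX M ζ = (({irrOne G, a, b} : Finset (IrrCharacter G)) : Set (IrrCharacter G)) := by
    ext χ
    rw [S.mem]; simp
  rw [h1, Nat.card_coe_set_eq, Set.ncard_coe_finset, Finset.card_insert_of_notMem, Finset.card_insert_of_notMem,
    Finset.card_singleton]
  · rw [Finset.mem_singleton]; exact S.ab
  · rw [Finset.mem_insert, Finset.mem_singleton]
    rintro (h' | h')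
    · exact S.a1 h'.symm
    · exact S.b1 h'.symm

theorem SX.w_pm (S : SX M P w δ ζ a b) {χ : IrrCharacter G} (hχ : χ ∈ XX M ζ) : w χ = 1 ∨ w χ = -1 := by
  rcases (S.mem χ).1 hχ with rfl | rfl | rfl
  · exact Or.inl S.w1
  · exact S.wa
  · exact S.wb

end All

end CfsgH5
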