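import Mathlib

/-!
# Homocyclic abelian Sylow 2-subgroups of rank 2
-/

set_option autoImplicit false

namespace CfsgH5

section Z

theorem zmod_two_tors {m : ℕ} (hm : 1 ≤ m) (a : ZMod (2 ^ m)) :
    a + a = 0 ↔ a = 0 ∨ a = ((2 ^ (m - 1) : ℕ) : ZMod (2 ^ m)) := by
  haveI : NeZero (2 ^ m) := ⟨by positivity⟩
  have hpow : 2 ^ m = 2 * 2 ^ (m - 1) := by rw [← pow_succ']; congr 1; omega
  constructor
  · intro h
    have h1 : ((a.val + a.val : ℕ) : ZMod (2 ^ m)) = 0 := by
      push_cast
      rw [ZMod.natCast_zmod_val]; exact h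
    rw [ZMod.natCast_eq_zero_iff] at h1
    have h2 : a.val < 2 ^ m := ZMod.val_lt a
    have h3 : 2 * 2 ^ (m - 1) ∣ 2 * a.val := by rw [← hpow, two_mul]; exact h1
    have h4 : 2 ^ (m - 1) ∣ a.val := Nat.dvd_of_mul_dvd_mul_left (by norm_num) h3
    obtain ⟨k, hk⟩ := h4
    have hpos : 0 < 2 ^ (m - 1) := by positivity
    have hk2 : k < 2 := by
      by_contra hc
      push Not at hc
      have : 2 ^ (m - 1) * 2 ≤ 2 ^ (m - 1) * k := Nat.mul_le_mul_left _ hc
      omega
    interval_cases k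
    · left
      rw [← ZMod.val_eq_zero, hk, mul_zero]
    · right
      rw [← ZMod.natCast_zmod_val a, hk, mul_one]
  · rintro (h | h)
    · rw [h, add_zero]
    · rw [h, ← Nat.cast_add, ZMod.natCast_eq_zero_iff, hpow, two_mul]

theorem zmod_half_ne {m : ℕ} (hm : 1 ≤ m) : ((2 ^ (m - 1) : ℕ) : ZMod (2 ^ m)) ≠ 0 := by
  rw [Ne, ZMod.natCast_eq_zero_iff]
  intro h
  have h1 := Nat.le_of_dvd (by positivity) h
  have h2 : 2 ^ m = 2 * 2 ^ (m - 1) := by rw [← pow_succ']; congr 1; omega
  have hpos : 0 < 2 ^ (m - 1) := by positivity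
  omega

theorem card_omega {m : ℕ} (hm : 1 ≤ m) :
    Nat.card {v : ZMod (2 ^ m) × ZMod (2 ^ m) // v + v = 0 ∧ v ≠ 0} = 3 := by
  classical
  obtain ⟨h, hh⟩ : ∃ h : ZMod (2 ^ m), h = ((2 ^ (m - 1) : ℕ) : ZMod (2 ^ m)) := ⟨_, rfl⟩
  have hne : h ≠ 0 := hh ▸ zmod_half_ne hm
  have h1 : ∀ v : ZMod (2 ^ m) × ZMod (2 ^ m), (v + v = 0 ∧ v ≠ 0) ↔
      v ∈ ({(0, h), (h, 0), (h, h)} : Finset (ZMod (2 ^ m) × ZMod (2 ^ m))) := by
    rintro ⟨a, b⟩
    rw [Prod.mk_add_mk, Prod.mk_eq_zero, zmod_two_tors hm, zmod_two_tors hm, ← hh]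
    simp only [Finset.mem_insert, Finset.mem_singleton, Prod.mk.injEq, Ne, Prod.mk_eq_zero]
    constructor
    · rintro ⟨⟨ha | ha, hb | hb⟩, hn⟩ <;> simp_all
    · rintro (⟨ha, hb⟩ | ⟨ha, hb⟩ | ⟨ha, hb⟩) <;> simp_all
  rw [Nat.card_congr (Equiv.subtypeEquivRight h1), Nat.card_eq_fintype_card, Fintype.card_coe]
  rw [Finset.card_insert_of_notMem, Finset.card_insert_of_notMem, Finset.card_singleton]
  · simp only [Finset.mem_singleton, Prod.mk.injEq, not_and]
    intro _ h2; exact hne h2.symm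
  · simp only [Finset.mem_insert, Finset.mem_singleton, Prod.mk.injEq, not_or, not_and]
    exact ⟨fun h2 => absurd h2.symm hne, fun h2 => absurd h2.symm hne⟩

end Z

variable {G : Type*} [Group G] [Finite G]

/-- involutions of `P` -/
def Om (P : Subgroup G) : Type _ := {x : G // x ∈ P ∧ x * x = 1 ∧ x ≠ 1}

instance (P : Subgroup G) : Finite (Om P) := inferInstanceAs (Finite {x : G // x ∈ P ∧ x * x = 1 ∧ x ≠ 1})

def omAct (P : Subgroup G) (g : Subgroup.normalizer (P : Set G)) (x : Om P) : Om P :=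
  ⟨(g : G) * x.1 * (g : G)⁻¹, (Subgroup.mem_normalizer_iff.1 g.2 _).1 x.2.1, by
    calc (g : G) * x.1 * (g : G)⁻¹ * ((g : G) * x.1 * (g : G)⁻¹) = g * (x.1 * x.1) * (g : G)⁻¹ := by group
      _ = 1 := by rw [x.2.2.1]; group, by
    intro h
    apply x.2.2.2
    calc x.1 = (g : G)⁻¹ * (g * x.1 * (g : G)⁻¹) * g := by group
      _ = 1 := by rw [h]; group⟩

def omHom (P : Subgroup G) : Subgroup.normalizer (P : Set G) →* Equiv.Perm (Om P) where
  toFun g := ⟨omAct P g, omAct P g⁻¹, fun x => Subtype.ext (by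
    show (((g⁻¹ : Subgroup.normalizer (P : Set G)) : G)) * ((g : G) * x.1 * (g : G)⁻¹) *
      (((g⁻¹ : Subgroup.normalizer (P : Set G)) : G))⁻¹ = x.1
    push_cast; group), fun x => Subtype.ext (by
    show (g : G) * ((((g⁻¹ : Subgroup.normalizer (P : Set G)) : G)) * x.1 *
      (((g⁻¹ : Subgroup.normalizer (P : Set G)) : G))⁻¹) * (g : G)⁻¹ = x.1
    push_cast; group)⟩
  map_one' := by
    ext x
    apply Subtype.ext
    show ((1 : Subgroup.normalizer (P : Set G)) : G) * x.1 * ((1 : Subgroup.normalizer (P : Set G)) : G)⁻¹ = x.1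
    simp
  map_mul' g h := by
    ext x
    apply Subtype.ext
    show ((g * h : Subgroup.normalizer (P : Set G)) : G) * x.1 * ((g * h : Subgroup.normalizer (P : Set G)) : G)⁻¹ =
      (g : G) * ((h : G) * x.1 * (h : G)⁻¹) * (g : G)⁻¹
    push_cast; group

theorem omHom_apply (P : Subgroup G) (g : Subgroup.normalizer (P : Set G)) (x : Om P) :
    ((omHom P g x).1 : G) = g * x.1 * (g : G)⁻¹ := rfl

/-- an odd order automorphism fixing all involutions of an abelian 2-group is trivial -/
theorem omHom_ker {P : Subgroup G} (hP : IsPGroup 2 P) (hab : ∀ a ∈ P, ∀ b ∈ P, a * b = b * a)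
    {g : Subgroup.normalizer (P : Set G)} (hodd : ∃ k : ℕ, Odd k ∧ ((g : G) ^ k) ∈ Subgroup.centralizer (P : Set G))
    (hg : omHom P g = 1) : (g : G) ∈ Subgroup.centralizer (P : Set G) := by
  rw [Subgroup.mem_centralizer_iff]
  intro x hx
  obtain ⟨k, hk, hgk⟩ := hodd
  let φ : P →* P :=
    { toFun := fun y => ⟨(g : G) * y * (g : G)⁻¹, (Subgroup.mem_normalizer_iff.1 g.2 _).1 y.2⟩
      map_one' := Subtype.ext (by simp)
      map_mul' := fun a b => Subtype.ext (by
        show (g : G) * (a * b) * (g : G)⁻¹ = (g : G) * a * (g : G)⁻¹ * ((g : G) * b * (g : G)⁻¹)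
        group) }
  letI : CommGroup P := { (inferInstance : Group P) with mul_comm := fun a b => Subtype.ext (hab a a.2 b b.2) }
  have hφk : ∀ y : P, (φ^[k]) y = y := by
    intro y
    have h1 : ∀ n : ℕ, (((φ^[n]) y : P) : G) = (g : G) ^ n * y * ((g : G) ^ n)⁻¹ := by
      intro n
      induction n with
      | zero => simp
      | succ n ih =>
        rw [Function.iterate_succ_apply']
        show (g : G) * (((φ^[n]) y : P) : G) * (g : G)⁻¹ = _
        rw [ih, pow_succ']; group
    apply Subtype.ext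
    rw [h1]
    have h2 := Subgroup.mem_centralizer_iff.1 hgk y y.2
    rw [← h2]; group
  -- norm map
  let ν : P → P := fun y => ∏ i ∈ Finset.range k, (φ^[i]) y
  have hνmul : ∀ a b, ν (a * b) = ν a * ν b := by
    intro a b
    show ∏ i ∈ Finset.range k, (φ^[i]) (a * b) = _
    rw [← Finset.prod_mul_distrib]
    refine Finset.prod_congr rfl fun i _ => ?_
    have : ∀ n : ℕ, (φ^[n]) (a * b) = (φ^[n]) a * (φ^[n]) b := by
      intro n
      induction n with
      | zero => rfl
      | succ n ih => rw [Function.iterate_succ_apply', Function.iterate_succ_apply', Function.iterate_succ_apply', ih, map_mul]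
    exact this i
  have hνφ : ∀ a, ν (φ a) = ν a := by
    intro a
    show ∏ i ∈ Finset.range k, (φ^[i]) (φ a) = ∏ i ∈ Finset.range k, (φ^[i]) a
    have h1 : ∀ i, (φ^[i]) (φ a) = (φ^[i + 1]) a := fun i => rfl
    simp_rw [h1]
    have h2 := Finset.prod_range_succ (fun i => (φ^[i]) a) k
    have h3 := Finset.prod_range_succ' (fun i => (φ^[i]) a) k
    rw [h2, hφk] at h3
    simpa using h3.symm
  by_contra hne
  obtain ⟨y, hy⟩ : ∃ y : P, y = φ ⟨x, hx⟩ * (⟨x, hx⟩ : P)⁻¹ := ⟨_, rfl⟩
  have hy1 : y ≠ 1 := by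
    intro h
    rw [hy, mul_inv_eq_one] at h
    have h1 : (g : G) * x * (g : G)⁻¹ = x := congrArg Subtype.val h
    apply hne
    rw [mul_inv_eq_iff_eq_mul] at h1
    exact h1.symm
  obtain ⟨j, hj⟩ := (IsPGroup.iff_orderOf (p := 2)).1 hP y
  have hj0 : j ≠ 0 := by
    rintro rfl
    rw [pow_zero, orderOf_eq_one_iff] at hj
    exact hy1 hj
  obtain ⟨w, hw⟩ : ∃ w : P, w = y ^ 2 ^ (j - 1) := ⟨_, rfl⟩
  have hw2 : w * w = 1 := by
    rw [hw, ← pow_add, ← two_mul, ← pow_succ', Nat.sub_add_cancel (Nat.one_le_iff_ne_zero.2 hj0), ← hj,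
      pow_orderOf_eq_one]
  have hw1 : w ≠ 1 := by
    intro h
    rw [hw] at h
    have h1 := orderOf_dvd_of_pow_eq_one h
    rw [hj] at h1
    have h2 := Nat.pow_dvd_pow_iff_le_right (x := 2) (k := j) (l := j - 1) (by norm_num) |>.1 h1
    omega
  have hwφ : φ w = w := by
    have h1 := congrArg (fun σ : Equiv.Perm (Om P) => (σ ⟨w.1, w.2, congrArg Subtype.val hw2, fun h => hw1 (Subtype.ext h)⟩).1) hg
    exact Subtype.ext h1
  have h1 : ν w = w := by
    have h2 : ∀ i, (φ^[i]) w = w := by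
      intro i
      induction i with
      | zero => rfl
      | succ i ih => rw [Function.iterate_succ_apply', ih, hwφ]
    show ∏ i ∈ Finset.range k, (φ^[i]) w = w
    simp_rw [h2]
    rw [Finset.prod_const, Finset.card_range]
    obtain ⟨r, hr⟩ := hk
    rw [hr, pow_succ, pow_mul, pow_two, hw2, one_pow, one_mul]
  have h2 : ν w = 1 := by
    have h3 : w = φ ((⟨x, hx⟩ : P) ^ 2 ^ (j - 1)) * ((⟨x, hx⟩ : P) ^ 2 ^ (j - 1))⁻¹ := by
      rw [hw, hy, mul_pow, map_pow, inv_pow]
    have hν1 : ∀ a, ν a * ν a⁻¹ = 1 := by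
      intro a
      rw [← hνmul, mul_inv_cancel]
      show ∏ i ∈ Finset.range k, (φ^[i]) (1 : P) = 1
      have hone : ∀ i, (φ^[i]) (1 : P) = 1 := by
        intro i
        induction i with
        | zero => rfl
        | succ i ih => rw [Function.iterate_succ_apply', ih, map_one]
      exact Finset.prod_eq_one fun i _ => hone i
    rw [h3, hνmul, hνφ, hν1]
  exact hw1 (h1.symm.trans h2)

section Main

variable (P : Sylow 2 G) {m : ℕ} (hm : 1 ≤ m)
  (e : (P : Subgroup G) ≃* Multiplicative (ZMod (2 ^ m) × ZMod (2 ^ m)))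

include e in
theorem homo_comm : ∀ a ∈ (P : Subgroup G), ∀ b ∈ (P : Subgroup G), a * b = b * a := by
  intro a ha b hb
  have h1 : (⟨a, ha⟩ : P) * ⟨b, hb⟩ = ⟨b, hb⟩ * ⟨a, ha⟩ := by
    apply e.injective
    rw [map_mul, map_mul, mul_comm]
  exact congrArg Subtype.val h1

include hm e in
theorem card_Om : Nat.card (Om (P : Subgroup G)) = 3 := by
  rw [← card_omega hm]
  let e' : Om (P : Subgroup G) ≃ {v : Multiplicative (ZMod (2 ^ m) × ZMod (2 ^ m)) // v * v = 1 ∧ v ≠ 1} :=
    { toFun := fun x => ⟨e ⟨x.1, x.2.1⟩, by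
        rw [← map_mul]
        have : (⟨x.1, x.2.1⟩ : P) * ⟨x.1, x.2.1⟩ = 1 := Subtype.ext x.2.2.1
        rw [this, map_one], by
        intro h
        apply x.2.2.2
        have := (MulEquiv.map_eq_one_iff e).1 h
        exact congrArg Subtype.val this⟩
      invFun := fun v => ⟨(e.symm v.1 : P), (e.symm v.1).2, by
        have : e.symm v.1 * e.symm v.1 = 1 := by rw [← map_mul, v.2.1, map_one]
        exact congrArg Subtype.val this, by
        intro h
        apply v.2.2
        have : e.symm v.1 = 1 := Subtype.ext h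
        exact (MulEquiv.map_eq_one_iff e.symm).1 this⟩
      left_inv := fun x => Subtype.ext (by
        show ((e.symm (e ⟨x.1, x.2.1⟩) : P) : G) = x.1
        rw [MulEquiv.symm_apply_apply])
      right_inv := fun v => Subtype.ext (by
        show e ⟨((e.symm v.1 : P) : G), _⟩ = v.1
        have : (⟨((e.symm v.1 : P) : G), (e.symm v.1).2⟩ : P) = e.symm v.1 := rfl
        rw [this, MulEquiv.apply_symm_apply]) }
  exact Nat.card_congr e'

include e in
theorem homo_ker : (omHom (P : Subgroup G)).ker =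
    (Subgroup.centralizer ((P : Subgroup G) : Set G)).subgroupOf (Subgroup.normalizer ((P : Subgroup G) : Set G)) := by
  have hab := homo_comm P e
  have hK : ((Subgroup.centralizer ((P : Subgroup G) : Set G)).subgroupOf
      (Subgroup.normalizer ((P : Subgroup G) : Set G))).Normal := by
    refine ⟨fun n hn g => ?_⟩
    rw [Subgroup.mem_subgroupOf, Subgroup.mem_centralizer_iff] at hn ⊢
    intro x hx
    have h1 := (Subgroup.mem_normalizer_iff''.1 g.2 x).1 hx
    have h2 := hn _ h1
    push_cast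
    calc x * ((g : G) * n * (g : G)⁻¹) = g * (((g : G)⁻¹ * x * g) * n) * (g : G)⁻¹ := by group
      _ = g * (n * ((g : G)⁻¹ * x * g)) * (g : G)⁻¹ := by rw [h2]
      _ = (g : G) * n * (g : G)⁻¹ * x := by group
  have hodd : Odd ((Subgroup.centralizer ((P : Subgroup G) : Set G)).subgroupOf
      (Subgroup.normalizer ((P : Subgroup G) : Set G))).index := by
    have h1 : (P : Subgroup G) ≤ Subgroup.centralizer ((P : Subgroup G) : Set G) := fun a ha =>
      Subgroup.mem_centralizer_iff.2 fun b hb => hab b hb a ha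
    have h2 : ((Subgroup.centralizer ((P : Subgroup G) : Set G)).relIndex
      (Subgroup.normalizer ((P : Subgroup G) : Set G))) ∣ (P : Subgroup G).index :=
      (Subgroup.relIndex_dvd_of_le_left _ h1).trans (Subgroup.relIndex_dvd_index_of_le Subgroup.le_normalizer)
    have h3 : ¬ 2 ∣ (P : Subgroup G).index := P.not_dvd_index
    rw [Subgroup.relIndex] at h2
    rw [← Nat.not_even_iff_odd, even_iff_two_dvd]
    exact fun h => h3 (h.trans h2)
  ext g
  rw [MonoidHom.mem_ker, Subgroup.mem_subgroupOf]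
  constructor
  · intro h
    refine omHom_ker P.isPGroup' hab ⟨_, hodd, ?_⟩ h
    haveI := hK
    have h1 := Subgroup.pow_index_mem ((Subgroup.centralizer ((P : Subgroup G) : Set G)).subgroupOf
      (Subgroup.normalizer ((P : Subgroup G) : Set G))) g
    rw [Subgroup.mem_subgroupOf] at h1
    exact_mod_cast h1
  · intro h
    ext x
    apply Subtype.ext
    rw [omHom_apply]
    have h1 := Subgroup.mem_centralizer_iff.1 h x.1 x.2.1
    rw [← h1, mul_inv_cancel_right]
    rfl

include hm e in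
theorem homo_index :
    (Subgroup.centralizer ((P : Subgroup G) : Set G)).relIndex (Subgroup.normalizer ((P : Subgroup G) : Set G)) = 1 ∨
    (Subgroup.centralizer ((P : Subgroup G) : Set G)).relIndex (Subgroup.normalizer ((P : Subgroup G) : Set G)) = 3 := by
  have hab := homo_comm P e
  have h0 : (Subgroup.centralizer ((P : Subgroup G) : Set G)).relIndex
      (Subgroup.normalizer ((P : Subgroup G) : Set G)) = (omHom (P : Subgroup G)).ker.index := by
    rw [homo_ker P e]; rfl
  have h1 : (P : Subgroup G) ≤ Subgroup.centralizer ((P : Subgroup G) : Set G) := fun a ha =>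
      Subgroup.mem_centralizer_iff.2 fun b hb => hab b hb a ha
  have h2 : ((Subgroup.centralizer ((P : Subgroup G) : Set G)).relIndex
      (Subgroup.normalizer ((P : Subgroup G) : Set G))) ∣ (P : Subgroup G).index :=
      (Subgroup.relIndex_dvd_of_le_left _ h1).trans (Subgroup.relIndex_dvd_index_of_le Subgroup.le_normalizer)
  have h3 : ¬ 2 ∣ (P : Subgroup G).index := P.not_dvd_index
  have h4 : (omHom (P : Subgroup G)).ker.index ∣ 6 := by
    rw [Subgroup.index_ker]
    have h5 := Subgroup.card_subgroup_dvd_card (omHom (P : Subgroup G)).range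
    classical
    haveI : Fintype (Om (P : Subgroup G)) := Fintype.ofFinite _
    have h6 : Nat.card (Equiv.Perm (Om (P : Subgroup G))) = 6 := by
      rw [Nat.card_eq_fintype_card, Fintype.card_perm, ← Nat.card_eq_fintype_card, card_Om P hm e]
      rfl
    rwa [h6] at h5
  rw [h0] at h2 ⊢
  have h5 : ¬ 2 ∣ (omHom (P : Subgroup G)).ker.index := fun h => h3 (h.trans h2)
  have h6 : (omHom (P : Subgroup G)).ker.index ≤ 6 := Nat.le_of_dvd (by norm_num) h4
  have h7 : ∀ d : ℕ, d ≤ 6 → d ∣ 6 → ¬ 2 ∣ d → d = 1 ∨ d = 3 := by decide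
  exact h7 _ h6 h4 h5

include hm e in
theorem homo_nofix
    (h3 : (Subgroup.centralizer ((P : Subgroup G) : Set G)).relIndex
      (Subgroup.normalizer ((P : Subgroup G) : Set G)) = 3)
    {g : Subgroup.normalizer ((P : Subgroup G) : Set G)} (hg : omHom (P : Subgroup G) g ≠ 1) (x : Om (P : Subgroup G)) :
    omHom (P : Subgroup G) g x ≠ x := by
  classical
  intro hx
  apply hg
  obtain ⟨σ, hσ⟩ : ∃ σ, σ = omHom (P : Subgroup G) g := ⟨_, rfl⟩
  rw [← hσ] at hx ⊢
  have hcard : Nat.card (omHom (P : Subgroup G)).range = 3 := by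
    rw [← Subgroup.index_ker, homo_ker P e]; exact h3
  have hσ3 : σ ^ 3 = 1 := by
    have h1 := pow_card_eq_one' (x := (⟨σ, ⟨g, hσ.symm⟩⟩ : (omHom (P : Subgroup G)).range))
    rw [hcard] at h1
    exact congrArg Subtype.val h1
  haveI : Fact (Nat.Prime 3) := ⟨Nat.prime_three⟩
  have hp : IsPGroup 3 (Subgroup.zpowers σ) := by
    refine IsPGroup.of_card (n := if σ = 1 then 0 else 1) ?_
    rw [Nat.card_zpowers]
    split_ifs with h
    · rw [h, orderOf_one]; rfl
    · rw [pow_one]
      exact orderOf_eq_prime hσ3 h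
  have h1 := hp.card_modEq_card_fixedPoints (Om (P : Subgroup G))
  rw [card_Om P hm e] at h1
  have hfix : ∀ y : Om (P : Subgroup G), y ∈ MulAction.fixedPoints (Subgroup.zpowers σ) (Om (P : Subgroup G)) ↔ σ y = y := by
    intro y
    constructor
    · intro h; exact h ⟨σ, Subgroup.mem_zpowers σ⟩
    · rintro h ⟨τ, k, rfl⟩
      show (σ ^ k) y = y
      exact Equiv.Perm.zpow_apply_eq_self_of_apply_eq_self h k
  have hxm : x ∈ MulAction.fixedPoints (Subgroup.zpowers σ) (Om (P : Subgroup G)) := (hfix x).2 hx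
  have hpos : 0 < Nat.card (MulAction.fixedPoints (Subgroup.zpowers σ) (Om (P : Subgroup G))) := by
    haveI : Nonempty (MulAction.fixedPoints (Subgroup.zpowers σ) (Om (P : Subgroup G))) := ⟨⟨x, hxm⟩⟩
    exact Nat.card_pos
  have h2 : Nat.card (MulAction.fixedPoints (Subgroup.zpowers σ) (Om (P : Subgroup G))) ≤ 3 := by
    rw [← card_Om P hm e]
    exact Nat.card_le_card_of_injective _ Subtype.val_injective
  have h4 : Nat.card (MulAction.fixedPoints (Subgroup.zpowers σ) (Om (P : Subgroup G))) = 3 := by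
    have h5 := (Nat.modEq_zero_iff_dvd.1 (h1.symm.trans (show 3 ≡ 0 [MOD 3] from rfl)))
    omega
  have h5 : MulAction.fixedPoints (Subgroup.zpowers σ) (Om (P : Subgroup G)) = Set.univ := by
    apply Set.eq_of_subset_of_ncard_le (Set.subset_univ _)
    rw [Set.ncard_univ, card_Om P hm e]
    exact h4.ge
  ext y
  have h6 : y ∈ MulAction.fixedPoints (Subgroup.zpowers σ) (Om (P : Subgroup G)) := by rw [h5]; trivial
  rw [(hfix y).1 h6]; rfl

include hm e in
theorem homo_free
    (h3 : (Subgroup.centralizer ((P : Subgroup G) : Set G)).relIndex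
      (Subgroup.normalizer ((P : Subgroup G) : Set G)) ≠ 1) :
    ∀ z ∈ (P : Subgroup G), z ≠ 1 → Subgroup.centralizer ({z} : Set G) ⊓
      Subgroup.normalizer ((P : Subgroup G) : Set G) = Subgroup.centralizer ((P : Subgroup G) : Set G) := by
  have h3' := (homo_index P hm e).resolve_left h3
  intro z hz hz1
  apply le_antisymm
  · rintro g ⟨hg1, hg2⟩
    by_contra hc
    have h1 : omHom (P : Subgroup G) ⟨g, hg2⟩ ≠ 1 := by
      intro h
      apply hc
      have h4 : (⟨g, hg2⟩ : Subgroup.normalizer ((P : Subgroup G) : Set G)) ∈ (omHom (P : Subgroup G)).ker := h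
      rw [homo_ker P e, Subgroup.mem_subgroupOf] at h4
      exact h4
    obtain ⟨j, hj⟩ := (IsPGroup.iff_orderOf (p := 2)).1 P.isPGroup' ⟨z, hz⟩
    rw [Subgroup.orderOf_mk] at hj
    have hj0 : j ≠ 0 := by
      rintro rfl
      rw [pow_zero, orderOf_eq_one_iff] at hj
      exact hz1 hj
    have hw2 : z ^ 2 ^ (j - 1) * z ^ 2 ^ (j - 1) = 1 := by
      rw [← pow_add, ← two_mul, ← pow_succ', Nat.sub_add_cancel (Nat.one_le_iff_ne_zero.2 hj0), ← hj,
        pow_orderOf_eq_one]
    have hw1 : z ^ 2 ^ (j - 1) ≠ 1 := by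
      intro h
      have h1 := orderOf_dvd_of_pow_eq_one h
      rw [hj] at h1
      have h2 := Nat.pow_dvd_pow_iff_le_right (x := 2) (k := j) (l := j - 1) (by norm_num) |>.1 h1
      omega
    refine homo_nofix P hm e h3' h1 ⟨z ^ 2 ^ (j - 1), (P : Subgroup G).pow_mem hz _, hw2, hw1⟩ ?_
    apply Subtype.ext
    show g * z ^ 2 ^ (j - 1) * g⁻¹ = z ^ 2 ^ (j - 1)
    have h4 : Commute g z := (Subgroup.mem_centralizer_singleton_iff.1 hg1)
    rw [(h4.pow_right _).eq, mul_inv_cancel_right]
  · intro g hg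
    refine ⟨Subgroup.mem_centralizer_singleton_iff.2 ((Subgroup.mem_centralizer_iff.1 hg z hz).symm), ?_⟩
    exact Subgroup.centralizer_le_normalizer _ hg

include hm e in
theorem homo_dichotomy : (∃ N : Subgroup G, N.Normal ∧ Subgroup.IsComplement' N (P : Subgroup G)) ∨
    ∀ s t : G, orderOf s = 2 → orderOf t = 2 → IsConj s t := by
  classical
  rcases homo_index P hm e with h1 | h3
  · left
    have hle : Subgroup.normalizer ((P : Subgroup G) : Set G) ≤ Subgroup.centralizer ((P : Subgroup G) : Set G) :=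
      Subgroup.relIndex_eq_one.1 h1
    exact ⟨(MonoidHom.transferSylow P hle).ker, inferInstance, MonoidHom.ker_transferSylow_isComplement' P hle⟩
  · right
    have hex : ∃ g : Subgroup.normalizer ((P : Subgroup G) : Set G), omHom (P : Subgroup G) g ≠ 1 := by
      by_contra hc
      push Not at hc
      have h4 : (omHom (P : Subgroup G)).ker = ⊤ := by
        rw [eq_top_iff]; intro g _; exact hc g
      have h5 := homo_ker P e
      rw [h4] at h5
      have h6 : (Subgroup.centralizer ((P : Subgroup G) : Set G)).relIndex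
        (Subgroup.normalizer ((P : Subgroup G) : Set G)) = 1 := by
        rw [Subgroup.relIndex, ← h5, Subgroup.index_top]
      omega
    obtain ⟨g, hg⟩ := hex
    have hnf := homo_nofix P hm e h3 hg
    have htrans : ∀ x y : Om (P : Subgroup G), IsConj x.1 y.1 := by
      intro x y
      obtain ⟨σ, hσ⟩ : ∃ σ, σ = omHom (P : Subgroup G) g := ⟨_, rfl⟩
      rw [← hσ] at hnf
      have hc1 : ∀ z : Om (P : Subgroup G), IsConj z.1 (σ z).1 := by
        intro z
        rw [hσ, omHom_apply]
        exact isConj_iff.2 ⟨g, rfl⟩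
      have hcard : Nat.card (omHom (P : Subgroup G)).range = 3 := by
        rw [← Subgroup.index_ker, homo_ker P e]; exact h3
      have hσ3 : σ ^ 3 = 1 := by
        have h1 := pow_card_eq_one' (x := (⟨σ, ⟨g, hσ.symm⟩⟩ : (omHom (P : Subgroup G)).range))
        rw [hcard] at h1
        exact congrArg Subtype.val h1
      haveI : Fintype (Om (P : Subgroup G)) := Fintype.ofFinite _
      have h5 : σ (σ x) ≠ x := by
        intro h
        apply hnf x
        have h6 := congrArg (fun τ : Equiv.Perm (Om (P : Subgroup G)) => τ x) hσ3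
        have h7 : σ (σ (σ x)) = x := h6
        rw [h] at h7
        exact h7
      have h6 : ({x, σ x, σ (σ x)} : Finset (Om (P : Subgroup G))) = Finset.univ := by
        apply Finset.eq_univ_of_card
        rw [← Nat.card_eq_fintype_card, card_Om P hm e]
        rw [Finset.card_insert_of_notMem, Finset.card_insert_of_notMem, Finset.card_singleton]
        · rw [Finset.mem_singleton]; exact fun h => hnf (σ x) h.symm
        · rw [Finset.mem_insert, Finset.mem_singleton, not_or]
          exact ⟨fun h => hnf x h.symm, fun h => h5 h.symm⟩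
      have h7 : y ∈ ({x, σ x, σ (σ x)} : Finset (Om (P : Subgroup G))) := by rw [h6]; exact Finset.mem_univ _
      rw [Finset.mem_insert, Finset.mem_insert, Finset.mem_singleton] at h7
      rcases h7 with h | h | h
      · rw [h]
      · rw [h]; exact hc1 x
      · rw [h]; exact (hc1 x).trans (hc1 _)
    have hin : ∀ s : G, orderOf s = 2 → ∃ x : Om (P : Subgroup G), IsConj s x.1 := by
      intro s hs
      have hs2 : s * s = 1 := by rw [← pow_two, ← hs, pow_orderOf_eq_one]
      have hs1 : s ≠ 1 := by rintro rfl; rw [orderOf_one] at hs; omega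
      have h8 : IsPGroup 2 (Subgroup.zpowers s) := IsPGroup.of_card (n := 1) (by
        rw [Nat.card_zpowers, hs, pow_one])
      obtain ⟨Q, hQ⟩ := h8.exists_le_sylow
      obtain ⟨c, hc⟩ := MulAction.exists_smul_eq G Q P
      have h9 : c * s * c⁻¹ ∈ (P : Subgroup G) := by
        rw [← hc, Sylow.coe_subgroup_smul]
        exact (Subgroup.mem_pointwise_smul_iff_inv_smul_mem).2 (by
          show (MulAut.conj c)⁻¹ • (c * s * c⁻¹) ∈ (Q : Subgroup G)
          rw [← map_inv]
          show c⁻¹ * (c * s * c⁻¹) * c⁻¹⁻¹ ∈ (Q : Subgroup G)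
          have : c⁻¹ * (c * s * c⁻¹) * c⁻¹⁻¹ = s := by group
          rw [this]
          exact hQ (Subgroup.mem_zpowers s))
      refine ⟨⟨c * s * c⁻¹, h9, ?_, ?_⟩, isConj_iff.2 ⟨c, rfl⟩⟩
      · calc c * s * c⁻¹ * (c * s * c⁻¹) = c * (s * s) * c⁻¹ := by group
          _ = 1 := by rw [hs2]; group
      · intro h
        apply hs1
        calc s = c⁻¹ * (c * s * c⁻¹) * c := by group
          _ = 1 := by rw [h]; group
    intro s t hs ht
    obtain ⟨x, hx⟩ := hin s hs
    obtain ⟨y, hy⟩ := hin t ht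
    exact hx.trans ((htrans x y).trans hy.symm)

end Main

end CfsgH5
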