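import Cfsg.Agent.H5.FrobK
import Cfsg.Agent.H5.Homo2
import Cfsg.Agent.H2.Cores

/-!
# S0949
-/

set_option autoImplicit false

open Cfsg MonoidAlgebra
open CfsgH4 hiding centralChar sum_conj regInner_symm

namespace CfsgH5

open scoped ComplexConjugate

section Num

theorem num_contr {x y z wa wb δ : ℚ} (hx : 15 ≤ x) (hy : 15 ≤ y) (hz : 13 ≤ z)
    (hwa : wa = 1 ∨ wa = -1) (hwb : wb = 1 ∨ wb = -1) (hδ : δ = 1 ∨ δ = -1)
    (h : (1 : ℚ) + wa / x + wb / y - 9 * δ / z = 0) : False := by
  have h1 : |wa / x| ≤ 1 / 15 := by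
    rw [abs_div, abs_of_pos (by linarith : (0 : ℚ) < x)]
    have : |wa| = 1 := by rcases hwa with h' | h' <;> rw [h'] <;> norm_num
    rw [this]
    exact one_div_le_one_div_of_le (by norm_num) hx
  have h2 : |wb / y| ≤ 1 / 15 := by
    rw [abs_div, abs_of_pos (by linarith : (0 : ℚ) < y)]
    have : |wb| = 1 := by rcases hwb with h' | h' <;> rw [h'] <;> norm_num
    rw [this]
    exact one_div_le_one_div_of_le (by norm_num) hy
  have h3 : |9 * δ / z| ≤ 9 / 13 := by
    rw [abs_div, abs_of_pos (by linarith : (0 : ℚ) < z)]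
    have : |9 * δ| = 9 := by rcases hδ with h' | h' <;> rw [h'] <;> norm_num
    rw [this]
    exact div_le_div_of_nonneg_left (by norm_num) (by norm_num) hz
  have e1 := abs_le.1 h1
  have e2 := abs_le.1 h2
  have e3 := abs_le.1 h3
  linarith [e1.1, e2.1, e3.2]

end Num

section Two

variable {G : Type*} [Group G] [Fintype G]
variable {P : Sylow 2 G}

/-- no involution outside all proper normal subgroups -/
theorem no_top (h : FH P 3) (hm : 16 ≤ Nat.card (P : Subgroup G)) {t : (P : Subgroup G)} (ht : t * t = 1) (ht1 : t ≠ 1)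
    (htop : ∀ K : Subgroup G, K.Normal → (t : G) ∈ K → K = ⊤) : False := by
  classical
  obtain ⟨M, hM⟩ := exists_mod 2
  haveI := IsPModular.isPrime hM
  have hm' : 3 + 1 < Nat.card (P : Subgroup G) := by omega
  obtain ⟨w, δ, ζ, a, b, S⟩ := h.exists_SX hM hm'
  obtain ⟨ψ, -, hψ, -⟩ := h.exists_nonrel hm'
  have hη : ζ ψ ∈ YY ζ := ⟨ψ, hψ, rfl⟩
  obtain ⟨b1, b2, b3⟩ := S.bounds h hM hm' ht ht1 htop hη
  have hrel := S.even_rel h hM hm' ht ht1 hη
  obtain ⟨q, hq⟩ : ∃ q : ℤ, q = Nat.card (P : Subgroup G) := ⟨_, rfl⟩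
  have hq16 : 16 ≤ q := by rw [hq]; exact_mod_cast hm
  have hX : ∀ χ ∈ XX M ζ, (w χ = 1 ∨ w χ = -1) → (w χ = 1 → 1 < charDegree (χ : G → ℂ)) →
      15 ≤ (charDegree (χ : G → ℂ) : ℤ) := by
    intro χ hχ h1 h2
    obtain ⟨k, hk⟩ := S.D.degree h hχ.1
    have h3 : Nat.card {ψ : (P : Subgroup G) →* ℂˣ // ψ ≠ 1 ∧ ζ ψ = χ} = 0 := by
      rw [Nat.card_eq_zero]; left
      exact ⟨fun x => hχ.2 ⟨x.1, x.2.1, x.2.2⟩⟩
    rw [h3, ← hq] at hk
    push_cast at hk
    have hk0 : (0 : ℤ) ≤ k := Int.natCast_nonneg k
    rcases h1 with h1 | h1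
    · rw [h1] at hk
      have h4 : (1 : ℤ) < (charDegree (χ : G → ℂ) : ℤ) := by exact_mod_cast h2 h1
      have h5 : 1 < (k : ℤ) := by
        by_contra hc
        push Not at hc
        nlinarith
      nlinarith
    · rw [h1] at hk
      nlinarith
  have hda := hX a ((S.mem a).2 (Or.inr (Or.inl rfl))) S.wa b1
  have hdb := hX b ((S.mem b).2 (Or.inr (Or.inr rfl))) S.wb b2
  have hdη : 13 ≤ (charDegree (ζ ψ : G → ℂ) : ℤ) := by
    obtain ⟨k, hk⟩ := S.D.degree h (S.D.mem ψ)
    rw [S.D.fib_card h hψ, S.D.wd, ← hq] at hk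
    push_cast at hk
    have hk0 : (0 : ℤ) ≤ k := Int.natCast_nonneg k
    rcases S.D.sgn with h1 | h1
    · rw [h1] at hk
      have h4 : (3 : ℤ) < (charDegree (ζ ψ : G → ℂ) : ℤ) := by exact_mod_cast b3 h1
      have h5 : 0 < (k : ℤ) := by
        by_contra hc
        push Not at hc
        nlinarith
      nlinarith
    · rw [h1] at hk
      have h4 : (0 : ℤ) < (charDegree (ζ ψ : G → ℂ) : ℤ) := by exact_mod_cast (IsIrr.one_eq (ζ ψ).2).2
      have h5 : 0 < (k : ℤ) := by
        by_contra hc
        push Not at hc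
        nlinarith
      nlinarith
  refine num_contr (x := charDegree (a : G → ℂ)) (y := charDegree (b : G → ℂ)) (z := charDegree (ζ ψ : G → ℂ))
    (by exact_mod_cast hda) (by exact_mod_cast hdb) (by exact_mod_cast hdη) (wa := w a) (wb := w b) (δ := δ)
    ?_ ?_ ?_ hrel
  · rcases S.wa with h' | h'
    · left; rw [h']; norm_num
    · right; rw [h']; norm_num
  · rcases S.wb with h' | h'
    · left; rw [h']; norm_num
    · right; rw [h']; norm_num
  · rcases S.D.sgn with h' | h'
    · left; rw [h']; norm_num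
    · right; rw [h']; norm_num

end Two

section Main

variable {G : Type*} [Group G] [Finite G]

theorem core_bot_of (hO : ∀ N : Subgroup G, N.Normal → Odd (Nat.card N) → N = ⊥) (K : Subgroup G) [hK : K.Normal] :
    pPrimeCore 2 K = ⊥ := by
  haveI := CfsgH2.pPrimeCore_characteristic (G := K) 2
  haveI := Fintype.ofFinite K
  have h1 : ((pPrimeCore 2 K).map K.subtype).Normal := ConjAct.normal_of_characteristic_of_normal
  have h2 : Odd (Nat.card ((pPrimeCore 2 K).map K.subtype)) := by
    rw [Nat.card_congr ((pPrimeCore 2 K).equivMapOfInjective K.subtype K.subtype_injective).toEquiv.symm]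
    rw [← Nat.not_even_iff_odd, even_iff_two_dvd]
    exact not_dvd_pPrimeCore Nat.prime_two
  have h3 := hO _ h1 h2
  exact (Subgroup.map_eq_bot_iff_of_injective _ K.subtype_injective).1 h3

theorem isPGroup_of_npc (K : Subgroup G) (h : CfsgH3.HasNPC 2 K) (hc : pPrimeCore 2 K = ⊥) : IsPGroup 2 K := by
  haveI : Fact (Nat.Prime 2) := ⟨Nat.prime_two⟩
  haveI := Fintype.ofFinite K
  obtain ⟨k, hk⟩ := pPrimeCore_index_of_npc h
  rw [hc, Subgroup.index_bot] at hk
  exact IsPGroup.of_card hk

theorem homo_normal : ∀ (n : ℕ) {G : Type*} [Group G] [Finite G], Nat.card G = n →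
    ∀ (P : Sylow 2 G) (m : ℕ) (_ : 2 ≤ m) (_ : (P : Subgroup G) ≃* Multiplicative (ZMod (2 ^ m) × ZMod (2 ^ m)))
    (_ : ∀ N : Subgroup G, N.Normal → Odd (Nat.card N) → N = ⊥), (P : Subgroup G).Normal := by
  intro n
  induction n using Nat.strong_induction_on with
  | _ n ih =>
  intro G _ _ hn P m hm e hO
  classical
  haveI := Fintype.ofFinite G
  haveI : Fact (Nat.Prime 2) := ⟨Nat.prime_two⟩
  have hab := homo_comm P e
  rcases homo_index P (by omega) e with h1 | h3
  · -- normal complement
    have hle : nP P ≤ cP P := Subgroup.relIndex_eq_one.1 h1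
    have hnpc := CfsgH3.hasNPC_burnside P hle
    have hcore : pPrimeCore 2 G = ⊥ := hO _ inferInstance (by
      rw [← Nat.not_even_iff_odd, even_iff_two_dvd]
      exact not_dvd_pPrimeCore Nat.prime_two)
    obtain ⟨k, hk⟩ := pPrimeCore_index_of_npc hnpc
    rw [hcore, Subgroup.index_bot] at hk
    have hG : IsPGroup 2 G := IsPGroup.of_card hk
    have : (P : Subgroup G) = ⊤ := by
      symm
      apply P.3 (Q := ⊤)
      · exact hG.to_subgroup ⊤
      · exact le_top
    rw [this]; infer_instance
  · have h : FH P 3 := ⟨hab, h3, homo_free P (by omega) e (by rw [h3]; norm_num)⟩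
    have hcard : Nat.card (P : Subgroup G) = 2 ^ m * 2 ^ m := by
      rw [Nat.card_congr e.toEquiv, Nat.card_congr Multiplicative.toAdd, Nat.card_prod, Nat.card_zmod]
    have h4 : 2 ^ 2 ≤ 2 ^ m := Nat.pow_le_pow_right (by norm_num) hm
    have h16 : 16 ≤ Nat.card (P : Subgroup G) := by rw [hcard]; nlinarith
    -- an involution
    obtain ⟨t, ht, ht1⟩ : ∃ t : (P : Subgroup G), t * t = 1 ∧ t ≠ 1 := by
      have h5 := card_Om P (by omega) e
      have h6 : 0 < Nat.card (Om (P : Subgroup G)) := by omega
      obtain ⟨x⟩ := (Nat.card_pos_iff.1 h6).1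
      exact ⟨⟨x.1, x.2.1⟩, Subtype.ext x.2.2.1, fun h' => x.2.2.2 (congrArg Subtype.val h')⟩
    by_contra hPn
    apply no_top h h16 ht ht1
    intro K hK htK
    by_contra hKtop
    apply hPn
    by_cases hPK : (P : Subgroup G) ≤ K
    · -- induction
      have hlt : Nat.card K < n := by
        rw [← hn]
        exact (Subgroup.card_le_card_group K).lt_of_ne (fun h' => hKtop (Subgroup.eq_top_of_card_eq K h'))
      have hOK : ∀ N : Subgroup K, N.Normal → Odd (Nat.card N) → N = ⊥ := by
        intro N hN hodd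
        rw [eq_bot_iff, ← core_bot_of hO K]
        exact CfsgH2.le_pPrimeCore hN (by
          rw [Nat.coprime_two_right]; exact hodd)
      have eK : ((P.subtype hPK : Sylow 2 K) : Subgroup K) ≃* Multiplicative (ZMod (2 ^ m) × ZMod (2 ^ m)) :=
        (Subgroup.subgroupOfEquivOfLe hPK).trans e
      have hn := ih _ hlt rfl (P.subtype hPK) m hm eK hOK
      haveI := (P.subtype hPK).characteristic_of_normal hn
      have h5 : (((P.subtype hPK : Sylow 2 K) : Subgroup K).map K.subtype).Normal :=
        ConjAct.normal_of_characteristic_of_normal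
      rw [Sylow.coe_subtype, Subgroup.map_subgroupOf_eq_of_le hPK] at h5
      exact h5
    · -- K is a 2-group
      have hPH : (P : Subgroup G) ≤ K ⊔ P := le_sup_right
      have hKH : K ≤ K ⊔ (P : Subgroup G) := le_sup_left
      have hnpcH : CfsgH3.HasNPC 2 (K ⊔ (P : Subgroup G) : Subgroup G) := by
        apply CfsgH3.hasNPC_burnside (P.subtype hPH)
        intro x hx
        -- x normalizes P
        have hxN : (x : G) ∈ nP P := by
          rw [Subgroup.mem_normalizer_iff]
          intro y
          have h2 := Subgroup.mem_normalizer_iff.1 hx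
          constructor
          · intro hy
            have h5 := (h2 ⟨y, hPH hy⟩).1 (by
              show (⟨y, hPH hy⟩ : (K ⊔ (P : Subgroup G) : Subgroup G)) ∈ ((P.subtype hPH : Sylow 2 _) : Subgroup _)
              rw [Sylow.coe_subtype, Subgroup.mem_subgroupOf]; exact hy)
            have h6 : x * ⟨y, hPH hy⟩ * x⁻¹ ∈ ((P.subtype hPH : Sylow 2 _) : Subgroup _) := h5
            rw [Sylow.coe_subtype, Subgroup.mem_subgroupOf] at h6
            exact h6
          · intro hy
            have hyc : y ∈ K ⊔ (P : Subgroup G) := by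
              have h5 := hPH hy
              have h6 := mul_mem (mul_mem (inv_mem x.2) h5) x.2
              have h7 : (x : G)⁻¹ * (x * y * (x : G)⁻¹) * x = y := by group
              rwa [h7] at h6
            have h5 := (h2 ⟨y, hyc⟩).2 (by
              show x * (⟨y, hyc⟩ : (K ⊔ (P : Subgroup G) : Subgroup G)) * x⁻¹ ∈ ((P.subtype hPH : Sylow 2 _) : Subgroup _)
              rw [Sylow.coe_subtype, Subgroup.mem_subgroupOf]; exact hy)
            have h6 : (⟨y, hyc⟩ : (K ⊔ (P : Subgroup G) : Subgroup G)) ∈ ((P.subtype hPH : Sylow 2 _) : Subgroup _) := h5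
            rw [Sylow.coe_subtype, Subgroup.mem_subgroupOf] at h6
            exact h6
        have hxC : (x : G) ∈ cP P := by
          by_contra hxC
          apply hPK
          -- conjugation by x is trivial mod K
          have hmod : ∀ s : (P : Subgroup G), ((cjP P ⟨x, hxN⟩ s : (P : Subgroup G)) : G) * (s : G)⁻¹ ∈ K := by
            intro s
            haveI := hK
            have hx2 : (x : G) ∈ ((K ⊔ (P : Subgroup G) : Subgroup G) : Set G) := x.2
            rw [Subgroup.normal_mul] at hx2
            obtain ⟨k, hk, z, hz, hkz⟩ := hx2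
            have hkz : k * z = (x : G) := hkz
            rw [coe_cjP]
            show (x : G) * s * (x : G)⁻¹ * (s : G)⁻¹ ∈ K
            rw [← hkz]
            have h5 : k * z * s * (k * z)⁻¹ * (s : G)⁻¹ = k * (s * k⁻¹ * (s : G)⁻¹) := by
              have h6 : z * s = s * z := hab z hz s s.2
              calc k * z * s * (k * z)⁻¹ * (s : G)⁻¹ = k * (z * s) * z⁻¹ * k⁻¹ * (s : G)⁻¹ := by group
                _ = k * (s * z) * z⁻¹ * k⁻¹ * (s : G)⁻¹ := by rw [h6]
                _ = k * (s * k⁻¹ * (s : G)⁻¹) := by group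
            rw [h5]
            exact K.mul_mem hk (hK.conj_mem _ (K.inv_mem hk) _)
          intro s hs
          have h5 := h.triple (n := ⟨x, hxN⟩) hxC ⟨s, hs⟩
          have h6 : s ^ 3 ∈ K := by
            have e1 := hmod ⟨s, hs⟩
            have e2 := hmod (cjP P ⟨x, hxN⟩ ⟨s, hs⟩)
            obtain ⟨u, hu⟩ : ∃ u : G, u = ((cjP P ⟨x, hxN⟩ ⟨s, hs⟩ : (P : Subgroup G)) : G) := ⟨_, rfl⟩
            obtain ⟨v, hv⟩ : ∃ v : G, v = ((cjP P ⟨x, hxN⟩ (cjP P ⟨x, hxN⟩ ⟨s, hs⟩) : (P : Subgroup G)) : G) := ⟨_, rfl⟩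
            rw [← hu] at e1 e2
            rw [← hv] at e2
            have e3 : s * u * v = 1 := by rw [hu, hv]; exact congrArg Subtype.val h5
            have e1' : u * s⁻¹ ∈ K := e1
            -- mod K
            have f1 : (QuotientGroup.mk' K) u = (QuotientGroup.mk' K) s := by
              have := (QuotientGroup.eq_one_iff (N := K) _).2 e1'
              have h8 : (QuotientGroup.mk' K) (u * s⁻¹) = 1 := this
              rw [map_mul, map_inv] at h8
              exact mul_inv_eq_one.1 h8
            have f2 : (QuotientGroup.mk' K) v = (QuotientGroup.mk' K) u := by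
              have := (QuotientGroup.eq_one_iff (N := K) _).2 e2
              have h8 : (QuotientGroup.mk' K) (v * u⁻¹) = 1 := this
              rw [map_mul, map_inv] at h8
              exact mul_inv_eq_one.1 h8
            have f3 := congrArg (QuotientGroup.mk' K) e3
            rw [map_mul, map_mul, f2, f1, map_one, ← map_mul, ← map_mul] at f3
            have f4 : s * s * s ∈ K := (QuotientGroup.eq_one_iff (N := K) _).1 f3
            have f5 : s ^ 3 = s * s * s := by rw [pow_succ, pow_two]
            rw [f5]; exact f4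
          obtain ⟨k, hk⟩ := FH.ppow P hs
          have hcop : (orderOf s).Coprime 3 := by
            rw [hk]; exact Nat.Coprime.pow_left _ (by norm_num)
          -- s is a power of s^3
          have h7 : s ∈ Subgroup.zpowers (s ^ 3) := by
            obtain ⟨j, hj⟩ := exists_pow_eq_self_of_coprime hcop.symm
            have h8 := Subgroup.npow_mem_zpowers (s ^ 3) j
            rwa [hj] at h8
          exact (Subgroup.zpowers_le.2 h6) h7
        rw [Subgroup.mem_centralizer_iff]
        intro y hy
        have hy' : (y : G) ∈ (P : Subgroup G) := by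
          have h6 : y ∈ ((P.subtype hPH : Sylow 2 _) : Subgroup _) := hy
          rw [Sylow.coe_subtype, Subgroup.mem_subgroupOf] at h6
          exact h6
        exact Subtype.ext (Subgroup.mem_centralizer_iff.1 hxC y hy')
      have hK2 : IsPGroup 2 K := isPGroup_of_npc K (hnpcH.le hKH) (core_bot_of hO K)
      have hKP : K ≤ (P : Subgroup G) := by
        obtain ⟨Q, hQ⟩ := hK2.exists_le_sylow
        obtain ⟨g, hg⟩ := MulAction.exists_smul_eq G Q P
        rw [← hg]
        intro x hx
        rw [Sylow.coe_subgroup_smul, Subgroup.mem_pointwise_smul_iff_inv_smul_mem]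
        apply hQ
        rw [← map_inv]
        exact hK.conj_mem x hx g⁻¹
      -- the centralizer of K
      haveI := hK
      have hPC : (P : Subgroup G) ≤ Subgroup.centralizer (K : Set G) := by
        intro x hx
        rw [Subgroup.mem_centralizer_iff]
        intro y hy
        exact hab y (hKP hy) x hx
      have hnpcC : CfsgH3.HasNPC 2 (Subgroup.centralizer (K : Set G)) := by
        have hle : Subgroup.centralizer (K : Set G) ≤ Subgroup.centralizer ({(t : G)} : Set G) :=
          Subgroup.centralizer_le (Set.singleton_subset_iff.2 htK)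
        exact (h.npc t.2 (fun h' => ht1 (Subtype.ext h'))).le hle
      haveI hCn : (Subgroup.centralizer (K : Set G)).Normal := inferInstance
      have hC2 := isPGroup_of_npc _ hnpcC (core_bot_of hO (Subgroup.centralizer (K : Set G)))
      have hPeq : (P : Subgroup G) = Subgroup.centralizer (K : Set G) := (P.3 hC2 hPC).symm
      rw [hPeq]; exact hCn

end Main

end CfsgH5
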