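import Cfsg.Agent.H5.Major4
import Cfsg.Agent.H5.MaxPair
import Cfsg.Agent.H5.ExtFM
import Cfsg.Agent.H4.FR4

/-!
# Heights and inertial indices: contributions of all subsections
-/

set_option autoImplicit false
open Cfsg MonoidAlgebra
open CfsgH4 hiding centralChar sum_conj regInner_symm

namespace CfsgH5

open scoped ComplexConjugate

variable {G : Type*} [Group G] [Finite G] {p : ℕ} [hp : Fact p.Prime] {M : Ideal AlgInt}

section Cross

variable {C : Subgroup G} [Fintype C]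

open Classical in
theorem cross_expand {u : C} (hu : u ∈ Subgroup.center C) (b b' : Set (IrrCharacter C)) (χ ψ : IrrCharacter G) :
    (∑ x : C, if p ∣ orderOf x then 0 else Xf u b (χ : G → ℂ) x * conj (Xf u b' (ψ : G → ℂ) x)) =
      ∑ ζ : IrrCharacter C, ∑ ξ : IrrCharacter C,
      if ζ ∈ b ∧ ξ ∈ b' then mlt C (χ : G → ℂ) ζ * mlt C (ψ : G → ℂ) ξ * (wt u ζ * conj (wt u ξ)) *
        regInner p (ζ : C → ℂ) (ξ : C → ℂ) else 0 := by
  have h1 : ∀ x : C, (if p ∣ orderOf x then 0 else Xf u b (χ : G → ℂ) x * conj (Xf u b' (ψ : G → ℂ) x)) =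
      ∑ ζ : IrrCharacter C, ∑ ξ : IrrCharacter C, if ζ ∈ b ∧ ξ ∈ b' then mlt C (χ : G → ℂ) ζ * mlt C (ψ : G → ℂ) ξ *
        (wt u ζ * conj (wt u ξ)) * (if p ∣ orderOf x then 0 else (ζ : C → ℂ) x * conj ((ξ : C → ℂ) x)) else 0 := by
    intro x
    by_cases hx : p ∣ orderOf x
    · simp [hx]
    · simp only [if_neg hx]
      rw [Xf_wt hu, Xf_wt hu, map_sum, Finset.sum_mul]
      refine Finset.sum_congr rfl fun ζ _ => ?_
      rw [Finset.mul_sum]
      refine Finset.sum_congr rfl fun ξ _ => ?_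
      by_cases h1 : ζ ∈ b
      · by_cases h2 : ξ ∈ b'
        · rw [if_pos h1, if_pos h2, if_pos ⟨h1, h2⟩]
          obtain ⟨n, hn⟩ := mlt_nat (C := C) (IsIrr.isCharacter ψ.2) ξ
          rw [map_mul, map_mul, hn, Complex.conj_natCast]
          ring
        · simp [h2]
      · simp [h1]
  rw [Finset.sum_congr rfl fun x _ => h1 x, Finset.sum_comm]
  refine Finset.sum_congr rfl fun ζ _ => ?_
  rw [Finset.sum_comm]
  refine Finset.sum_congr rfl fun ξ _ => ?_
  split_ifs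
  · rw [← Finset.mul_sum, regInner]
  · exact Finset.sum_const_zero

theorem Xf_univ (u : C) (χ : IrrCharacter G) (x : C) : Xf u Set.univ (χ : G → ℂ) x = (χ : G → ℂ) ((u : G) * x) := by
  classical
  have h1 : IsClassFunction C (fun c : C => (χ : G → ℂ) c) := fun a b => by
    have := IsIrr.isClassFunction χ.2 (a : G) (b : G)
    exact this
  have h2 := classFun_expand_apply h1 (u * x)
  rw [Xf]
  simp only [Set.mem_univ, if_true]
  exact h2.symm

/-- norm version of the contribution -/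
noncomputable def nR (p : ℕ) (u : C) (b : Set (IrrCharacter C)) (χ : G → ℂ) : ℝ := by
  classical
  exact (Nat.card C : ℝ)⁻¹ * ∑ x : C, if p ∣ orderOf x then 0 else ‖Xf u b χ x‖ ^ 2

theorem nR_nonneg (u : C) (b : Set (IrrCharacter C)) (χ : G → ℂ) : 0 ≤ nR p u b χ := by
  classical
  unfold nR
  refine mul_nonneg (by positivity) (Finset.sum_nonneg fun x _ => ?_)
  split_ifs <;> positivity

theorem ctr_eq_nR (u : C) (b : Set (IrrCharacter C)) (χ : G → ℂ) : ctr p u b χ χ = (nR p u b χ : ℂ) := by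
  classical
  unfold ctr nR
  push_cast
  congr 1
  refine Finset.sum_congr rfl fun x _ => ?_
  split_ifs
  · simp
  · rw [Complex.mul_conj, Complex.normSq_eq_norm_sq]

/-- the characters of the block with idempotent `f` -/
def bst (M : Ideal AlgInt) [hMp : M.IsPrime] (K : Subgroup G) (f : MonoidAlgebra (kk M) G) : Set (IrrCharacter K) :=
  {ζ | ∃ e : Set (IrrCharacter K), IsPBlock M e ∧ f = idH M K e ∧ ζ ∈ e}

omit [Fintype C] in
theorem bst_idH [hMp : M.IsPrime] {e : Set (IrrCharacter C)} (he : IsPBlock M e) : bst M C (idH M C e) = e := by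
  ext ζ
  constructor
  · rintro ⟨e', he', h, hζ⟩
    rw [idH_injective he he' h]; exact hζ
  · intro h
    exact ⟨e, he, rfl, h⟩

open Classical in
theorem sum_nR (hM : IsPModular p M) [hMp : M.IsPrime] {u : C} (hu : u ∈ Subgroup.center C) (χ : IrrCharacter G) :
    ∑ f ∈ bls M C, nR p u (bst M C f) (χ : G → ℂ) = (Nat.card C : ℝ)⁻¹ * ∑ x : C, if p ∣ orderOf x then 0 else ‖(χ : G → ℂ) ((u : G) * x)‖ ^ 2 := by
  have h1 : ((∑ f ∈ bls M C, nR p u (bst M C f) (χ : G → ℂ) : ℝ) : ℂ) =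
      (((Nat.card C : ℝ)⁻¹ * ∑ x : C, if p ∣ orderOf x then 0 else ‖(χ : G → ℂ) ((u : G) * x)‖ ^ 2 : ℝ) : ℂ) := by
    rw [Complex.ofReal_sum]
    have e1 : ∀ f, (nR p u (bst M C f) (χ : G → ℂ) : ℂ) = (Nat.card C : ℂ)⁻¹ * ∑ ζ : IrrCharacter C, ∑ ξ : IrrCharacter C,
      if ζ ∈ bst M C f ∧ ξ ∈ bst M C f then mlt C (χ : G → ℂ) ζ * mlt C (χ : G → ℂ) ξ * (wt u ζ * conj (wt u ξ)) *
        regInner p (ζ : C → ℂ) (ξ : C → ℂ) else 0 := by
      intro f
      rw [← ctr_eq_nR, ctr, cross_expand hu]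
    rw [Finset.sum_congr rfl fun f _ => e1 f, ← Finset.mul_sum]
    push_cast
    congr 1
    have e2 : ∀ x : C, (((if p ∣ orderOf x then 0 else ‖(χ : G → ℂ) ((u : G) * x)‖ ^ 2 : ℝ)) : ℂ) =
        if p ∣ orderOf x then 0 else Xf u Set.univ (χ : G → ℂ) x * conj (Xf u Set.univ (χ : G → ℂ) x) := by
      intro x
      split_ifs
      · simp
      · rw [Xf_univ, Complex.mul_conj, Complex.normSq_eq_norm_sq]
    rw [Finset.sum_congr rfl fun x _ => e2 x, cross_expand hu, Finset.sum_comm]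
    refine Finset.sum_congr rfl fun ζ _ => ?_
    rw [Finset.sum_comm]
    refine Finset.sum_congr rfl fun ξ _ => ?_
    have hζb := isPBlock_blockOf (M := M) ζ
    rw [Finset.sum_eq_single (idH M C (blockOf M (ζ : C → ℂ)))]
    · rw [bst_idH hζb]
      simp only [Set.mem_univ, and_self, if_true]
      by_cases hξ : ξ ∈ blockOf M (ζ : C → ℂ)
      · rw [if_pos ⟨mem_blockOf_self ζ, hξ⟩]
      · rw [if_neg (fun h => hξ h.2), (regInner_zero hM hζb (mem_blockOf_self ζ) hξ).1, mul_zero]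
    · intro f _ hne
      rw [if_neg]
      rintro ⟨⟨e, he, h1, h2⟩, -⟩
      apply hne
      rw [h1, IsPBlock.eq_blockOf he h2]
    · intro h
      exact absurd (mem_bls.2 (isBl_idH hζb)) h
  exact_mod_cast h1

end Cross

section Conj

variable {C C' : Subgroup G} [Fintype C] [Fintype C']

theorem mlt_cj (g : G) (hC : C' = cj g C) {χ : G → ℂ} (hχ : IsCharacter G χ) (ζ : IrrCharacter C) :
    mlt C' χ (irrE (cjEquiv g hC) ζ) = mlt C χ ζ := by
  unfold mlt
  rw [← classInner_comp_equiv (cjEquiv g hC)]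
  congr 1
  · funext c
    show χ (g * c * g⁻¹) = χ c
    exact IsCharacter.conj_eq hχ _ _
  · funext c
    exact irrE_apply' _ _ _

theorem Xf_cj (g : G) (hC : C' = cj g C) {χ : G → ℂ} (hχ : IsCharacter G χ) (u x : C) (e : Set (IrrCharacter C)) :
    Xf (cjEquiv g hC u) (irrE (cjEquiv g hC) '' e) χ (cjEquiv g hC x) = Xf u e χ x := by
  classical
  unfold Xf
  rw [← Equiv.sum_comp (irrE (cjEquiv g hC))]
  refine Finset.sum_congr rfl fun ζ _ => ?_
  rw [mlt_cj g hC hχ, ← map_mul, irrE_apply']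
  have : irrE (cjEquiv g hC) ζ ∈ irrE (cjEquiv g hC) '' e ↔ ζ ∈ e :=
    Function.Injective.mem_set_image (Equiv.injective _)
  by_cases h : ζ ∈ e
  · rw [if_pos h, if_pos (this.2 h)]
  · rw [if_neg h, if_neg (fun h' => h (this.1 h'))]

theorem nR_cj (g : G) (hC : C' = cj g C) {χ : G → ℂ} (hχ : IsCharacter G χ) (u : C) (e : Set (IrrCharacter C)) :
    nR p (cjEquiv g hC u) (irrE (cjEquiv g hC) '' e) χ = nR p u e χ := by
  classical
  unfold nR
  rw [Nat.card_congr (cjEquiv g hC).toEquiv.symm]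
  congr 1
  rw [← Equiv.sum_comp (cjEquiv g hC).toEquiv]
  refine Finset.sum_congr rfl fun x _ => ?_
  have h1 : orderOf ((cjEquiv g hC).toEquiv x) = orderOf x := MulEquiv.orderOf_eq (cjEquiv g hC) x
  rw [h1]
  split_ifs
  · rfl
  · show ‖Xf (cjEquiv g hC u) (irrE (cjEquiv g hC) '' e) χ (cjEquiv g hC x)‖ ^ 2 = _
    rw [Xf_cj g hC hχ]

omit [Fintype C] [Fintype C'] in
theorem bst_ca [hMp : M.IsPrime] (g : G) (hC : C' = cj g C) {f : MonoidAlgebra (kk M) G} (hf : IsBl C f) :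
    bst M C' (ca g f) = irrE (cjEquiv g hC) '' bst M C f := by
  obtain ⟨e, he, rfl⟩ := exists_block_of_isBl hf
  rw [bst_idH he, ← idH_cjSet g hC, bst_idH ((isPBlock_cjSet g hC).2 he), cjSet_eq g hC]

end Conj

section Total

/-- centralizer of an element -/
def Kz (w : G) : Subgroup G := cz (Subgroup.zpowers w)

noncomputable instance kzFin (w : G) : Fintype (Kz w) := Fintype.ofFinite _

omit [Finite G] in
theorem Kz_eq (w : G) : Kz w = Subgroup.centralizer ({w} : Set G) := by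
  unfold Kz cz
  rw [Subgroup.zpowers_eq_closure, Subgroup.centralizer_closure]

omit [Finite G] in
theorem mem_Kz {w x : G} : x ∈ Kz w ↔ x * w = w * x := by
  rw [Kz_eq, Subgroup.mem_centralizer_singleton_iff]

omit [Finite G] in
theorem self_mem_Kz (w : G) : w ∈ Kz w := mem_Kz.2 rfl

omit [Finite G] in
theorem center_Kz (w : G) : (⟨w, self_mem_Kz w⟩ : Kz w) ∈ Subgroup.center (Kz w) := by
  rw [Subgroup.mem_center_iff]
  intro c
  exact Subtype.ext (mem_Kz.1 c.2)

omit [Finite G] in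
theorem Kz_cj (g w : G) : Kz (g * w * g⁻¹) = cj g (Kz w) := by
  ext x
  rw [mem_cj, mem_Kz, mem_Kz]
  constructor
  · intro h
    have := congrArg (fun y => g⁻¹ * y * g) h
    simpa [mul_assoc] using this
  · intro h
    have := congrArg (fun y => g * y * g⁻¹) h
    simpa [mul_assoc] using this

/-- contribution of `(w, f)` to the norm of `χ` -/
noncomputable def cv (p : ℕ) (M : Ideal AlgInt) [hMp : M.IsPrime] (χ : G → ℂ) (w : G) (f : MonoidAlgebra (kk M) G) : ℝ :=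
  nR p (⟨w, self_mem_Kz w⟩ : Kz w) (bst M (Kz w) f) χ

theorem cv_nonneg [hMp : M.IsPrime] (χ : G → ℂ) (w : G) (f : MonoidAlgebra (kk M) G) : 0 ≤ cv p M χ w f := nR_nonneg _ _ _

theorem cv_cj [hMp : M.IsPrime] {χ : G → ℂ} (hχ : IsCharacter G χ) (g w : G) {f : MonoidAlgebra (kk M) G} (hf : IsBl (Kz w) f) :
    cv p M χ (g * w * g⁻¹) (ca g f) = cv p M χ w f := by
  unfold cv
  rw [bst_ca g (Kz_cj g w) hf]
  exact nR_cj g (Kz_cj g w) hχ ⟨w, self_mem_Kz w⟩ _

open Classical in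
theorem cv_total [Fintype G] (hM : IsPModular p M) [hMp : M.IsPrime] (χ : IrrCharacter G) :
    ∑ w ∈ Finset.univ.filter (fun w : G => ∃ k, orderOf w = p ^ k), ∑ f ∈ bls M (Kz w), (Nat.card (Kz w) : ℝ) * cv p M (χ : G → ℂ) w f ≤
      Nat.card G := by
  have h1 : ∀ w : G, ∑ f ∈ bls M (Kz w), (Nat.card (Kz w) : ℝ) * cv p M (χ : G → ℂ) w f =
      ∑ x : G, if x ∈ Kz w ∧ ¬ p ∣ orderOf x then ‖(χ : G → ℂ) (w * x)‖ ^ 2 else 0 := by
    intro w
    rw [← Finset.mul_sum]
    unfold cv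
    rw [sum_nR hM (center_Kz w) χ, ← mul_assoc, mul_inv_cancel₀ (by exact_mod_cast Nat.card_pos.ne'), one_mul]
    have h2 := Finset.sum_subtype_of_mem (s := Finset.univ.filter (fun x : G => x ∈ Kz w)) (p := fun x => x ∈ Kz w)
      (fun x : G => if p ∣ orderOf x then (0 : ℝ) else ‖(χ : G → ℂ) (w * x)‖ ^ 2) (by simp)
    have h3 : (∑ x : Kz w, if p ∣ orderOf x then (0 : ℝ) else ‖(χ : G → ℂ) (w * x)‖ ^ 2) =
        ∑ x ∈ Finset.univ.filter (fun x : G => x ∈ Kz w), if p ∣ orderOf x then (0 : ℝ) else ‖(χ : G → ℂ) (w * x)‖ ^ 2 := by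
      rw [← h2]
      refine Finset.sum_bij (fun x _ => x) ?_ (fun _ _ _ _ h => h) (fun x _ => ⟨x, Finset.mem_univ _, rfl⟩) ?_
      · intro x _
        simp only [Finset.mem_subtype, Finset.mem_filter, Finset.mem_univ, true_and]
        exact x.2
      · intro x _
        rw [Subgroup.orderOf_coe]
    rw [h3, Finset.sum_filter]
    refine Finset.sum_congr rfl fun x _ => ?_
    by_cases hx : x ∈ Kz w
    · by_cases hx2 : p ∣ orderOf x
      · simp [hx, hx2]
      · simp [hx, hx2]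
    · simp [hx]
  rw [Finset.sum_congr rfl fun w _ => h1 w, ← Finset.sum_product', ← Finset.sum_filter]
  have hinj : Set.InjOn (fun q : G × G => q.1 * q.2) ((((Finset.univ.filter (fun w : G => ∃ k, orderOf w = p ^ k)) ×ˢ (Finset.univ : Finset G)).filter
      (fun q : G × G => q.2 ∈ Kz q.1 ∧ ¬ p ∣ orderOf q.2) : Finset (G × G)) : Set (G × G)) := by
    intro a ha b hb hab
    simp only [Finset.coe_filter, Finset.mem_product, Finset.mem_filter, Finset.mem_univ, true_and, and_true, Set.mem_setOf_eq] at ha hb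
    have e1 : IsPPart p (a.1 * a.2) a.1 := ⟨a.2, rfl, (mem_Kz.1 ha.2.1).symm, ha.1, ha.2.2⟩
    have e2 : IsPPart p (b.1 * b.2) b.1 := ⟨b.2, rfl, (mem_Kz.1 hb.2.1).symm, hb.1, hb.2.2⟩
    have hab' : a.1 * a.2 = b.1 * b.2 := hab
    rw [hab'] at e1
    have e3 := ppart_unique e1 e2
    refine Prod.ext e3 ?_
    rw [e3] at hab'
    exact mul_left_cancel hab'
  rw [← Finset.sum_image (f := fun g : G => ‖(χ : G → ℂ) g‖ ^ 2) hinj]
  refine (Finset.sum_le_sum_of_subset_of_nonneg (Finset.subset_univ _) (fun _ _ _ => by positivity)).trans ?_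
  have h4 := classInner_irr_self χ.2
  rw [classInner_def] at h4
  have h5 : ((∑ g : G, ‖(χ : G → ℂ) g‖ ^ 2 : ℝ) : ℂ) = (Nat.card G : ℂ) := by
    have h6 : (∑ g : G, (χ : G → ℂ) g * conj ((χ : G → ℂ) g)) = ((∑ g : G, ‖(χ : G → ℂ) g‖ ^ 2 : ℝ) : ℂ) := by
      push_cast
      refine Finset.sum_congr rfl fun g _ => ?_
      rw [Complex.mul_conj, Complex.normSq_eq_norm_sq]; push_cast; rfl
    rw [← h6]
    rw [inv_mul_eq_iff_eq_mul₀ (card_ne_zero G), mul_one] at h4
    exact h4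
  have h7 : (∑ g : G, ‖(χ : G → ℂ) g‖ ^ 2 : ℝ) = (Nat.card G : ℝ) := by exact_mod_cast h5
  rw [h7]

end Total

section Count

/-- a maximal pair is maximal in the centralizer of a central element -/
theorem mp_loc (hM : IsPModular p M) [hMp : M.IsPrime] {B : MonoidAlgebra (kk M) G} (hB : IsBl (⊤ : Subgroup G) B) {P : Subgroup G}
    {ε : MonoidAlgebra (kk M) G} (h : MP p ⊤ B (P, ε)) {w : G} {φ : MonoidAlgebra (kk M) G}
    (hle : LE p (Subgroup.zpowers w, φ) (P, ε)) (hφ : IsBl (Kz w) φ) (hPw : P ≤ Kz w) : MP p (Kz w) φ (P, ε) := by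
  have hOf : Of p (Kz w) φ (Subgroup.zpowers w, φ) := by
    refine ⟨hle.isPGroup h.1.1, ?_, le_refl _, hφ, ?_⟩
    · rw [Subgroup.zpowers_le]; exact self_mem_Kz w
    · rw [br_of_sup hφ.sup]; exact hφ.idem
  refine ⟨(LE.of_iff hM hφ hle hPw (le_refl _)).1 hOf, fun c hc hle' => ?_⟩
  exact h.2 c ((LE.of_iff hM hB hle' le_top le_top).1 h.1) hle'

end Count

end CfsgH5
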