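import Cfsg.Agent.H5.Hgt1

/-!
# Heights and inertial indices: the counting argument
-/

set_option autoImplicit false
open Cfsg MonoidAlgebra
open CfsgH4 hiding centralChar sum_conj regInner_symm

namespace CfsgH5

open scoped ComplexConjugate

variable {G : Type*} [Group G] [Finite G] {p : ℕ} [hp : Fact p.Prime] {M : Ideal AlgInt}

open Classical in
theorem fiber_bound [Fintype G] (hM : IsPModular p M) [hMp : M.IsPrime] {B : MonoidAlgebra (kk M) G} (hB : IsBl (⊤ : Subgroup G) B)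
    {D : Subgroup G} {β : MonoidAlgebra (kk M) G} (hmax : MP p ⊤ B (D, β)) (ZD : Finset G)
    (hZ : ∀ z ∈ ZD, D ≤ Kz z) (f : G → MonoidAlgebra (kk M) G) (hf : ∀ z ∈ ZD, IsBl (Kz z) (f z))
    (hle : ∀ z ∈ ZD, LE p (Subgroup.zpowers z, f z) (D, β)) (H T : Subgroup G) (hHz : ∀ z ∈ ZD, H ≤ Kz z)
    (hT : ∀ t : G, cp t (D, β) = (D, β) → t ∈ T) (w : G) (φ : MonoidAlgebra (kk M) G) :
    ((ZD ×ˢ (Finset.univ : Finset G)).filter (fun q : G × G => q.2 * q.1 * q.2⁻¹ = w ∧ ca q.2 (f q.1) = φ)).card ≤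
      Nat.card (Kz w) * H.relIndex T := by
  rcases Finset.eq_empty_or_nonempty ((ZD ×ˢ (Finset.univ : Finset G)).filter (fun q : G × G => q.2 * q.1 * q.2⁻¹ = w ∧ ca q.2 (f q.1) = φ)) with h0 | ⟨q0, hq0⟩
  · rw [h0, Finset.card_empty]; exact Nat.zero_le _
  haveI : Fintype (T ⧸ H.subgroupOf T) := Fintype.ofFinite _
  have hcard : Nat.card (Kz w) * H.relIndex T = (Finset.univ : Finset (Kz w × (T ⧸ H.subgroupOf T))).card := by
    rw [Finset.card_univ, Fintype.card_prod, ← Nat.card_eq_fintype_card, ← Nat.card_eq_fintype_card, Subgroup.relIndex, Subgroup.index]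
  rw [hcard]
  simp only [Finset.mem_filter, Finset.mem_product, Finset.mem_univ, and_true] at hq0
  obtain ⟨hz0, hw0, hφ0⟩ := hq0
  have hmaxg : ∀ q : G × G, q.1 ∈ ZD → q.2 * q.1 * q.2⁻¹ = w → ca q.2 (f q.1) = φ → MP p (Kz w) φ (cp q.2 (D, β)) := by
    intro q hq1 hq2 hq3
    have h1 : MP p ⊤ B (cp q.2 (D, β)) := MP.cp hB hmax (Subgroup.mem_top _)
    have h2 : cj q.2 (Subgroup.zpowers q.1) = Subgroup.zpowers w := by
      show (Subgroup.zpowers q.1).map _ = _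
      rw [MonoidHom.map_zpowers, ← hq2]; rfl
    have h3 : LE p (Subgroup.zpowers w, φ) (cp q.2 (D, β)) := by
      have := (hle q.1 hq1).cp q.2
      have h4 : cp q.2 (Subgroup.zpowers q.1, f q.1) = (Subgroup.zpowers w, φ) := Prod.ext h2 hq3
      rw [h4] at this
      exact this
    have h5 : Kz w = cj q.2 (Kz q.1) := by rw [← hq2, Kz_cj]
    have h6 : IsBl (Kz w) φ := by
      rw [← hq3, h5]; exact (hf q.1 hq1).ca q.2
    refine mp_loc hM hB h1 h3 h6 ?_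
    rw [h5]
    exact Subgroup.map_mono (hZ q.1 hq1)
  have hm0 := hmaxg q0 hz0 hw0 hφ0
  have hbw : IsBl (Kz w) φ := by
    have h5 : Kz w = cj q0.2 (Kz q0.1) := by rw [← hw0, Kz_cj]
    rw [← hφ0, h5]; exact (hf q0.1 hz0).ca q0.2
  let F : Kz w × (T ⧸ H.subgroupOf T) → G × G := fun a =>
    (((a.1 : G) * q0.2 * ((a.2.out : T) : G)⁻¹)⁻¹ * w * ((a.1 : G) * q0.2 * ((a.2.out : T) : G)⁻¹), (a.1 : G) * q0.2 * ((a.2.out : T) : G)⁻¹)
  refine (Finset.card_le_card (t := (Finset.univ : Finset (Kz w × (T ⧸ H.subgroupOf T))).image F) ?_).trans Finset.card_image_le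
  intro q hq
  simp only [Finset.mem_filter, Finset.mem_product, Finset.mem_univ, and_true] at hq
  obtain ⟨hz, hw, hφ⟩ := hq
  obtain ⟨c, hc, hceq⟩ := mp_conj hM hbw (hmaxg q hz hw hφ) hm0
  have ht : q0.2⁻¹ * c * q.2 ∈ T := by
    apply hT
    rw [mul_assoc, ← cp_cp, ← cp_cp, ← hceq, cp_inv_cp]
  obtain ⟨t, htd⟩ : ∃ t : T, t = ⟨q0.2⁻¹ * c * q.2, ht⟩ := ⟨_, rfl⟩
  obtain ⟨r, hr⟩ : ∃ r : T, r = (QuotientGroup.mk t⁻¹ : T ⧸ H.subgroupOf T).out := ⟨_, rfl⟩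
  have hrt : r⁻¹ * t⁻¹ ∈ H.subgroupOf T := by
    rw [← QuotientGroup.eq, hr]
    exact Quotient.out_eq' _
  rw [Subgroup.mem_subgroupOf] at hrt
  rw [Finset.mem_image]
  have hgt : (t : G) = q0.2⁻¹ * c * q.2 := by rw [htd]
  have hcW : c⁻¹ * (q0.2 * (((r⁻¹ * t⁻¹ : T) : G))⁻¹ * q0.2⁻¹) ∈ Kz w := by
    refine mul_mem (inv_mem hc) ?_
    have h1 := hHz q0.1 hz0 (inv_mem hrt)
    rw [mem_Kz] at h1 ⊢
    rw [← hw0]
    have := congrArg (fun y => q0.2 * y * q0.2⁻¹) h1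
    simpa [mul_assoc] using this
  refine ⟨(⟨_, hcW⟩, (QuotientGroup.mk t⁻¹ : T ⧸ H.subgroupOf T)), Finset.mem_univ _, ?_⟩
  have hq2 : c⁻¹ * (q0.2 * (((r⁻¹ * t⁻¹ : T) : G))⁻¹ * q0.2⁻¹) * q0.2 * (r : G)⁻¹ = q.2 := by
    have e1 : (((r⁻¹ * t⁻¹ : T) : G))⁻¹ = (t : G) * (r : G) := by push_cast; group
    rw [e1, hgt]; group
  have hF : F (⟨_, hcW⟩, (QuotientGroup.mk t⁻¹ : T ⧸ H.subgroupOf T)) = (q.2⁻¹ * w * q.2, q.2) := by
    show (((_ * q0.2 * ((((QuotientGroup.mk t⁻¹ : T ⧸ H.subgroupOf T)).out : T) : G)⁻¹)⁻¹ * w * _ : G), _) = _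
    rw [← hr]
    exact Prod.ext (by rw [hq2]) hq2
  rw [hF, ← hw]
  exact Prod.ext (by group) rfl

open Classical in
/-- the sum of the contributions of the central elements is bounded by the inertial index -/
theorem cv_sum_le [Fintype G] (hM : IsPModular p M) [hMp : M.IsPrime] {B : MonoidAlgebra (kk M) G} (hB : IsBl (⊤ : Subgroup G) B)
    {D : Subgroup G} {β : MonoidAlgebra (kk M) G} (hmax : MP p ⊤ B (D, β)) (ZD : Finset G)
    (hZp : ∀ z ∈ ZD, ∃ k, orderOf z = p ^ k)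
    (hZ : ∀ z ∈ ZD, D ≤ Kz z) (f : G → MonoidAlgebra (kk M) G) (hf : ∀ z ∈ ZD, IsBl (Kz z) (f z))
    (hle : ∀ z ∈ ZD, LE p (Subgroup.zpowers z, f z) (D, β)) (H T : Subgroup G) (hHz : ∀ z ∈ ZD, H ≤ Kz z)
    (hT : ∀ t : G, cp t (D, β) = (D, β) → t ∈ T) (χ : IrrCharacter G) :
    ∑ z ∈ ZD, cv p M (χ : G → ℂ) z (f z) ≤ H.relIndex T := by
  have hG : (0 : ℝ) < Nat.card G := by exact_mod_cast Nat.card_pos
  refine le_of_mul_le_mul_left ?_ hG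
  have h1 : (Nat.card G : ℝ) * ∑ z ∈ ZD, cv p M (χ : G → ℂ) z (f z) =
      ∑ q ∈ ZD ×ˢ (Finset.univ : Finset G), cv p M (χ : G → ℂ) (q.2 * q.1 * q.2⁻¹) (ca q.2 (f q.1)) := by
    rw [Finset.sum_product, Finset.mul_sum]
    refine Finset.sum_congr rfl fun z hz => ?_
    rw [Finset.sum_congr rfl fun g _ => cv_cj (IsIrr.isCharacter χ.2) g z (hf z hz), Finset.sum_const, Finset.card_univ,
      nsmul_eq_mul, Nat.card_eq_fintype_card]
  obtain ⟨S, hS⟩ : ∃ S : Finset (Σ _ : G, MonoidAlgebra (kk M) G), S = (Finset.univ.filter (fun w : G => ∃ k, orderOf w = p ^ k)).sigma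
    (fun w => bls M (Kz w)) := ⟨_, rfl⟩
  have hmap : ∀ q ∈ ZD ×ˢ (Finset.univ : Finset G), (⟨q.2 * q.1 * q.2⁻¹, ca q.2 (f q.1)⟩ : Σ _ : G, MonoidAlgebra (kk M) G) ∈ S := by
    intro q hq
    rw [Finset.mem_product] at hq
    rw [hS, Finset.mem_sigma, Finset.mem_filter, mem_bls]
    refine ⟨⟨Finset.mem_univ _, ?_⟩, ?_⟩
    · obtain ⟨k, hk⟩ := hZp q.1 hq.1
      refine ⟨k, ?_⟩
      show orderOf (q.2 * q.1 * q.2⁻¹) = p ^ k
      rw [← hk]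
      exact orderOf_injective (MulAut.conj q.2).toMonoidHom (MulAut.conj q.2).injective q.1
    · show IsBl (Kz (q.2 * q.1 * q.2⁻¹)) (ca q.2 (f q.1))
      rw [Kz_cj]
      exact (hf q.1 hq.1).ca q.2
  rw [h1, ← Finset.sum_fiberwise_of_maps_to hmap]
  have h2 : ∀ y ∈ S, ∑ q ∈ (ZD ×ˢ (Finset.univ : Finset G)).filter (fun q => (⟨q.2 * q.1 * q.2⁻¹, ca q.2 (f q.1)⟩ : Σ _ : G, MonoidAlgebra (kk M) G) = y),
      cv p M (χ : G → ℂ) (q.2 * q.1 * q.2⁻¹) (ca q.2 (f q.1)) ≤ (H.relIndex T : ℝ) * ((Nat.card (Kz y.1) : ℝ) * cv p M (χ : G → ℂ) y.1 y.2) := by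
    intro y _
    have e1 : ∑ q ∈ (ZD ×ˢ (Finset.univ : Finset G)).filter (fun q => (⟨q.2 * q.1 * q.2⁻¹, ca q.2 (f q.1)⟩ : Σ _ : G, MonoidAlgebra (kk M) G) = y),
        cv p M (χ : G → ℂ) (q.2 * q.1 * q.2⁻¹) (ca q.2 (f q.1)) =
        (((ZD ×ˢ (Finset.univ : Finset G)).filter (fun q => (⟨q.2 * q.1 * q.2⁻¹, ca q.2 (f q.1)⟩ : Σ _ : G, MonoidAlgebra (kk M) G) = y)).card : ℝ) *
          cv p M (χ : G → ℂ) y.1 y.2 := by
      rw [← nsmul_eq_mul, ← Finset.sum_const]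
      refine Finset.sum_congr rfl fun q hq => ?_
      rw [Finset.mem_filter] at hq
      rw [← hq.2]
    rw [e1, ← mul_assoc]
    refine mul_le_mul_of_nonneg_right ?_ (cv_nonneg _ _ _)
    have e2 := fiber_bound hM hB hmax ZD hZ f hf hle H T hHz hT y.1 y.2
    have e3 : (ZD ×ˢ (Finset.univ : Finset G)).filter (fun q => (⟨q.2 * q.1 * q.2⁻¹, ca q.2 (f q.1)⟩ : Σ _ : G, MonoidAlgebra (kk M) G) = y) ⊆
        (ZD ×ˢ (Finset.univ : Finset G)).filter (fun q : G × G => q.2 * q.1 * q.2⁻¹ = y.1 ∧ ca q.2 (f q.1) = y.2) := by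
      intro q hq
      rw [Finset.mem_filter] at hq ⊢
      refine ⟨hq.1, ?_, ?_⟩
      · rw [← hq.2]
      · rw [← hq.2]
    have e4 := (Finset.card_le_card e3).trans e2
    rw [mul_comm]
    exact_mod_cast e4
  refine (Finset.sum_le_sum h2).trans ?_
  rw [← Finset.mul_sum, mul_comm (Nat.card G : ℝ)]
  refine mul_le_mul_of_nonneg_left ?_ (by positivity)
  rw [hS, Finset.sum_sigma]
  exact cv_total hM χ

end CfsgH5
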