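import Cfsg.Agent.H5.Hgt2
import Cfsg.Agent.H5.UnitsAM
import Cfsg.Agent.H5.KGV1

/-!
# Heights and inertial indices: lower bounds for contributions
-/

set_option autoImplicit false
open Cfsg MonoidAlgebra
open CfsgH4 hiding centralChar sum_conj regInner_symm

namespace CfsgH5

open scoped ComplexConjugate

variable {G : Type*} [Group G] [Fintype G] {p : ℕ} [hp : Fact p.Prime] {M : Ideal AlgInt}

section Loc

variable {C : Subgroup G} [Fintype C]

open Classical in
/-- the function on `C` -/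
noncomputable def phi (p : ℕ) (u : C) (e : Set (IrrCharacter C)) (ψ : G → ℂ) (y : C) : ℂ :=
  if p ∣ orderOf (u⁻¹ * y) then 0 else conj (Xf u e ψ (u⁻¹ * y))

theorem Xf_integral (u : C) (e : Set (IrrCharacter C)) {ψ : G → ℂ} (hψ : IsCharacter G ψ) (x : C) : IsIntegral ℤ (Xf u e ψ x) := by
  classical
  unfold Xf
  refine IsIntegral.sum _ fun ζ _ => ?_
  split_ifs
  · obtain ⟨n, hn⟩ := mlt_nat (C := C) hψ ζ
    rw [hn]
    exact (isIntegral_algebraMap (R := ℤ) (x := (n : ℤ))).mul (IsCharacter.isIntegral (IsIrr.isCharacter ζ.2) _)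
  · exact isIntegral_zero

theorem Xf_class {u : C} (hu : u ∈ Subgroup.center C) (e : Set (IrrCharacter C)) (ψ : G → ℂ) (c x : C) :
    Xf u e ψ (c * x * c⁻¹) = Xf u e ψ x := by
  classical
  unfold Xf
  refine Finset.sum_congr rfl fun ζ _ => ?_
  have h1 : u * (c * x * c⁻¹) = c * (u * x) * c⁻¹ := by
    have h2 := Subgroup.mem_center_iff.1 hu c
    rw [← mul_assoc, ← mul_assoc, ← h2]
    group
  rw [h1, IsCharacter.conj_eq (IsIrr.isCharacter ζ.2)]

theorem phi_class {u : C} (hu : u ∈ Subgroup.center C) (e : Set (IrrCharacter C)) (ψ : G → ℂ) (c y : C) :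
    phi p u e ψ (c * y * c⁻¹) = phi p u e ψ y := by
  classical
  unfold phi
  have h1 : u⁻¹ * (c * y * c⁻¹) = c * (u⁻¹ * y) * c⁻¹ := by
    have h2 := Subgroup.mem_center_iff.1 (Subgroup.inv_mem _ hu) c
    rw [← mul_assoc, ← mul_assoc, ← h2]
    group
  have h3 : orderOf (c * (u⁻¹ * y) * c⁻¹) = orderOf (u⁻¹ * y) :=
    orderOf_injective (MulAut.conj c).toMonoidHom (MulAut.conj c).injective (u⁻¹ * y)
  rw [h1, h3, Xf_class hu]

theorem phi_local [hMp : M.IsPrime] (u : C) (e : Set (IrrCharacter C)) {ψ : G → ℂ} (hψ : IsCharacter G ψ) (y : C) :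
    MemLocalRing M (phi p u e ψ y) := by
  classical
  unfold phi
  split_ifs
  · exact MemLocalIdeal.memLocalRing memLocalIdeal_zero
  · apply memLocalRing_of_isIntegral
    exact (Xf_integral u e hψ _).map (starRingEnd ℂ).toIntAlgHom

theorem indFun_phi_local [hMp : M.IsPrime] {u : C} (hC : C = Subgroup.centralizer ({(u : G)} : Set G))
    (hup : ∃ k, orderOf (u : G) = p ^ k) (e : Set (IrrCharacter C)) {ψ : G → ℂ} (hψ : IsCharacter G ψ) (g : G) :
    MemLocalRing M (indFun C (phi p u e ψ) g) := by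
  classical
  have hu := mem_center_of_eq hC
  rw [indFun_apply]
  by_cases hex : ∃ x0 : G, ∃ h : x0⁻¹ * g * x0 ∈ C, ¬ p ∣ orderOf (u⁻¹ * ⟨x0⁻¹ * g * x0, h⟩)
  · obtain ⟨x0, h0, hx0⟩ := hex
    have hpp : ∀ x : G, ∀ h : x⁻¹ * g * x ∈ C, ¬ p ∣ orderOf (u⁻¹ * ⟨x⁻¹ * g * x, h⟩) → IsPPart p g (x * u * x⁻¹) := by
      intro x h hx
      obtain ⟨y, hy⟩ : ∃ y : C, y = ⟨x⁻¹ * g * x, h⟩ := ⟨_, rfl⟩
      rw [← hy] at hx
      have hyG : (y : G) = x⁻¹ * g * x := by rw [hy]
      have hcom : (u : G) * ((u⁻¹ * y : C) : G) = ((u⁻¹ * y : C) : G) * u :=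
        (congrArg Subtype.val (Subgroup.mem_center_iff.1 hu (u⁻¹ * y))).symm
      refine ⟨x * ((u⁻¹ * y : C) : G) * x⁻¹, ?_, ?_, ?_, ?_⟩
      · push_cast; rw [hyG]; group
      · show x * u * x⁻¹ * (x * ((u⁻¹ * y : C) : G) * x⁻¹) = x * ((u⁻¹ * y : C) : G) * x⁻¹ * (x * u * x⁻¹)
        have := congrArg (fun z => x * z * x⁻¹) hcom
        simpa [mul_assoc] using this
      · obtain ⟨k, hk⟩ := hup
        exact ⟨k, by rw [← hk]; exact orderOf_injective (MulAut.conj x).toMonoidHom (MulAut.conj x).injective (u : G)⟩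
      · have := orderOf_injective (MulAut.conj x).toMonoidHom (MulAut.conj x).injective ((u⁻¹ * y : C) : G)
        rw [Subgroup.orderOf_coe] at this
        have h2 : orderOf (x * ((u⁻¹ * y : C) : G) * x⁻¹) = orderOf (u⁻¹ * y) := this
        rw [h2]; exact hx
    have hval : ∀ x : G, extendByZero C (phi p u e ψ) (x⁻¹ * g * x) =
        if x0⁻¹ * x ∈ C then phi p u e ψ ⟨x0⁻¹ * g * x0, h0⟩ else 0 := by
      intro x
      split_ifs with hx
      · have e1 : x⁻¹ * g * x = (((⟨x0⁻¹ * x, hx⟩ : C)⁻¹ * ⟨x0⁻¹ * g * x0, h0⟩ * (⟨x0⁻¹ * x, hx⟩ : C)⁻¹⁻¹ : C) : G) := by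
          push_cast; group
        rw [e1, extendByZero_coe, phi_class hu]
      · by_cases hx2 : x⁻¹ * g * x ∈ C
        · have e1 : extendByZero C (phi p u e ψ) (x⁻¹ * g * x) = phi p u e ψ ⟨x⁻¹ * g * x, hx2⟩ :=
            extendByZero_coe C (phi p u e ψ) ⟨x⁻¹ * g * x, hx2⟩
          rw [e1]
          unfold phi
          rw [if_pos]
          by_contra hc
          apply hx
          have e2 := ppart_unique (hpp x hx2 hc) (hpp x0 h0 hx0)
          rw [hC, Subgroup.mem_centralizer_singleton_iff]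
          have := congrArg (fun z => x0⁻¹ * z * x) e2
          simpa [mul_assoc] using this
        · exact extendByZero_of_not_mem C _ hx2
    rw [Finset.sum_congr rfl fun x _ => hval x, ← Finset.sum_filter, Finset.sum_const, nsmul_eq_mul]
    have hcard : (Finset.univ.filter (fun x : G => x0⁻¹ * x ∈ C)).card = Nat.card C := by
      rw [Nat.card_eq_fintype_card, ← Finset.card_univ]
      symm
      refine Finset.card_bij (fun (c : C) _ => x0 * (c : G)) ?_ ?_ ?_
      · intro c _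
        rw [Finset.mem_filter]
        refine ⟨Finset.mem_univ _, ?_⟩
        rw [inv_mul_cancel_left]; exact c.2
      · intro a _ b _ hab
        exact Subtype.ext (mul_left_cancel hab)
      · intro b hb
        rw [Finset.mem_filter] at hb
        exact ⟨⟨_, hb.2⟩, Finset.mem_univ _, mul_inv_cancel_left _ _⟩
    rw [hcard, ← mul_assoc, inv_mul_cancel₀ (card_ne_zero C), one_mul]
    exact phi_local u e hψ _
  · push Not at hex
    rw [Finset.sum_eq_zero, mul_zero]
    · exact MemLocalIdeal.memLocalRing memLocalIdeal_zero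
    · intro x _
      by_cases hx2 : x⁻¹ * g * x ∈ C
      · have e1 : extendByZero C (phi p u e ψ) (x⁻¹ * g * x) = phi p u e ψ ⟨x⁻¹ * g * x, hx2⟩ :=
          extendByZero_coe C (phi p u e ψ) ⟨x⁻¹ * g * x, hx2⟩
        rw [e1]
        unfold phi
        rw [if_pos (hex x hx2)]
      · exact extendByZero_of_not_mem C _ hx2

/-- the central element attached to `ψ` -/
noncomputable def zps (p : ℕ) (u : C) (e : Set (IrrCharacter C)) (ψ : G → ℂ) : MonoidAlgebra ℂ G :=
  mkA fun g => indFun C (phi p u e ψ) g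

theorem isCen_zps (u : C) (e : Set (IrrCharacter C)) (ψ : G → ℂ) : IsCen (zps p u e ψ) :=
  isCen_mkA fun x g => indFun_isClassFunction C (phi p u e ψ) g x

theorem inS_zps [hMp : M.IsPrime] {u : C} (hC : C = Subgroup.centralizer ({(u : G)} : Set G))
    (hup : ∃ k, orderOf (u : G) = p ^ k) (e : Set (IrrCharacter C)) {ψ : G → ℂ} (hψ : IsCharacter G ψ) : InS M (zps p u e ψ) :=
  fun g => indFun_phi_local hC hup e hψ g

theorem om_zps (hM : IsPModular p M) {u : C} (hu : u ∈ Subgroup.center C) {e : Set (IrrCharacter C)} (he : IsPBlock M e)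
    (χ ψ : IrrCharacter G) : om (χ : G → ℂ) (zps p u e (ψ : G → ℂ)) =
      (Nat.card G : ℂ) / (charDegree (χ : G → ℂ) : ℂ) * ctr p u e (χ : G → ℂ) (ψ : G → ℂ) := by
  classical
  haveI := IsPModular.isPrime hM
  have h1 : IsClassFunction G (fun g => conj ((χ : G → ℂ) g)) := fun a b => by
    show conj _ = conj _
    rw [IsIrr.isClassFunction χ.2 a b]
  have h2 := frobenius C (phi p u e (ψ : G → ℂ)) h1
  rw [classInner_def, classInner_def] at h2
  simp only [Complex.conj_conj] at h2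
  have h3 : ∑ y : C, phi p u e (ψ : G → ℂ) y * (χ : G → ℂ) y = (Nat.card C : ℂ) * ctr p u e (χ : G → ℂ) (ψ : G → ℂ) := by
    rw [ctr, ← mul_assoc, mul_inv_cancel₀ (card_ne_zero C), one_mul, ← Equiv.sum_comp (Equiv.mulLeft u)]
    have e1 : ∀ x : C, phi p u e (ψ : G → ℂ) (Equiv.mulLeft u x) * (χ : G → ℂ) (Equiv.mulLeft u x : C) =
        if p ∣ orderOf x then 0 else Xf u Set.univ (χ : G → ℂ) x * conj (Xf u e (ψ : G → ℂ) x) := by
      intro x
      unfold phi
      have e2 : u⁻¹ * (Equiv.mulLeft u x) = x := by show u⁻¹ * (u * x) = x; group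
      rw [e2]
      split_ifs
      · rw [zero_mul]
      · rw [Xf_univ, mul_comm]; rfl
    rw [Finset.sum_congr rfl fun x _ => e1 x, cross_expand hu, cross_expand hu]
    refine Finset.sum_congr rfl fun ζ _ => Finset.sum_congr rfl fun ξ _ => ?_
    by_cases hξ : ξ ∈ e
    · by_cases hζ : ζ ∈ e
      · simp [hξ, hζ]
      · rw [if_pos ⟨Set.mem_univ _, hξ⟩, if_neg (fun h => hζ h.1), (regInner_zero hM he hξ hζ).2, mul_zero]
    · rw [if_neg (fun h => hξ h.2), if_neg (fun h => hξ h.2)]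
  rw [h3, ← mul_assoc, inv_mul_cancel₀ (card_ne_zero C), one_mul, inv_mul_eq_iff_eq_mul₀ (card_ne_zero G)] at h2
  rw [om, ev_eq_sum]
  show (∑ g : G, indFun C (phi p u e (ψ : G → ℂ)) g * (χ : G → ℂ) g) / _ = _
  rw [h2, (IsIrr.one_eq χ.2).1]
  ring

end Loc

end CfsgH5
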