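import Cfsg.Agent.H5.Hgt3

/-!
# Heights and inertial indices: the arithmetic lower bound
-/

set_option autoImplicit false
open Cfsg MonoidAlgebra
open CfsgH4 hiding centralChar sum_conj regInner_symm

namespace CfsgH5

open scoped ComplexConjugate

variable {G : Type*} [Group G] [Fintype G] {p : ℕ} [hp : Fact p.Prime] {M : Ideal AlgInt}

theorem dvd_of_local_div (hM : IsPModular p M) (j : ℕ) : ∀ n : ℤ, MemLocalRing M ((n : ℂ) / (p : ℂ) ^ j) → ((p : ℤ) ^ j) ∣ n := by
  haveI := IsPModular.isPrime hM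
  have hp0 : (p : ℂ) ≠ 0 := by exact_mod_cast hp.out.ne_zero
  induction j with
  | zero => intro n _; simp
  | succ j ih =>
    intro n h
    have h1 : MemLocalRing M ((n : ℂ) / (p : ℂ) ^ j) := by
      have h2 : (n : ℂ) / (p : ℂ) ^ j = p * ((n : ℂ) / (p : ℂ) ^ (j + 1)) := by
        rw [pow_succ]; field_simp
      rw [h2]
      exact MemLocalRing.mul (memLocalRing_natCast p) h
    obtain ⟨m, rfl⟩ := ih n h1
    have h3 : MemLocalIdeal M (m : ℂ) := by
      have h4 : (m : ℂ) = p * ((((p : ℤ) ^ j * m : ℤ) : ℂ) / (p : ℂ) ^ (j + 1)) := by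
        push_cast
        rw [pow_succ]; field_simp
      rw [h4]
      exact MemLocalIdeal.mul_right (memLocalIdeal_p hM) h
    rw [memLocalIdeal_intCast_iff hM] at h3
    obtain ⟨q, rfl⟩ := h3
    exact ⟨q, by rw [pow_succ]; ring⟩

section Loc

variable {C : Subgroup G} [Fintype C]

/-- local integrality -/
theorem ctr_local (hM : IsPModular p M) {u : C} (hC : C = Subgroup.centralizer ({(u : G)} : Set G))
    (hup : ∃ k, orderOf (u : G) = p ^ k) {e : Set (IrrCharacter C)} (he : IsPBlock M e) (χ ψ : IrrCharacter G) {m : ℕ}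
    (hm : (Nat.card G).factorization p ≤ m + (charDegree (χ : G → ℂ)).factorization p) :
    MemLocalRing M ((p : ℂ) ^ m * ctr p u e (χ : G → ℂ) (ψ : G → ℂ)) := by
  haveI := IsPModular.isPrime hM
  have hu := mem_center_of_eq hC
  have h1 := om_zps hM hu he χ ψ
  have h2 : MemLocalRing M (om (χ : G → ℂ) (zps p u e (ψ : G → ℂ))) :=
    memLocalRing_om χ.2 (isCen_zps u e _) (inS_zps hC hup e (IsIrr.isCharacter ψ.2))
  have hχ0 : charDegree (χ : G → ℂ) ≠ 0 := (IsIrr.one_eq χ.2).2.ne'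
  have hG0 : Nat.card G ≠ 0 := Nat.card_pos.ne'
  have h3 : MemLocalRing M (((p ^ m * charDegree (χ : G → ℂ) : ℕ) : ℂ) / (Nat.card G : ℕ)) := by
    apply memLocalRing_div hM (mul_ne_zero (pow_ne_zero _ hp.out.ne_zero) hχ0) hG0
    rw [Nat.factorization_mul (pow_ne_zero _ hp.out.ne_zero) hχ0, Finsupp.add_apply, Nat.Prime.factorization_pow hp.out,
      Finsupp.single_eq_same]
    exact hm
  have h4 : (p : ℂ) ^ m * ctr p u e (χ : G → ℂ) (ψ : G → ℂ) =
      (((p ^ m * charDegree (χ : G → ℂ) : ℕ) : ℂ) / (Nat.card G : ℕ)) * om (χ : G → ℂ) (zps p u e (ψ : G → ℂ)) := by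
    rw [h1]
    have e1 : (charDegree (χ : G → ℂ) : ℂ) ≠ 0 := by exact_mod_cast hχ0
    have e2 : (Nat.card G : ℂ) ≠ 0 := by exact_mod_cast hG0
    push_cast
    field_simp
  rw [h4]
  exact MemLocalRing.mul h3 h2

/-- the diagonal contributions of a major subsection do not vanish -/
theorem nR_pos (hM : IsPModular p M) {u : C} (hC : C = Subgroup.centralizer ({(u : G)} : Set G))
    (hup : ∃ k, orderOf (u : G) = p ^ k) {e : Set (IrrCharacter C)} {B : Set (IrrCharacter G)} (hind : IsInducedBlock M C e B)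
    (hd : blockDefect p e = blockDefect p B) {χ : IrrCharacter G} (hχ : χ ∈ B) : 0 < nR p u e (χ : G → ℂ) := by
  classical
  haveI := IsPModular.isPrime hM
  have hu := mem_center_of_eq hC
  have hB := hind.2.1
  obtain ⟨χ0, hχ0B, h0⟩ := exists_height_zero p (IsPBlock.nonempty hB)
  have hd0 : charDegree (χ0 : G → ℂ) ≠ 0 := (IsIrr.one_eq χ0.2).2.ne'
  have hG0 : Nat.card G ≠ 0 := Nat.card_pos.ne'
  have hdv : (charDegree (χ0 : G → ℂ)).factorization p ≤ (Nat.card G).factorization p := by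
    have := (Nat.factorization_le_iff_dvd hd0 hG0).2 (charDegree_dvd χ0)
    exact this p
  have hdef : (Nat.card G).factorization p = blockDefect p e + (charDegree (χ0 : G → ℂ)).factorization p := by
    have h1 := (height_zero_iff hχ0B).1 h0
    rw [hd]
    unfold blockDefect
    omega
  have h1 := om_zps hM hu hind.1 χ0 χ0
  have h2 : ¬ MemLocalIdeal M (om (χ0 : G → ℂ) (zps p u e (χ0 : G → ℂ))) := by
    have e1 : om (χ0 : G → ℂ) (zps p u e (χ0 : G → ℂ)) =
        ((Nat.card G : ℕ) : ℂ) / ((p ^ blockDefect p e * charDegree (χ0 : G → ℂ) : ℕ) : ℂ) *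
          ((p : ℂ) ^ blockDefect p e * ctr p u e (χ0 : G → ℂ) (χ0 : G → ℂ)) := by
      rw [h1]
      have e1 : (charDegree (χ0 : G → ℂ) : ℂ) ≠ 0 := by exact_mod_cast hd0
      have e2 : (p : ℂ) ≠ 0 := by exact_mod_cast hp.out.ne_zero
      push_cast
      field_simp
    have hfac : (p ^ blockDefect p e * charDegree (χ0 : G → ℂ)).factorization p = (Nat.card G).factorization p := by
      rw [Nat.factorization_mul (pow_ne_zero _ hp.out.ne_zero) hd0, Finsupp.add_apply, Nat.Prime.factorization_pow hp.out,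
        Finsupp.single_eq_same, hdef]
    have hne : p ^ blockDefect p e * charDegree (χ0 : G → ℂ) ≠ 0 := mul_ne_zero (pow_ne_zero _ hp.out.ne_zero) hd0
    rw [e1, memLocalIdeal_mul_iff (memLocalRing_div hM hG0 hne hfac.le) (ctr_local hM hC hup hind.1 χ0 χ0 hdef.le)]
    rintro (h | h)
    · exact not_memLocalIdeal_div hM hG0 hne hfac.ge h
    · exact ctr_not_mem hM hu hup hind hχ0B h0 hχ0B h0 h
  have h3 : MemLocalIdeal M (om (χ : G → ℂ) (zps p u e (χ0 : G → ℂ)) - om (χ0 : G → ℂ) (zps p u e (χ0 : G → ℂ))) :=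
    sameBlock_om χ.2 χ0.2 ((IsPBlock.mem_iff hB hχ).1 hχ0B) (isCen_zps u e _) (inS_zps hC hup e (IsIrr.isCharacter χ0.2))
  have h4 : om (χ : G → ℂ) (zps p u e (χ0 : G → ℂ)) ≠ 0 := by
    intro h
    exact not_memLocalIdeal_of_sub h3 h2 (h ▸ memLocalIdeal_zero)
  rw [om_zps hM hu hind.1 χ χ0] at h4
  have h5 : ctr p u e (χ : G → ℂ) (χ0 : G → ℂ) ≠ 0 := fun h => h4 (by rw [h, mul_zero])
  refine lt_of_le_of_ne (nR_nonneg _ _ _) fun h => h5 ?_
  unfold nR at h
  have h6 : ∑ x : C, (if p ∣ orderOf x then (0 : ℝ) else ‖Xf u e (χ : G → ℂ) x‖ ^ 2) = 0 := by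
    rcases mul_eq_zero.1 h.symm with h | h
    · exfalso
      have : (Nat.card C : ℝ) ≠ 0 := by exact_mod_cast Nat.card_pos.ne'
      exact inv_ne_zero this h
    · exact h
  have h7 := (Finset.sum_eq_zero_iff_of_nonneg (fun x _ => by split_ifs <;> positivity)).1 h6
  unfold ctr
  rw [Finset.sum_eq_zero, mul_zero]
  intro x hx
  have h8 := h7 x hx
  split_ifs with hx2
  · rfl
  · rw [if_neg hx2] at h8
    have h9 : Xf u e (χ : G → ℂ) x = 0 := by
      have := pow_eq_zero_iff (two_ne_zero) |>.1 h8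
      exact norm_eq_zero.1 this
    rw [h9, zero_mul]

/-- AM-GM over the Galois conjugates -/
theorem nR_units (hM : IsPModular p M) [NeZero (Nat.card G)] {u : C} (hC : C = Subgroup.centralizer ({(u : G)} : Set G))
    (hup : ∃ k, orderOf (u : G) = p ^ k) {e : Set (IrrCharacter C)} {B : Set (IrrCharacter G)} (hind : IsInducedBlock M C e B)
    (hd : blockDefect p e = blockDefect p B) {χ : IrrCharacter G} (hχ : χ ∈ B) {m h : ℕ}
    (hm : (Nat.card G).factorization p ≤ m + (charDegree (χ : G → ℂ)).factorization p) (hmh : blockDefect p B = m + h) :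
    (Fintype.card (ZMod (Nat.card G))ˣ : ℝ) ≤ ∑ k : (ZMod (Nat.card G))ˣ, (p : ℝ) ^ m * nR p (u ^ (k : ZMod (Nat.card G)).val) e (χ : G → ℂ) := by
  classical
  haveI := IsPModular.isPrime hM
  have hu := mem_center_of_eq hC
  have hp0 : (p : ℂ) ≠ 0 := by exact_mod_cast hp.out.ne_zero
  have hpR : (0 : ℝ) < p := by exact_mod_cast hp.out.pos
  have hCk : ∀ k : (ZMod (Nat.card G))ˣ, C = Subgroup.centralizer ({((u ^ (k : ZMod (Nat.card G)).val : C) : G)} : Set G) := by
    intro k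
    push_cast
    rw [centralizer_pow_unit (unit_val_coprime k)]
    exact hC
  have hupk : ∀ k : (ZMod (Nat.card G))ˣ, ∃ j, orderOf ((u ^ (k : ZMod (Nat.card G)).val : C) : G) = p ^ j := by
    intro k
    obtain ⟨j, hj⟩ := hup
    have h1 : orderOf ((u : G) ^ (k : ZMod (Nat.card G)).val) ∣ p ^ j := by
      rw [← hj]; exact orderOf_pow_dvd _
    obtain ⟨i, -, hi⟩ := (Nat.dvd_prime_pow hp.out).1 h1
    exact ⟨i, by push_cast; exact hi⟩
  have hpos : ∀ k : (ZMod (Nat.card G))ˣ, 0 < (p : ℝ) ^ m * nR p (u ^ (k : ZMod (Nat.card G)).val) e (χ : G → ℂ) := fun k =>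
    mul_pos (pow_pos hpR _) (nR_pos hM (hCk k) (hupk k) hind hd hχ)
  have key := card_le_sum_of_prod Finset.univ (fun k : (ZMod (Nat.card G))ˣ => (p : ℝ) ^ m * nR p (u ^ (k : ZMod (Nat.card G)).val) e (χ : G → ℂ))
    (fun k _ => hpos k) ?_
  · rw [Finset.card_univ] at key
    exact key
  obtain ⟨A, hA⟩ := ctr_int hM hind.1 χ χ
  have hwN : ∀ ζ : IrrCharacter C, wt u ζ ^ Nat.card G = 1 := by
    intro ζ
    rw [← wt_pow hu]
    have h1 : u ^ Nat.card G = 1 := by
      apply Subtype.ext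
      push_cast
      exact pow_card_eq_one'
    rw [h1, wt, div_self (IsIrr.one_ne_zero ζ.2)]
  have hform : ∀ k : (ZMod (Nat.card G))ˣ, (p : ℂ) ^ blockDefect p e * (nR p (u ^ (k : ZMod (Nat.card G)).val) e (χ : G → ℂ) : ℂ) =
      (∑ a : IrrCharacter C × IrrCharacter C, (A a : ℂ) * (wt u a.1 * conj (wt u a.2)) ^ (k : ZMod (Nat.card G)).val) / ((1 : ℕ) : ℂ) := by
    intro k
    rw [← ctr_eq_nR, hA _ (Subgroup.pow_mem _ hu _), Nat.cast_one, div_one]
    refine Finset.sum_congr rfl fun a _ => ?_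
    rw [wt_pow hu, wt_pow hu, map_pow, mul_pow]
  have hwi : ∀ a : IrrCharacter C × IrrCharacter C, (wt u a.1 * conj (wt u a.2)) ^ Nat.card G = 1 := by
    intro a
    rw [mul_pow, ← map_pow, hwN, hwN, map_one, mul_one]
  obtain ⟨n, hn⟩ := prod_units_int (N := Nat.card G) Finset.univ A (fun a : IrrCharacter C × IrrCharacter C => wt u a.1 * conj (wt u a.2))
    (fun a _ => hwi a) 1 (fun k => by
      rw [Nat.cast_one, div_one]
      refine IsIntegral.sum _ fun a _ => (isIntegral_algebraMap (R := ℤ) (x := A a)).mul ?_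
      refine IsIntegral.pow ?_ _
      exact ⟨Polynomial.X ^ Nat.card G - 1, Polynomial.monic_X_pow_sub_C 1 Nat.card_pos.ne', by
        rw [Polynomial.eval₂_sub, Polynomial.eval₂_X_pow, Polynomial.eval₂_one, hwi a, sub_self]⟩)
  obtain ⟨φ, hφ⟩ : ∃ φ, φ = Fintype.card (ZMod (Nat.card G))ˣ := ⟨_, rfl⟩
  have hprod : (∏ k : (ZMod (Nat.card G))ˣ, ((p : ℂ) ^ m * (nR p (u ^ (k : ZMod (Nat.card G)).val) e (χ : G → ℂ) : ℂ))) = (n : ℂ) / (p : ℂ) ^ (h * φ) := by
    rw [← hn, eq_div_iff (pow_ne_zero _ hp0)]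
    rw [Finset.prod_congr rfl fun k _ => (hform k).symm]
    have e1 : (p : ℂ) ^ (h * φ) = ∏ _k : (ZMod (Nat.card G))ˣ, (p : ℂ) ^ h := by
      rw [Finset.prod_const, Finset.card_univ, ← hφ, pow_mul]
    rw [e1, ← Finset.prod_mul_distrib]
    refine Finset.prod_congr rfl fun k _ => ?_
    rw [hd, hmh, pow_add]; ring
  have hloc : MemLocalRing M ((n : ℂ) / (p : ℂ) ^ (h * φ)) := by
    rw [← hprod]
    refine memLocalRing_prod _ _ fun k _ => ?_
    rw [← ctr_eq_nR]
    exact ctr_local hM (hCk k) (hupk k) hind.1 χ χ hm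
  obtain ⟨q, hq⟩ := dvd_of_local_div hM _ n hloc
  have hqv : (∏ k : (ZMod (Nat.card G))ˣ, ((p : ℝ) ^ m * nR p (u ^ (k : ZMod (Nat.card G)).val) e (χ : G → ℂ))) = (q : ℝ) := by
    have h1 : (((∏ k : (ZMod (Nat.card G))ˣ, ((p : ℝ) ^ m * nR p (u ^ (k : ZMod (Nat.card G)).val) e (χ : G → ℂ)) : ℝ)) : ℂ) = ((q : ℝ) : ℂ) := by
      push_cast
      rw [hprod, hq]
      push_cast
      field_simp
    exact_mod_cast h1
  rw [hqv]
  have h2 : (0 : ℝ) < q := by rw [← hqv]; exact Finset.prod_pos fun k _ => hpos k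
  have h3 : (0 : ℤ) < q := by exact_mod_cast h2
  exact_mod_cast h3

end Loc

end CfsgH5
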