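import Cfsg.Agent.H5.Hgt4

/-!
# Heights and inertial indices
-/

set_option autoImplicit false
open Cfsg MonoidAlgebra
open CfsgH4 hiding centralChar sum_conj regInner_symm

namespace CfsgH5

open scoped ComplexConjugate

variable {G : Type*} [Group G] [Fintype G] {p : ℕ} [hp : Fact p.Prime] {M : Ideal AlgInt}

theorem nR_congr [hMp : M.IsPrime] {K K' : Subgroup G} (h : K' = K) [i : Fintype K] [i' : Fintype K'] {u : K} {u' : K'} (hu : (u' : G) = u)
    (f : MonoidAlgebra (kk M) G) (χ : G → ℂ) : nR p u' (bst M K' f) χ = nR p u (bst M K f) χ := by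
  subst h
  have h1 : u' = u := Subtype.ext hu
  subst h1
  have h2 : i = i' := Subsingleton.elim _ _
  subst h2
  rfl

omit hp in
theorem zpowers_pow_coprime {z : G} {k : ℕ} (hk : k.Coprime (Nat.card G)) : Subgroup.zpowers (z ^ k) = Subgroup.zpowers z := by
  apply le_antisymm
  · rw [Subgroup.zpowers_le]
    exact Subgroup.pow_mem _ (Subgroup.mem_zpowers z) k
  · rw [Subgroup.zpowers_le]
    obtain ⟨m, hm⟩ := exists_pow_eq_self_of_coprime (x := z) (Nat.Coprime.coprime_dvd_right (orderOf_dvd_natCard z) hk)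
    have := Subgroup.pow_mem _ (Subgroup.mem_zpowers (z ^ k)) m
    rw [hm] at this
    exact this

theorem s4715 (hM : IsPModular p M) {B : Set (IrrCharacter G)} (hB : IsPBlock M B) {D : Subgroup G}
    (hBD : IsDefectGroup p M B D) {d : ℕ} (hDd : Nat.card D = p ^ d) {H : Subgroup G} (hH : H = D ⊔ Subgroup.centralizer (D : Set G))
    {b : Set (IrrCharacter H)} (hind : IsInducedBlock M H b B) {T : Subgroup G}
    (hT : ∀ g : G, g ∈ T ↔ (g ∈ Subgroup.normalizer (D : Set G) ∧ ∀ θ ∈ b, ∀ θ' : IrrCharacter H,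
      (∀ h h' : H, (h' : G) = g * h * g⁻¹ → (θ' : H → ℂ) h' = (θ : H → ℂ) h) → θ' ∈ b)) {e : ℕ} (he : H.relIndex T = e)
    {n : ℕ} (hn : p ^ n ≤ e ∧ e < p ^ (n + 1)) {c : ℕ} (hc : Nat.card (Subgroup.center D) = p ^ c) :
    ∀ χ ∈ B, blockHeight p B (χ : G → ℂ) + c ≤ n + d := by
  classical
  haveI := IsPModular.isPrime hM
  haveI : NeZero (Nat.card G) := ⟨Nat.card_pos.ne'⟩
  intro χ hχ
  have hH' : H = D ⊔ cz D := hH
  have hdB : blockDefect p B = d := by
    have h1 := defectGroup_card hM hB hBD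
    rw [hDd] at h1
    exact (Nat.pow_right_injective hp.out.two_le h1).symm
  have hdeg := degree_eq (p := p) hχ
  have hav : (charDegree (χ : G → ℂ)).factorization p ≤ (Nat.card G).factorization p :=
    (Nat.factorization_le_iff_dvd (charDegree_ne_zero χ) Nat.card_pos.ne').2 (charDegree_dvd χ) p
  obtain ⟨h, hh⟩ : ∃ h, h = blockHeight p B (χ : G → ℂ) := ⟨_, rfl⟩
  rw [hdB, ← hh] at hdeg
  rw [← hh]
  obtain ⟨m, hm⟩ : ∃ m, d = m + h := ⟨d - h, by omega⟩
  have hm2 : (Nat.card G).factorization p ≤ m + (charDegree (χ : G → ℂ)).factorization p := by omega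
  -- the maximal pair
  have hDG : DG p ⊤ (idB M B) D := (isDefectGroup_iff_DG hM hB).1 hBD
  have hDp : IsPGroup p D := hDG.pg
  have hBl := isBl_top (M := M) hB
  obtain ⟨β, hβ⟩ : ∃ β, β = idH M H b := ⟨_, rfl⟩
  have hβH : IsBl H β := by rw [hβ]; exact isBl_idH hind.1
  have hβc : IsBl (cz D) β := isBl_cz_of_PC hM hDp hH' hβH
  have hDH : D ≤ H := by rw [hH']; exact le_sup_left
  have hCH : cz D ≤ H := by rw [hH']; exact le_sup_right
  have hHN : H ≤ nz D := by rw [hH']; exact sup_cz_le_nz D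
  have hbr : br D (idB M B) * β = β := by
    rw [hβ]
    exact (ind_iff hM hDp hDH hCH hHN hind.1 hB).1 hind
  have hmax : MP p ⊤ (idB M B) (D, β) := (mp_iff_dg hM hBl ⟨hDp, le_top, le_top, hβc, hbr⟩).2 hDG
  -- central elements
  obtain ⟨ZD, hZD⟩ : ∃ ZD : Finset G, ZD = Finset.univ.filter (fun z : G => z ∈ D ∧ z ∈ cz D) := ⟨_, rfl⟩
  have hmem : ∀ z, z ∈ ZD ↔ z ∈ D ∧ z ∈ cz D := by intro z; rw [hZD]; simp
  have hcard : ZD.card = p ^ c := by
    rw [← hc, Nat.card_eq_fintype_card, ← Finset.card_univ]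
    symm
    refine Finset.card_bij (fun (z : Subgroup.center D) _ => ((z : D) : G)) ?_ ?_ ?_
    · intro z _
      rw [hmem]
      refine ⟨(z : D).2, ?_⟩
      rw [Subgroup.mem_centralizer_iff]
      intro y hy
      exact congrArg Subtype.val (Subgroup.mem_center_iff.1 z.2 ⟨y, hy⟩)
    · intro a _ b _ hab
      exact Subtype.ext (Subtype.ext hab)
    · intro z hz
      rw [hmem] at hz
      refine ⟨⟨⟨z, hz.1⟩, ?_⟩, Finset.mem_univ _, rfl⟩
      rw [Subgroup.mem_center_iff]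
      intro y
      exact Subtype.ext (Subgroup.mem_centralizer_iff.1 hz.2 y y.2)
  have hZp : ∀ z ∈ ZD, ∃ k, orderOf z = p ^ k := by
    intro z hz
    obtain ⟨k, hk⟩ := IsPGroup.iff_orderOf.1 hDp ⟨z, ((hmem z).1 hz).1⟩
    rw [Subgroup.orderOf_mk] at hk
    exact ⟨k, hk⟩
  have hZ : ∀ z ∈ ZD, D ≤ Kz z := by
    intro z hz x hx
    rw [mem_Kz]
    exact Subgroup.mem_centralizer_iff.1 ((hmem z).1 hz).2 x hx
  have hHz : ∀ z ∈ ZD, H ≤ Kz z := by
    intro z hz
    rw [hH']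
    refine sup_le (hZ z hz) fun x hx => ?_
    rw [mem_Kz]
    exact (Subgroup.mem_centralizer_iff.1 hx z ((hmem z).1 hz).1).symm
  have hex : ∀ z, ∃ f : MonoidAlgebra (kk M) G, z ∈ ZD → (IsBl (Kz z) f ∧ LE p (Subgroup.zpowers z, f) (D, β)) := by
    intro z
    by_cases hz : z ∈ ZD
    · obtain ⟨f, hf1, hf2⟩ := exists_below hM _ hDp hβc (Q := Subgroup.zpowers z) (by
        rw [Subgroup.zpowers_le]; exact ((hmem z).1 hz).1) rfl
      exact ⟨f, fun _ => ⟨hf1, hf2⟩⟩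
    · exact ⟨0, fun h => absurd h hz⟩
  choose f hf using hex
  have hTst : ∀ t : G, cp t (D, β) = (D, β) → t ∈ T := by
    intro t ht
    have h1 : cj t D = D := congrArg Prod.fst ht
    have h2 : ca t β = β := congrArg Prod.snd ht
    rw [hT]
    have htn : t ∈ nz D := mem_nz_of_cj h1
    refine ⟨htn, fun θ hθ θ' hθ' => ?_⟩
    have hHt : H = cj t H := by
      have h3 : nz D ≤ nz H := by rw [hH']; exact nz_le_nz_sup D
      exact (cj_eq_of_mem_normalizer (h3 htn)).symm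
    have h4 : (cjSet t b : Set (IrrCharacter H)) = b := by
      apply idH_injective ((isPBlock_cjSet t hHt).2 hind.1) hind.1
      rw [idH_cjSet t hHt, ← hβ, h2]
    rw [← h4]
    exact ⟨θ, hθ, fun h k hk => hθ' h k hk⟩
  have hub := cv_sum_le hM hBl hmax ZD hZp hZ f (fun z hz => (hf z hz).1) (fun z hz => (hf z hz).2) H T hHz hTst χ
  rw [he] at hub
  -- lower bound
  have hlb : ∀ z ∈ ZD, (Fintype.card (ZMod (Nat.card G))ˣ : ℝ) ≤
      ∑ k : (ZMod (Nat.card G))ˣ, (p : ℝ) ^ m * cv p M (χ : G → ℂ) (z ^ (k : ZMod (Nat.card G)).val) (f (z ^ (k : ZMod (Nat.card G)).val)) := by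
    intro z hz
    obtain ⟨ez, hez, hfe⟩ := exists_block_of_isBl (hf z hz).1
    have hbst : bst M (Kz z) (f z) = ez := by rw [hfe, bst_idH hez]
    have hOfz : Of p ⊤ (idB M B) (Subgroup.zpowers z, f z) := (LE.of_iff hM hBl (hf z hz).2 le_top le_top).2 hmax.1
    have hindz : IsInducedBlock M (Kz z) ez B := by
      refine (ind_iff (H := Kz z) hM hOfz.1 (P := Subgroup.zpowers z) (by rw [Subgroup.zpowers_le]; exact self_mem_Kz z) (le_refl _) (cz_le_nz _) hez hB).2 ?_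
      have h7 : br (Subgroup.zpowers z) (idB M B) * f z = f z := hOfz.2.2.2.2
      rw [hfe] at h7
      exact h7
    have hDGz : DG p (Kz z) (f z) D := (mp_loc hM hBl hmax (hf z hz).2 (hf z hz).1 (hZ z hz)).dg hM (hf z hz).1
    have hdz : blockDefect p ez = blockDefect p B := by
      rw [hfe, ← isDefectGroup_iff_DG' hM hez (hZ z hz)] at hDGz
      have h1 := defectGroup_card hM hez hDGz
      have h2 : Nat.card (D.subgroupOf (Kz z)) = Nat.card D := Nat.card_congr (Subgroup.subgroupOfEquivOfLe (hZ z hz)).toEquiv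
      rw [h2, hDd] at h1
      rw [hdB]
      exact (Nat.pow_right_injective hp.out.two_le h1).symm
    have key := nR_units hM (u := (⟨z, self_mem_Kz z⟩ : Kz z)) (Kz_eq z) (hZp z hz) hindz hdz hχ hm2 (by rw [hdB]; exact hm)
    refine key.trans (le_of_eq (Finset.sum_congr rfl fun k _ => ?_))
    have hk := unit_val_coprime k
    have hzk : z ^ (k : ZMod (Nat.card G)).val ∈ ZD := by
      rw [hmem] at hz ⊢
      exact ⟨Subgroup.pow_mem _ hz.1 _, Subgroup.pow_mem _ hz.2 _⟩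
    have hzp : Subgroup.zpowers (z ^ (k : ZMod (Nat.card G)).val) = Subgroup.zpowers z := zpowers_pow_coprime hk
    have hfk : f (z ^ (k : ZMod (Nat.card G)).val) = f z := by
      have h1 := (hf _ hzk).2
      rw [hzp] at h1
      exact LE.unique hM _ h1 (hf z hz).2 rfl
    have hKk : Kz (z ^ (k : ZMod (Nat.card G)).val) = Kz z := by unfold Kz; rw [hzp]
    rw [hfk, ← hbst]
    congr 1
    unfold cv
    exact (nR_congr hKk (by push_cast; rfl) (f z) (χ : G → ℂ)).symm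
  have hφ : (0 : ℝ) < (Fintype.card (ZMod (Nat.card G))ˣ : ℝ) := by exact_mod_cast Fintype.card_pos
  have hperm : ∀ k : (ZMod (Nat.card G))ˣ, ∑ z ∈ ZD, cv p M (χ : G → ℂ) (z ^ (k : ZMod (Nat.card G)).val) (f (z ^ (k : ZMod (Nat.card G)).val)) =
      ∑ z ∈ ZD, cv p M (χ : G → ℂ) z (f z) := by
    intro k
    have hk := unit_val_coprime k
    refine Finset.sum_equiv (powCoprime (Nat.Coprime.symm hk)) (fun z => ?_) (fun z _ => rfl)
    rw [hmem, hmem]
    show _ ↔ z ^ (k : ZMod (Nat.card G)).val ∈ D ∧ z ^ (k : ZMod (Nat.card G)).val ∈ cz D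
    constructor
    · rintro ⟨h1, h2⟩
      exact ⟨Subgroup.pow_mem _ h1 _, Subgroup.pow_mem _ h2 _⟩
    · rintro ⟨h1, h2⟩
      have h3 : z ∈ Subgroup.zpowers (z ^ (k : ZMod (Nat.card G)).val) := by
        rw [zpowers_pow_coprime hk]; exact Subgroup.mem_zpowers z
      exact ⟨(Subgroup.zpowers_le.2 h1) h3, (Subgroup.zpowers_le.2 h2) h3⟩
  have h1 : (ZD.card : ℝ) * (Fintype.card (ZMod (Nat.card G))ˣ : ℝ) ≤
      (Fintype.card (ZMod (Nat.card G))ˣ : ℝ) * ((p : ℝ) ^ m * ∑ z ∈ ZD, cv p M (χ : G → ℂ) z (f z)) := by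
    have e1 := Finset.sum_le_sum hlb
    rw [Finset.sum_const, nsmul_eq_mul, Finset.sum_comm] at e1
    refine e1.trans (le_of_eq ?_)
    have e2 : ∀ k : (ZMod (Nat.card G))ˣ, ∑ z ∈ ZD, (p : ℝ) ^ m * cv p M (χ : G → ℂ) (z ^ (k : ZMod (Nat.card G)).val) (f (z ^ (k : ZMod (Nat.card G)).val)) =
        (p : ℝ) ^ m * ∑ z ∈ ZD, cv p M (χ : G → ℂ) z (f z) := by
      intro k
      rw [← Finset.mul_sum, hperm k]
    rw [Finset.sum_congr rfl fun k _ => e2 k, Finset.sum_const, Finset.card_univ, nsmul_eq_mul]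
  have h2 : (ZD.card : ℝ) ≤ (p : ℝ) ^ m * e := by
    have e1 : (p : ℝ) ^ m * ∑ z ∈ ZD, cv p M (χ : G → ℂ) z (f z) ≤ (p : ℝ) ^ m * e :=
      mul_le_mul_of_nonneg_left hub (by positivity)
    rw [mul_comm] at h1
    exact (le_of_mul_le_mul_left h1 hφ).trans e1
  rw [hcard] at h2
  have h3 : p ^ c ≤ p ^ m * e := by exact_mod_cast h2
  have h4 : p ^ c < p ^ (m + (n + 1)) := by
    rw [pow_add]
    exact lt_of_le_of_lt h3 (Nat.mul_lt_mul_of_pos_left hn.2 (pow_pos hp.out.pos _))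
  have h5 := (Nat.pow_lt_pow_iff_right hp.out.one_lt).1 h4
  omega

end CfsgH5
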