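import Cfsg.Agent.H5.MaxPair
import Cfsg.Agent.H4.Har
import Cfsg.Agent.H5.Misc4

/-!
# Induced blocks and Brauer pairs
-/

set_option autoImplicit false
open Cfsg MonoidAlgebra
open CfsgH4 hiding centralChar sum_conj

namespace CfsgH5

open scoped ComplexConjugate

variable {G : Type*} [Group G] [Finite G] {p : ℕ} [hp : Fact p.Prime] {M : Ideal AlgInt} [hMp : M.IsPrime]

omit hp in
theorem ind_trans_of {K H : Subgroup G} (hKH : K ≤ H) {e : Set (IrrCharacter K)} {f : Set (IrrCharacter H)} {B : Set (IrrCharacter G)}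
    (h1 : IsInducedBlock M (K.subgroupOf H) (inB hKH e) f) (h2 : IsInducedBlock M K e B) : IsInducedBlock M H f B := by
  classical
  haveI := Fintype.ofFinite H
  haveI := Fintype.ofFinite K
  obtain ⟨η, hη⟩ := IsPBlock.nonempty h2.1
  obtain ⟨ξ, hξ⟩ := IsPBlock.nonempty h1.2.1
  obtain ⟨χ, hχ⟩ := IsPBlock.nonempty h2.2.1
  refine isInducedBlock_of h1.2.1 h2.2.1 hξ hχ fun g => ?_
  have a1 := induced_om h2 hη hχ (isCen_cs g) (inS_cs (M := M) g)
  have hη' : irrE (Subgroup.subgroupOfEquivOfLe hKH).symm η ∈ inB hKH e := ⟨η, hη, rfl⟩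
  have a2 := induced_om h1 hη' hξ (isCen_resA (isCen_cs g)) (inS_resA (inS_cs (M := M) g))
  have a3 : om ((irrE (Subgroup.subgroupOfEquivOfLe hKH).symm η : IrrCharacter (K.subgroupOf H)) : K.subgroupOf H → ℂ)
      (resA (K.subgroupOf H) (resA H (cs ℂ g))) = om (η : K → ℂ) (resA K (cs ℂ g)) := by
    haveI := Fintype.ofFinite (K.subgroupOf H)
    rw [om, om, ev_eq_sum, ev_eq_sum]
    congr 1
    refine Fintype.sum_equiv (Subgroup.subgroupOfEquivOfLe hKH).toEquiv _ _ fun k => ?_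
    rw [coeff_resA, coeff_resA, coeff_resA, irrE_apply]
    rfl
  rw [a3] at a2
  have a4 := MemLocalIdeal.sub a1 a2
  have a5 : om (η : K → ℂ) (resA K (cs ℂ g)) - om (χ : G → ℂ) (cs ℂ g) - (om (η : K → ℂ) (resA K (cs ℂ g)) - om (ξ : H → ℂ) (resA H (cs ℂ g))) =
      om (ξ : H → ℂ) (resA H (cs ℂ g)) - om (χ : G → ℂ) (cs ℂ g) := by ring
  rwa [a5] at a4

theorem isBl_sup (hM : IsPModular p M) {P : Subgroup G} (hP : IsPGroup p P) {f : MonoidAlgebra (kk M) G} (hf : IsBl (cz P) f) :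
    IsBl (P ⊔ cz P) f := by
  refine IsBl.of_stab hM hP le_sup_left le_sup_right (sup_cz_le_nz P) hf ?_
  rw [fx_iff_le]
  exact sup_le (fx_iff_le.1 (fx_of_sup_centralizer hf.sup)) (fx_iff_le.1 hf.fx)

/-- induction through a common Brauer pair -/
theorem ind_of_pair (hM : IsPModular p M) {H P : Subgroup G} (hP : IsPGroup p P) (hPH : P ≤ H) (hCH : cz P ≤ H)
    {f : MonoidAlgebra (kk M) G} (hf : IsBl (cz P) f) {b : Set (IrrCharacter H)} (hb : IsPBlock M b) (hbf : br P (idH M H b) * f = f)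
    {B : Set (IrrCharacter G)} (hB : IsPBlock M B) (hBf : br P (idB M B) * f = f) : IsInducedBlock M H b B := by
  obtain ⟨e, he, hfe⟩ := exists_block_of_isBl (isBl_sup hM hP hf)
  have hKH : P ⊔ cz P ≤ H := sup_le hPH hCH
  have hKN := sup_cz_le_nz P
  apply ind_trans_of hKH (e := e)
  · rw [← isInducedBlockIn_iff hKH, indIn_iff hM hP le_sup_left hKH (inf_le_left.trans le_sup_right) hKN he hb, ← hfe]
    exact hbf
  · rw [ind_iff hM hP le_sup_left le_sup_right hKN he hB, ← hfe]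
    exact hBf

theorem mp_centric' (hM : IsPModular p M) {H : Subgroup G} {B : MonoidAlgebra (kk M) G} (hB : IsBl H B) {Q : Subgroup G}
    {f : MonoidAlgebra (kk M) G} (hmax : MP p H B (Q, f)) : DG p (cz Q) f (Q ⊓ cz Q) := by
  obtain ⟨hof, -⟩ := id hmax
  have hbl : IsBl (cz Q) f := hof.2.2.2.1
  obtain ⟨x, -, h1, h2⟩ := pair_defect hM hB hmax (LE.refl (Q, f)) (le_refl (cz Q)) (cz_le_nz Q) hbl hof.2.2.1
  have h3 : cj x Q ≤ Q := h1.le
  have h4 : cj x Q = Q := by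
    apply Subgroup.eq_of_le_of_card_ge h3
    exact (Subgroup.card_map_of_injective (MulAut.conj x).injective).ge
  have h5 : cp x (Q, f) = (Q, f) := h1.eq h4
  have h6 : ca x f = f := congrArg Prod.snd h5
  have h7 : cj x (cz Q) = cz Q := by rw [← cz_cj, h4]
  rw [h6, h7] at h2
  exact h2

/-- a maximal pair over a defect group -/
theorem exists_MP_of_DG (hM : IsPModular p M) {H P : Subgroup G} {z : MonoidAlgebra (kk M) G} (hz : IsBl H z) (hD : DG p H z P)
    (hCH : cz P ≤ H) : ∃ f, MP p H z (P, f) := by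
  haveI := charP_kk hM
  have hPp := hD.pg
  have h1 : br P z * br P z = br P z := by
    rw [← br_mul hPp (hz.fx.mono hD.le) (hz.fx.mono hD.le), hz.idem]
  obtain ⟨f, hf, hzf⟩ := exists_bl_mul (br_sup P z) (br_fx_cz (hz.fx.mono hCH)) h1 hD.ne
  have hof : Of p H z (P, f) := ⟨hPp, hD.le, hCH, hf, hzf⟩
  refine ⟨f, hof, fun c hc hle => ?_⟩
  apply hD.max c.1 hc.2.1 hc.1 hle.le
  intro h0
  have h2 := hc.2.2.2.2
  rw [h0, zero_mul] at h2
  exact hc.2.2.2.1.ne h2.symm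

theorem s4726_aux (hM : IsPModular p M) {H P : Subgroup G} {b : Set (IrrCharacter H)} (hb : IsPBlock M b)
    (hD : DG p H (idH M H b) P) (hCH : cz P ≤ H) : ∃ B : Set (IrrCharacter G), IsInducedBlock M H b B ∧
      ∃ D : Subgroup G, IsDefectGroup p M B D ∧ D ⊓ cz D ≤ P ∧ P ≤ D := by
  obtain ⟨f, hmax⟩ := exists_MP_of_DG hM (isBl_idH hb) hD hCH
  obtain ⟨hof, -⟩ := id hmax
  have hPp := hD.pg
  have hf : IsBl (cz P) f := hof.2.2.2.1
  obtain ⟨B', ⟨hB', hB'f⟩, -⟩ := exists_unique_above hM hPp (le_top : P ≤ ⊤) le_top hf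
  obtain ⟨B, hB, rfl⟩ := exists_block_of_top hB'
  refine ⟨B, ind_of_pair hM hPp hD.le hCH hf hb hof.2.2.2.2 hB hB'f, ?_⟩
  have hof' : Of p (⊤ : Subgroup G) (idB M B) (P, f) := ⟨hPp, le_top, le_top, hf, hB'f⟩
  obtain ⟨⟨D, g⟩, hDmax, hle⟩ := exists_MP_ge hof'
  have hDG := hDmax.dg hM (isBl_top hB)
  refine ⟨D, (isDefectGroup_iff_DG hM hB).2 hDG, ?_, hle.le⟩
  have hPD : P ≤ D := hle.le
  set R : Subgroup G := P ⊔ (D ⊓ cz D) with hR
  have hRD : R ≤ D := sup_le hPD inf_le_left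
  have hRK : R ≤ P ⊔ cz P := sup_le le_sup_left ((inf_le_right.trans (cz_le_cz hPD)).trans le_sup_right)
  have hDp : IsPGroup p D := hDG.pg
  have h1 : br R f ≠ 0 := by
    have h2 := pair_ge hM (e := g) (hDmax.1.2.2.2.1) hDp hle (hRK.trans (sup_cz_le_nz P))
    rwa [inf_eq_right.2 hRD] at h2
  have h3 := le_of_centric hM hPp hf (mp_centric' hM (isBl_idH hb) hmax) hRK (hDp.to_le hRD) h1
  exact le_sup_right.trans h3

end CfsgH5
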