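import Cfsg.Agent.H5.FrobA
import Cfsg.Agent.H5.UnitsAM
import Cfsg.Agent.H5.KGV1

/-!
# Knörr's theorem: the quadratic forms
-/

set_option autoImplicit false
open Cfsg
open CfsgH4 hiding centralChar sum_conj regInner_symm

namespace CfsgH5

open scoped ComplexConjugate

section SS

variable {N : ℕ} [NeZero N]

/-- families of conjugate cyclotomic integers -/
def SS (N : ℕ) [NeZero N] : AddSubgroup ((ZMod N)ˣ → ℂ) where
  carrier := {f | ∃ P : Polynomial ℤ, ∀ k : (ZMod N)ˣ, f k = Polynomial.aeval (Complex.exp (2 * Real.pi * Complex.I / N) ^ (k : ZMod N).val) P}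
  zero_mem' := ⟨0, fun k => by simp⟩
  add_mem' := by
    rintro f g ⟨P, hP⟩ ⟨Q, hQ⟩
    exact ⟨P + Q, fun k => by rw [map_add, ← hP, ← hQ]; rfl⟩
  neg_mem' := by
    rintro f ⟨P, hP⟩
    exact ⟨-P, fun k => by rw [map_neg, ← hP]; rfl⟩

theorem prim_exp : IsPrimitiveRoot (Complex.exp (2 * Real.pi * Complex.I / N)) N :=
  Complex.isPrimitiveRoot_exp N (NeZero.ne N)

theorem SS_zero {f : (ZMod N)ˣ → ℂ} (hf : f ∈ SS N) {k0 : (ZMod N)ˣ} (h0 : f k0 = 0) : f = 0 := by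
  obtain ⟨P, hP⟩ := hf
  funext k
  rw [hP k]
  have hζ := prim_exp (N := N)
  have h1 : minpoly ℤ (Complex.exp (2 * Real.pi * Complex.I / N)) = minpoly ℤ (Complex.exp (2 * Real.pi * Complex.I / N) ^ (k : ZMod N).val) :=
    hζ.minpoly_eq_pow_coprime (ZMod.val_coe_unit_coprime k)
  have h2 : minpoly ℤ (Complex.exp (2 * Real.pi * Complex.I / N)) = minpoly ℤ (Complex.exp (2 * Real.pi * Complex.I / N) ^ (k0 : ZMod N).val) :=
    hζ.minpoly_eq_pow_coprime (ZMod.val_coe_unit_coprime k0)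
  have hint : IsIntegral ℤ (Complex.exp (2 * Real.pi * Complex.I / N) ^ (k0 : ZMod N).val) :=
    (hζ.isIntegral (Nat.pos_of_ne_zero (NeZero.ne N))).pow _
  have h3 : minpoly ℤ (Complex.exp (2 * Real.pi * Complex.I / N) ^ (k0 : ZMod N).val) ∣ P :=
    minpoly.isIntegrallyClosed_dvd hint (by rw [← hP k0, h0])
  rw [← h2, h1] at h3
  obtain ⟨Q, rfl⟩ := h3
  rw [map_mul, minpoly.aeval, zero_mul]; rfl

theorem SS_norm {f : (ZMod N)ˣ → ℂ} (hf : f ∈ SS N) (hne : f ≠ 0) : (Fintype.card (ZMod N)ˣ : ℝ) ≤ ∑ k : (ZMod N)ˣ, ‖f k‖ ^ 2 := by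
  have h0 : ∀ k, f k ≠ 0 := fun k h => hne (SS_zero hf h)
  obtain ⟨P, hP⟩ := hf
  have hζ := prim_exp (N := N)
  have hform : ∀ k : (ZMod N)ˣ, f k = ∑ i ∈ P.support, (P.coeff i : ℂ) * ((Complex.exp (2 * Real.pi * Complex.I / N)) ^ i) ^ (k : ZMod N).val := by
    intro k
    rw [hP k, Polynomial.aeval_def, Polynomial.eval₂_eq_sum, Polynomial.sum_def]
    refine Finset.sum_congr rfl fun i _ => ?_
    rw [← pow_mul, ← pow_mul, mul_comm i]; rfl
  have := card_units_le_sum_sq (N := N) P.support (fun i => P.coeff i) (fun i => (Complex.exp (2 * Real.pi * Complex.I / N)) ^ i)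
    (fun i _ => by rw [← pow_mul, mul_comm i, pow_mul, hζ.pow_eq_one, one_pow]) (fun k => by rw [← hform k]; exact h0 k)
  refine this.trans (le_of_eq (Finset.sum_congr rfl fun k _ => ?_))
  rw [hform k]

theorem SS_root {w : ℂ} (hw : w ^ N = 1) (n : ℤ) : (fun k : (ZMod N)ˣ => (n : ℂ) * w ^ (k : ZMod N).val) ∈ SS N := by
  obtain ⟨i, -, hi⟩ := (prim_exp (N := N)).eq_pow_of_pow_eq_one hw
  refine ⟨Polynomial.C n * Polynomial.X ^ i, fun k => ?_⟩
  show (n : ℂ) * w ^ (k : ZMod N).val = _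
  rw [map_mul, map_pow, Polynomial.aeval_X, Polynomial.aeval_C, ← hi, ← pow_mul, ← pow_mul, mul_comm i]
  rfl

end SS

section Dual

/-- the dual group -/
def Dl (H : Type*) [Group H] : Type _ := H →* ℂˣ

variable {H : Type*} [Group H]

instance : CommGroup (Dl H) := inferInstanceAs (CommGroup (H →* ℂˣ))

noncomputable instance [Finite H] : Fintype (Dl H) := haveI : Finite (H →* ℂˣ) := inferInstance; Fintype.ofFinite (H →* ℂˣ)

/-- the underlying hom -/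
def Dl.hom (φ : Dl H) : H →* ℂˣ := φ

/-- evaluation of a linear character -/
def ap (φ : Dl H) (h : H) : ℂ := ((Dl.hom φ) h : ℂ)

theorem ap_mul (φ ψ : Dl H) (h : H) : ap (φ * ψ) h = ap φ h * ap ψ h := rfl
theorem ap_one (h : H) : ap (1 : Dl H) h = 1 := rfl
theorem ap_map_mul (φ : Dl H) (g h : H) : ap φ (g * h) = ap φ g * ap φ h := by
  unfold ap; rw [map_mul, Units.val_mul]
theorem lch_ap (φ : Dl H) : lch (Dl.hom φ) = ap φ := rfl

end Dual

section Form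

variable {N : ℕ} [NeZero N] {H : Type*} [Group H] [Fintype H]

/-- evaluation -/
noncomputable def Dv (a : (Dl H) → (ZMod N)ˣ → ℂ) (k : (ZMod N)ˣ) (h : H) : ℂ := ∑ φ : Dl H, a φ k * ap φ h

/-- the weighted form -/
noncomputable def Fw (w : H → ℝ) (a : (Dl H) → (ZMod N)ˣ → ℂ) : ℝ := ∑ k : (ZMod N)ˣ, ∑ h : H, w h * ‖Dv a k h‖ ^ 2

open Classical in
/-- `B · supp a` -/
noncomputable def Tf (B : Subgroup (Dl H)) (a : (Dl H) → (ZMod N)ˣ → ℂ) : Finset (Dl H) :=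
  Finset.univ.filter fun φ => ∃ b ∈ B, ∃ ψ, a ψ ≠ 0 ∧ φ = b * ψ

theorem mem_Tf {B : Subgroup (Dl H)} {a : (Dl H) → (ZMod N)ˣ → ℂ} {φ : Dl H} :
    φ ∈ Tf B a ↔ ∃ b ∈ B, ∃ ψ, a ψ ≠ 0 ∧ φ = b * ψ := by
  unfold Tf; simp

/-- the basic estimate -/
def PP (N : ℕ) [NeZero N] (w : H → ℝ) (B : Subgroup (Dl H)) : Prop :=
  ∀ a : (Dl H) → (ZMod N)ˣ → ℂ, (∀ φ, a φ ∈ SS N) →
    (Nat.card H : ℝ) * (Fintype.card (ZMod N)ˣ : ℝ) * ((Tf B a).card : ℝ) ≤ Fw w a

theorem parseval (c : (Dl H) → ℂ) : ∑ h : H, ‖∑ φ : Dl H, c φ * ap φ h‖ ^ 2 = (Nat.card H : ℝ) * ∑ φ : Dl H, ‖c φ‖ ^ 2 := by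
  classical
  have h1 : ((∑ h : H, ‖∑ φ : Dl H, c φ * ap φ h‖ ^ 2 : ℝ) : ℂ) = (((Nat.card H : ℝ) * ∑ φ : Dl H, ‖c φ‖ ^ 2 : ℝ) : ℂ) := by
    push_cast
    have e1 : ∀ h : H, ((‖∑ φ : Dl H, c φ * ap φ h‖ : ℝ) : ℂ) ^ 2 = ∑ φ : Dl H, ∑ ψ : Dl H, c φ * conj (c ψ) * (ap φ h * conj (ap ψ h)) := by
      intro h
      have := Complex.mul_conj (∑ φ : Dl H, c φ * ap φ h)
      rw [Complex.normSq_eq_norm_sq] at this
      push_cast at this
      rw [← this, map_sum, Finset.sum_mul]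
      refine Finset.sum_congr rfl fun φ _ => ?_
      rw [Finset.mul_sum]
      refine Finset.sum_congr rfl fun ψ _ => ?_
      rw [map_mul]; ring
    rw [Finset.sum_congr rfl fun h _ => e1 h, Finset.sum_comm, Finset.mul_sum]
    refine Finset.sum_congr rfl fun φ _ => ?_
    rw [Finset.sum_comm]
    have e2 : ∀ ψ : Dl H, ∑ h : H, c φ * conj (c ψ) * (ap φ h * conj (ap ψ h)) = if ψ = φ then (Nat.card H : ℂ) * (c φ * conj (c φ)) else 0 := by
      intro ψ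
      rw [← Finset.mul_sum]
      have h2 : classInner (ap φ) (ap ψ) = if φ = ψ then 1 else 0 := (lch_inner (Dl.hom φ) (Dl.hom ψ)).trans (if_congr Iff.rfl rfl rfl)
      rw [classInner_def, inv_mul_eq_iff_eq_mul₀ (card_ne_zero H)] at h2
      rw [h2]
      by_cases hψ : φ = ψ
      · subst hψ; simp; ring
      · rw [if_neg hψ, if_neg (fun h => hψ h.symm)]; simp
    rw [Finset.sum_congr rfl fun ψ _ => e2 ψ, Finset.sum_ite_eq' Finset.univ φ, if_pos (Finset.mem_univ _), Complex.mul_conj,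
      Complex.normSq_eq_norm_sq]
    push_cast; rfl
  exact_mod_cast h1

theorem PP_base : PP N (fun _ : H => (1 : ℝ)) ⊥ := by
  classical
  intro a ha
  unfold Fw Dv
  have e1 : ∀ k : (ZMod N)ˣ, ∑ h : H, (1 : ℝ) * ‖∑ φ : Dl H, a φ k * ap φ h‖ ^ 2 = (Nat.card H : ℝ) * ∑ φ : Dl H, ‖a φ k‖ ^ 2 := by
    intro k
    rw [← parseval]
    exact Finset.sum_congr rfl fun h _ => one_mul _
  rw [Finset.sum_congr rfl fun k _ => e1 k, ← Finset.mul_sum, mul_assoc]
  refine mul_le_mul_of_nonneg_left ?_ (by positivity)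
  rw [Finset.sum_comm]
  have e2 : Tf (⊥ : Subgroup (Dl H)) a = Finset.univ.filter (fun φ => a φ ≠ 0) := by
    ext φ
    rw [mem_Tf, Finset.mem_filter]
    constructor
    · rintro ⟨b, hb, ψ, hψ, rfl⟩
      rw [Subgroup.mem_bot] at hb
      subst hb
      rw [one_mul]
      exact ⟨Finset.mem_univ _, hψ⟩
    · rintro ⟨-, h⟩
      exact ⟨1, Subgroup.one_mem _, φ, h, (one_mul _).symm⟩
  rw [e2]
  calc (Fintype.card (ZMod N)ˣ : ℝ) * ((Finset.univ.filter (fun φ => a φ ≠ 0)).card : ℝ)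
      = ∑ φ ∈ Finset.univ.filter (fun φ => a φ ≠ 0), (Fintype.card (ZMod N)ˣ : ℝ) := by
        rw [Finset.sum_const, nsmul_eq_mul, mul_comm]
    _ ≤ ∑ φ ∈ Finset.univ.filter (fun φ => a φ ≠ 0), ∑ k : (ZMod N)ˣ, ‖a φ k‖ ^ 2 := by
        refine Finset.sum_le_sum fun φ hφ => ?_
        rw [Finset.mem_filter] at hφ
        exact SS_norm (ha φ) hφ.2
    _ ≤ ∑ φ : Dl H, ∑ k : (ZMod N)ˣ, ‖a φ k‖ ^ 2 :=
        Finset.sum_le_sum_of_subset_of_nonneg (Finset.filter_subset _ _) (fun _ _ _ => Finset.sum_nonneg fun _ _ => by positivity)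

open Classical in
theorem Tf_step (A B : Subgroup (Dl H)) (a : (Dl H) → (ZMod N)ˣ → ℂ) :
    ((Tf (A ⊔ B) a).card : ℝ) ≤ (Tf B a).card + (1 / 2) * ∑ x ∈ Finset.univ.filter (fun x : Dl H => x ∈ A),
      ((Tf B (fun φ => a φ - a (x⁻¹ * φ))).card : ℝ) := by
  obtain ⟨T, hT⟩ : ∃ T, T = Tf B a := ⟨_, rfl⟩
  rw [← hT]
  have hsub : ∀ x : Dl H, (T \ T.image (fun y => x * y)) ∪ (T.image (fun y => x * y) \ T) ⊆ Tf B (fun φ => a φ - a (x⁻¹ * φ)) := by
    intro x y hy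
    rw [Finset.mem_union, Finset.mem_sdiff, Finset.mem_sdiff] at hy
    rcases hy with ⟨h1, h2⟩ | ⟨h1, h2⟩
    · rw [hT, mem_Tf] at h1
      obtain ⟨b, hb, ψ, hψ, rfl⟩ := h1
      rw [mem_Tf]
      refine ⟨b, hb, ψ, ?_, rfl⟩
      have h3 : a (x⁻¹ * ψ) = 0 := by
        by_contra h
        apply h2
        rw [Finset.mem_image]
        refine ⟨b * (x⁻¹ * ψ), ?_, ?_⟩
        · rw [hT, mem_Tf]; exact ⟨b, hb, _, h, rfl⟩
        · rw [mul_left_comm b, mul_inv_cancel_left]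
      rw [h3, sub_zero]; exact hψ
    · rw [Finset.mem_image] at h1
      obtain ⟨z, hz, rfl⟩ := h1
      rw [hT, mem_Tf] at hz
      obtain ⟨b, hb, ψ, hψ, rfl⟩ := hz
      rw [mem_Tf]
      refine ⟨b, hb, x * ψ, ?_, mul_left_comm _ _ _⟩
      have h3 : a (x * ψ) = 0 := by
        by_contra h
        apply h2
        rw [hT, mem_Tf]
        exact ⟨b, hb, _, h, mul_left_comm _ _ _⟩
      rw [h3, zero_sub, inv_mul_cancel_left, neg_ne_zero]; exact hψ
  have hcard : ∀ x : Dl H, 2 * (T.image (fun y => x * y) \ T).card ≤ (Tf B (fun φ => a φ - a (x⁻¹ * φ))).card := by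
    intro x
    have h1 := Finset.card_le_card (hsub x)
    rw [Finset.card_union_of_disjoint] at h1
    · have h2 : (T.image (fun y => x * y)).card = T.card := Finset.card_image_of_injective _ (mul_right_injective x)
      have h3 := Finset.card_sdiff_add_card_inter T (T.image (fun y => x * y))
      have h4 := Finset.card_sdiff_add_card_inter (T.image (fun y => x * y)) T
      rw [Finset.inter_comm] at h4
      omega
    · rw [Finset.disjoint_left]
      intro y hy1 hy2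
      rw [Finset.mem_sdiff] at hy1 hy2
      exact hy2.2 hy1.1
  have hcov : Tf (A ⊔ B) a ⊆ T ∪ (Finset.univ.filter (fun x : Dl H => x ∈ A)).biUnion (fun x => T.image (fun y => x * y) \ T) := by
    intro y hy
    rw [mem_Tf] at hy
    obtain ⟨c, hc, ψ, hψ, rfl⟩ := hy
    obtain ⟨x, hx, b, hb, rfl⟩ := Subgroup.mem_sup.1 hc
    rw [Finset.mem_union]
    by_cases h : x * b * ψ ∈ T
    · exact Or.inl h
    · refine Or.inr ?_
      rw [Finset.mem_biUnion]
      refine ⟨x, by simp [hx], ?_⟩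
      rw [Finset.mem_sdiff]
      refine ⟨?_, h⟩
      rw [Finset.mem_image]
      refine ⟨b * ψ, ?_, (mul_assoc _ _ _).symm⟩
      rw [hT, mem_Tf]; exact ⟨b, hb, ψ, hψ, rfl⟩
  have h5 := (Finset.card_le_card hcov).trans ((Finset.card_union_le _ _).trans (Nat.add_le_add_left Finset.card_biUnion_le _))
  have h6 : (∑ x ∈ Finset.univ.filter (fun x : Dl H => x ∈ A), ((T.image (fun y => x * y) \ T).card : ℝ)) ≤
      (1 / 2) * ∑ x ∈ Finset.univ.filter (fun x : Dl H => x ∈ A), ((Tf B (fun φ => a φ - a (x⁻¹ * φ))).card : ℝ) := by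
    rw [Finset.mul_sum]
    refine Finset.sum_le_sum fun x _ => ?_
    have := hcard x
    have h7 : (2 : ℝ) * ((T.image (fun y => x * y) \ T).card : ℝ) ≤ ((Tf B (fun φ => a φ - a (x⁻¹ * φ))).card : ℝ) := by exact_mod_cast this
    linarith
  have h8 : ((Tf (A ⊔ B) a).card : ℝ) ≤ (T.card : ℝ) + ∑ x ∈ Finset.univ.filter (fun x : Dl H => x ∈ A), ((T.image (fun y => x * y) \ T).card : ℝ) := by
    exact_mod_cast h5
  linarith

open Classical in
theorem PP_step {w w' : H → ℝ} {A B : Subgroup (Dl H)} (h : PP N w B)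
    (hw' : ∀ y : H, w y * (1 + (1 / 2) * ∑ x ∈ Finset.univ.filter (fun x : Dl H => x ∈ A), ‖1 - ap x y‖ ^ 2) ≤ w' y) : PP N w' (A ⊔ B) := by
  intro a ha
  have hDx : ∀ (x : Dl H) (k : (ZMod N)ˣ) (y : H), Dv (fun φ => a φ - a (x⁻¹ * φ)) k y = (1 - ap x y) * Dv a k y := by
    intro x k y
    unfold Dv
    have h1 : ∑ φ : Dl H, a (x⁻¹ * φ) k * ap φ y = ap x y * ∑ φ : Dl H, a φ k * ap φ y := by
      rw [← Equiv.sum_comp (Equiv.mulLeft x), Finset.mul_sum]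
      refine Finset.sum_congr rfl fun φ _ => ?_
      show a (x⁻¹ * (x * φ)) k * ap (x * φ) y = _
      rw [inv_mul_cancel_left, ap_mul]; ring
    have h2 : ∀ φ : Dl H, (a φ - a (x⁻¹ * φ)) k * ap φ y = a φ k * ap φ y - a (x⁻¹ * φ) k * ap φ y := by
      intro φ; rw [Pi.sub_apply]; ring
    rw [Finset.sum_congr rfl fun φ _ => h2 φ, Finset.sum_sub_distrib, h1]; ring
  have hF : Fw w a + (1 / 2) * ∑ x ∈ Finset.univ.filter (fun x : Dl H => x ∈ A), Fw w (fun φ => a φ - a (x⁻¹ * φ)) ≤ Fw w' a := by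
    have e1 : ∑ x ∈ Finset.univ.filter (fun x : Dl H => x ∈ A), Fw w (fun φ => a φ - a (x⁻¹ * φ)) =
        ∑ k : (ZMod N)ˣ, ∑ y : H, w y * ‖Dv a k y‖ ^ 2 * ∑ x ∈ Finset.univ.filter (fun x : Dl H => x ∈ A), ‖1 - ap x y‖ ^ 2 := by
      unfold Fw
      rw [Finset.sum_comm]
      refine Finset.sum_congr rfl fun k _ => ?_
      rw [Finset.sum_comm]
      refine Finset.sum_congr rfl fun y _ => ?_
      rw [Finset.mul_sum]
      refine Finset.sum_congr rfl fun x _ => ?_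
      rw [hDx, norm_mul]; ring
    rw [e1]
    unfold Fw
    rw [Finset.mul_sum, ← Finset.sum_add_distrib]
    refine Finset.sum_le_sum fun k _ => ?_
    rw [Finset.mul_sum, ← Finset.sum_add_distrib]
    refine Finset.sum_le_sum fun y _ => ?_
    have := mul_le_mul_of_nonneg_right (hw' y) (sq_nonneg ‖Dv a k y‖)
    refine le_trans (le_of_eq ?_) this
    ring
  refine le_trans ?_ hF
  have h1 := h a ha
  have h2 : ∀ x : Dl H, (Nat.card H : ℝ) * (Fintype.card (ZMod N)ˣ : ℝ) * ((Tf B (fun φ => a φ - a (x⁻¹ * φ))).card : ℝ) ≤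
      Fw w (fun φ => a φ - a (x⁻¹ * φ)) := fun x => h _ (fun φ => (SS N).sub_mem (ha _) (ha _))
  have h3 := Tf_step A B a
  have hc : (0 : ℝ) ≤ (Nat.card H : ℝ) * (Fintype.card (ZMod N)ˣ : ℝ) := by positivity
  have h4 := mul_le_mul_of_nonneg_left h3 hc
  refine h4.trans ?_
  rw [mul_add]
  refine add_le_add h1 ?_
  have h5 := Finset.sum_le_sum (fun x (_ : x ∈ Finset.univ.filter (fun x : Dl H => x ∈ A)) => h2 x)
  rw [← Finset.mul_sum] at h5
  nlinarith [h5]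

end Form

end CfsgH5
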