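import Cfsg.Agent.H5.Kno1
import Cfsg.Agent.H5.OneChar

/-!
# Knörr's theorem: the induction
-/

set_option autoImplicit false
open Cfsg
open CfsgH4 hiding centralChar sum_conj regInner_symm

namespace CfsgH5

open scoped ComplexConjugate

section Dual2

variable {H : Type*} [Group H] [Fintype H]

theorem ap_norm (φ : Dl H) (h : H) : ‖ap φ h‖ = 1 := CfsgH4.norm_unit_of_finite (Dl.hom φ) h

theorem ap_inv (φ : Dl H) (h : H) : ap φ⁻¹ h = (ap φ h)⁻¹ := by
  have h1 : ap φ⁻¹ h * ap φ h = 1 := by rw [← ap_mul, inv_mul_cancel, ap_one]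
  exact eq_inv_of_mul_eq_one_left h1

theorem ap_at_one (φ : Dl H) : ap φ (1 : H) = 1 := by
  unfold ap; rw [map_one, Units.val_one]

theorem dl_comm_bot {A : Type*} [Group A] (hab : ∀ a b : A, a * b = b * a) : commutator A = ⊥ := by
  rw [commutator_eq_bot_iff_center_eq_top, eq_top_iff]
  intro x _
  exact Subgroup.mem_center_iff.2 fun g => hab g x

theorem quot_ab (hab : ∀ a b : H, a * b = b * a) (C : Subgroup H) [C.Normal] : ∀ a b : H ⧸ C, a * b = b * a := by
  intro a b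
  obtain ⟨x, rfl⟩ := QuotientGroup.mk_surjective a
  obtain ⟨y, rfl⟩ := QuotientGroup.mk_surjective b
  rw [← QuotientGroup.mk_mul, hab, QuotientGroup.mk_mul]

theorem dl_sep (hab : ∀ a b : H, a * b = b * a) (C : Subgroup H) {h : H} (hh : h ∉ C) :
    ∃ φ : Dl H, (∀ c ∈ C, ap φ c = 1) ∧ ap φ h ≠ 1 := by
  haveI : C.Normal := ⟨fun n hn g => by rw [hab g n, mul_inv_cancel_right]; exact hn⟩
  haveI : Finite (H ⧸ C) := inferInstance
  haveI := Fintype.ofFinite (H ⧸ C)
  obtain ⟨f, hf⟩ := exists_lin_ne (G := H ⧸ C) (g := (h : H ⧸ C)) (by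
    rw [dl_comm_bot (quot_ab hab C), Subgroup.mem_bot]
    exact fun h' => hh ((QuotientGroup.eq_one_iff h).1 h'))
  refine ⟨(f.comp (QuotientGroup.mk' C) : H →* ℂˣ), fun c hc => ?_, ?_⟩
  · show ((f (c : H ⧸ C) : ℂˣ) : ℂ) = 1
    rw [(QuotientGroup.eq_one_iff c).2 hc, map_one, Units.val_one]
  · show ((f (h : H ⧸ C) : ℂˣ) : ℂ) ≠ 1
    intro h'
    exact hf (Units.ext h')

theorem dl_ann_card (hab : ∀ a b : H, a * b = b * a) (C : Subgroup H) (A : Subgroup (Dl H)) (hA : ∀ φ ∈ A, ∀ c ∈ C, ap φ c = 1) :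
    Nat.card A ≤ C.index := by
  haveI : C.Normal := ⟨fun n hn g => by rw [hab g n, mul_inv_cancel_right]; exact hn⟩
  haveI : Finite (H ⧸ C) := inferInstance
  haveI := Fintype.ofFinite (H ⧸ C)
  have h1 : Nat.card ((H ⧸ C) →* ℂˣ) = C.index := by
    rw [card_hom_units, dl_comm_bot (quot_ab hab C), Subgroup.index_bot]; rfl
  rw [← h1]
  haveI : Finite ((H ⧸ C) →* ℂˣ) := inferInstance
  refine Nat.card_le_card_of_injective (fun φ : A => QuotientGroup.lift C (Dl.hom φ.1) (fun c hc => Units.ext (by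
    have := hA φ.1 φ.2 c hc
    exact this))) ?_
  intro φ ψ h
  apply Subtype.ext
  have h2 : ∀ x : H, Dl.hom φ.1 x = Dl.hom ψ.1 x := fun x => DFunLike.congr_fun h (x : H ⧸ C)
  exact MonoidHom.ext h2

open Classical in
theorem sum_A_zero (A : Subgroup (Dl H)) {y : H} (x0 : Dl H) (hx0 : x0 ∈ A) (hne : ap x0 y ≠ 1) :
    ∑ x ∈ Finset.univ.filter (fun x : Dl H => x ∈ A), ap x y = 0 := by
  have h1 : ∑ x ∈ Finset.univ.filter (fun x : Dl H => x ∈ A), ap x y = ∑ x ∈ Finset.univ.filter (fun x : Dl H => x ∈ A), ap (x0 * x) y := by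
    refine Finset.sum_nbij' (fun x => x0⁻¹ * x) (fun x => x0 * x) ?_ ?_ ?_ ?_ ?_
    · intro x hx
      rw [Finset.mem_filter] at hx ⊢
      exact ⟨Finset.mem_univ _, A.mul_mem (A.inv_mem hx0) hx.2⟩
    · intro x hx
      rw [Finset.mem_filter] at hx ⊢
      exact ⟨Finset.mem_univ _, A.mul_mem hx0 hx.2⟩
    · intro x _; exact mul_inv_cancel_left _ _
    · intro x _; exact inv_mul_cancel_left _ _
    · intro x _; rw [mul_inv_cancel_left]
  have h2 : ∑ x ∈ Finset.univ.filter (fun x : Dl H => x ∈ A), ap (x0 * x) y = ap x0 y * ∑ x ∈ Finset.univ.filter (fun x : Dl H => x ∈ A), ap x y := by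
    rw [Finset.mul_sum]
    exact Finset.sum_congr rfl fun x _ => ap_mul _ _ _
  rw [h2] at h1
  have h3 : (ap x0 y - 1) * ∑ x ∈ Finset.univ.filter (fun x : Dl H => x ∈ A), ap x y = 0 := by linear_combination -h1
  rcases mul_eq_zero.1 h3 with h | h
  · exact absurd (sub_eq_zero.1 h) hne
  · exact h

theorem norm_one_sub_sq {z : ℂ} (hz : ‖z‖ = 1) : ‖1 - z‖ ^ 2 = 2 - 2 * z.re := by
  have h1 : Complex.normSq z = 1 := by rw [Complex.normSq_eq_norm_sq, hz, one_pow]
  rw [← Complex.normSq_eq_norm_sq, Complex.normSq_apply]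
  rw [Complex.normSq_apply] at h1
  simp only [Complex.sub_re, Complex.sub_im, Complex.one_re, Complex.one_im]
  linear_combination h1

open Classical in
theorem card_filter_mem (A : Subgroup (Dl H)) : ((Finset.univ.filter (fun x : Dl H => x ∈ A)).card : ℝ) = (Nat.card A : ℝ) := by
  rw [Nat.card_eq_fintype_card, Fintype.card_subtype]

open Classical in
theorem sum_A_norm (A : Subgroup (Dl H)) {y : H} (x0 : Dl H) (hx0 : x0 ∈ A) (hne : ap x0 y ≠ 1) :
    ∑ x ∈ Finset.univ.filter (fun x : Dl H => x ∈ A), ‖1 - ap x y‖ ^ 2 = 2 * (Nat.card A : ℝ) := by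
  have h1 := sum_A_zero A x0 hx0 hne
  have h2 : ∑ x ∈ Finset.univ.filter (fun x : Dl H => x ∈ A), (ap x y).re = 0 := by
    rw [← Complex.re_sum, h1]; rfl
  rw [Finset.sum_congr rfl fun x _ => norm_one_sub_sq (ap_norm x y), Finset.sum_sub_distrib, ← Finset.mul_sum, h2,
    Finset.sum_const, nsmul_eq_mul, card_filter_mem]
  ring

theorem dl_card (hab : ∀ a b : H, a * b = b * a) : Nat.card (Dl H) = Nat.card H := by
  have h1 : Nat.card (H →* ℂˣ) = Nat.card H := by
    rw [card_hom_units, dl_comm_bot hab, Subgroup.index_bot]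
  exact h1

theorem dl_top (B : Subgroup (Dl H)) (hsep : ∀ h : H, (∀ φ ∈ B, ap φ h = 1) → h = 1) : B = ⊤ := by
  classical
  rw [eq_top_iff]
  intro ψ _
  by_contra hψ
  have h1 : ∑ h : H, (∑ x ∈ Finset.univ.filter (fun x : Dl H => x ∈ B), ap x h) * conj (ap ψ h) = (Nat.card B : ℂ) := by
    rw [Finset.sum_eq_single (1 : H)]
    · rw [Finset.sum_congr rfl fun x _ => ap_at_one x, ap_at_one, Finset.sum_const, nsmul_eq_mul, map_one, mul_one, mul_one]
      exact_mod_cast card_filter_mem B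
    · intro h _ hne
      have h2 : ∃ φ ∈ B, ap φ h ≠ 1 := by
        by_contra hcon
        push Not at hcon
        exact hne (hsep h hcon)
      obtain ⟨φ, hφ, hφ1⟩ := h2
      rw [sum_A_zero B φ hφ hφ1, zero_mul]
    · intro h; exact absurd (Finset.mem_univ _) h
  have h2 : ∑ h : H, (∑ x ∈ Finset.univ.filter (fun x : Dl H => x ∈ B), ap x h) * conj (ap ψ h) = 0 := by
    rw [Finset.sum_congr rfl fun h _ => Finset.sum_mul _ _ _, Finset.sum_comm]
    refine Finset.sum_eq_zero fun x hx => ?_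
    rw [Finset.mem_filter] at hx
    have h3 : classInner (ap x) (ap ψ) = if x = ψ then 1 else 0 := (lch_inner (Dl.hom x) (Dl.hom ψ)).trans (if_congr Iff.rfl rfl rfl)
    have hne : x ≠ ψ := by rintro rfl; exact hψ hx.2
    rw [if_neg hne, classInner_def, inv_mul_eq_iff_eq_mul₀ (card_ne_zero H), mul_zero] at h3
    exact h3
  rw [h2] at h1
  have h3 : (Nat.card B : ℂ) ≠ 0 := by exact_mod_cast Nat.card_pos.ne'
  exact h3 h1.symm

end Dual2

section Relidx

variable {X : Type*} [Group X] [Fintype X]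

theorem card_mul_le_of_le (W W1 K : Subgroup X) (hK : K ≤ W) : Nat.card W1 * Nat.card K ≤ Nat.card W * Nat.card ↥(W1 ⊓ K) ∨ ¬ W1 ≤ W := by
  by_cases hW : W1 ≤ W
  · left
    have h1 : W1.relIndex K ≤ W1.relIndex W := Subgroup.relIndex_le_of_le_right hK (Subgroup.index_ne_zero_of_finite (H := W1.subgroupOf W))
    have h2 : Nat.card ↥(W1 ⊓ K) * W1.relIndex K = Nat.card K := by
      rw [← Subgroup.inf_relIndex_right, ← Subgroup.relIndex_bot_left, ← Subgroup.relIndex_bot_left]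
      exact Subgroup.relIndex_mul_relIndex _ _ _ bot_le inf_le_right
    have h3 : Nat.card W1 * W1.relIndex W = Nat.card W := by
      rw [← Subgroup.relIndex_bot_left, ← Subgroup.relIndex_bot_left]
      exact Subgroup.relIndex_mul_relIndex _ _ _ bot_le hW
    rw [← h2, ← h3]
    calc Nat.card W1 * (Nat.card ↥(W1 ⊓ K) * W1.relIndex K) ≤ Nat.card W1 * (Nat.card ↥(W1 ⊓ K) * W1.relIndex W) :=
          Nat.mul_le_mul_left _ (Nat.mul_le_mul_left _ h1)
      _ = _ := by ring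
  · exact Or.inr hW

end Relidx

end CfsgH5
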