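import Cfsg.Agent.H5.Kno2

/-!
# Knörr's theorem: the induction step
-/

set_option autoImplicit false
open Cfsg
open CfsgH4 hiding centralChar sum_conj regInner_symm

namespace CfsgH5

section Str

variable {X : Type*} [Group X]

/-- the elements of `W` with `[g, w] ∈ W1` -/
def Fk (W W1 : Subgroup X) (hab : ∀ a ∈ W, ∀ b ∈ W, a * b = b * a) (g : X) (hg : ∀ w ∈ W, g * w * g⁻¹ ∈ W) : Subgroup X where
  carrier := {w | w ∈ W ∧ g * w * g⁻¹ * w⁻¹ ∈ W1}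
  one_mem' := ⟨W.one_mem, by rw [mul_one, mul_inv_cancel, inv_one, mul_one]; exact W1.one_mem⟩
  mul_mem' := by
    rintro a b ⟨ha, ha1⟩ ⟨hb, hb1⟩
    refine ⟨W.mul_mem ha hb, ?_⟩
    have h1 : g * (a * b) * g⁻¹ * (a * b)⁻¹ = (g * a * g⁻¹ * a⁻¹) * (a * (g * b * g⁻¹ * b⁻¹) * a⁻¹) := by group
    rw [h1, hab a ha (g * b * g⁻¹ * b⁻¹) (W.mul_mem (hg b hb) (W.inv_mem hb)), mul_inv_cancel_right]
    exact W1.mul_mem ha1 hb1
  inv_mem' := by
    rintro a ⟨ha, ha1⟩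
    refine ⟨W.inv_mem ha, ?_⟩
    have h1 : g * a⁻¹ * g⁻¹ * a⁻¹⁻¹ = (a⁻¹ * (g * a * g⁻¹))⁻¹ := by group
    rw [h1, hab a⁻¹ (W.inv_mem ha) _ (hg a ha)]
    exact W1.inv_mem ha1

/-- the stabilizer of the series `1 ≤ W1 ≤ W`: elements acting trivially on `W / W1` -/
def Ck (H : Subgroup X) (W W1 : Subgroup X) (hinv : ∀ h ∈ H, ∀ w ∈ W, h * w * h⁻¹ ∈ W) : Subgroup H where
  carrier := {h | ∀ w ∈ W, (h : X) * w * (h : X)⁻¹ * w⁻¹ ∈ W1}
  one_mem' := fun w _ => by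
    show ((1 : H) : X) * w * ((1 : H) : X)⁻¹ * w⁻¹ ∈ W1
    rw [OneMemClass.coe_one, one_mul, inv_one, mul_one, mul_inv_cancel]; exact W1.one_mem
  mul_mem' := by
    intro a b ha hb w hw
    have h1 : ((a * b : H) : X) * w * ((a * b : H) : X)⁻¹ * w⁻¹ =
      ((a : X) * ((b : X) * w * (b : X)⁻¹) * (a : X)⁻¹ * ((b : X) * w * (b : X)⁻¹)⁻¹) * ((b : X) * w * (b : X)⁻¹ * w⁻¹) := by
      rw [Subgroup.coe_mul]; group
    show ((a * b : H) : X) * w * ((a * b : H) : X)⁻¹ * w⁻¹ ∈ W1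
    rw [h1]
    exact W1.mul_mem (ha _ (hinv b b.2 w hw)) (hb w hw)
  inv_mem' := by
    intro a ha w hw
    have h2 : (a : X)⁻¹ * w * (a : X) ∈ W := by
      have := hinv (a : X)⁻¹ (H.inv_mem a.2) w hw
      rwa [inv_inv] at this
    have h1 : ((a⁻¹ : H) : X) * w * ((a⁻¹ : H) : X)⁻¹ * w⁻¹ =
      ((a : X) * ((a : X)⁻¹ * w * (a : X)) * (a : X)⁻¹ * ((a : X)⁻¹ * w * (a : X))⁻¹)⁻¹ := by
      rw [Subgroup.coe_inv]; group
    show ((a⁻¹ : H) : X) * w * ((a⁻¹ : H) : X)⁻¹ * w⁻¹ ∈ W1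
    rw [h1]
    exact W1.inv_mem (ha _ h2)

variable [Fintype X]

theorem exists_max_inv (H W : Subgroup X) (hW : W ≠ ⊥) :
    ∃ W1 : Subgroup X, W1 ≤ W ∧ W1 ≠ W ∧ (∀ h ∈ H, ∀ w ∈ W1, h * w * h⁻¹ ∈ W1) ∧
      ∀ U : Subgroup X, W1 ≤ U → U ≤ W → (∀ h ∈ H, ∀ w ∈ U, h * w * h⁻¹ ∈ U) → U = W1 ∨ U = W := by
  obtain ⟨m, hm⟩ := Set.Finite.exists_maximal (Set.toFinite {U : Subgroup X | U ≤ W ∧ U ≠ W ∧ ∀ h ∈ H, ∀ w ∈ U, h * w * h⁻¹ ∈ U})
    ⟨⊥, bot_le, fun h => hW h.symm, fun h _ w hw => by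
      rw [Subgroup.mem_bot] at hw ⊢; subst hw; rw [mul_one, mul_inv_cancel]⟩
  refine ⟨m, hm.1.1, hm.1.2.1, hm.1.2.2, fun U hU1 hU2 hU3 => ?_⟩
  by_cases hUW : U = W
  · exact Or.inr hUW
  · exact Or.inl (le_antisymm (hm.2 ⟨hU2, hUW, hU3⟩ hU1) hU1)

theorem knorr_ind {p : ℕ} [hp : Fact p.Prime] {N : ℕ} [NeZero N] (V : Subgroup X) (hV : IsPGroup p V)
    (hVab : ∀ a ∈ V, ∀ b ∈ V, a * b = b * a) (H : Subgroup X) [Fintype H] (hHab : ∀ a ∈ H, ∀ b ∈ H, a * b = b * a)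
    (hHp : ¬ p ∣ Nat.card H) : ∀ n : ℕ, ∀ W : Subgroup X, Nat.card W = n → W ≤ V → (∀ h ∈ H, ∀ w ∈ W, h * w * h⁻¹ ∈ W) →
    ∃ B : Subgroup (Dl H), PP N (fun h : H => (Nat.card W : ℝ) / (Nat.card ↥(W ⊓ Subgroup.centralizer {(h : X)}) : ℝ)) B ∧
      ∀ h : H, (∀ φ ∈ B, ap φ h = 1) → ∀ w ∈ W, (h : X) * w = w * h := by
  classical
  intro n
  induction n using Nat.strong_induction_on with
  | _ n ih =>
  intro W hn hWV hinv
  by_cases hbot : W = ⊥
  · subst hbot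
    refine ⟨⊥, ?_, fun h _ w hw => by rw [Subgroup.mem_bot] at hw; subst hw; rw [mul_one, one_mul]⟩
    have h1 : (fun h : H => (Nat.card ↥(⊥ : Subgroup X) : ℝ) / (Nat.card ↥((⊥ : Subgroup X) ⊓ Subgroup.centralizer {(h : X)}) : ℝ)) = fun _ => 1 := by
      funext h
      rw [bot_inf_eq, Subgroup.card_bot]; simp
    rw [h1]
    exact PP_base
  obtain ⟨W1, hW1, hW1ne, hW1inv, hmax⟩ := exists_max_inv H W hbot
  have hWab : ∀ a ∈ W, ∀ b ∈ W, a * b = b * a := fun a ha b hb => hVab a (hWV ha) b (hWV hb)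
  have hHab' : ∀ a b : H, a * b = b * a := fun a b => Subtype.ext (hHab a a.2 b b.2)
  have hlt : Nat.card W1 < n := by
    rw [← hn]
    exact lt_of_le_of_ne (Subgroup.card_le_of_le hW1) (fun h => hW1ne (Subgroup.eq_of_le_of_card_ge hW1 h.symm.le))
  obtain ⟨B1, hB1, hB1'⟩ := ih _ hlt W1 rfl (hW1.trans hWV) hW1inv
  have hF_inv : ∀ (g : H), ∀ h ∈ H, ∀ w ∈ Fk W W1 hWab (g : X) (hinv g g.2), h * w * h⁻¹ ∈ Fk W W1 hWab (g : X) (hinv g g.2) := by
    rintro g h hh w ⟨hw, hw1⟩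
    refine ⟨hinv h hh w hw, ?_⟩
    have h1 : (g : X) * (h * w * h⁻¹) * (g : X)⁻¹ * (h * w * h⁻¹)⁻¹ = h * ((g : X) * w * (g : X)⁻¹ * w⁻¹) * h⁻¹ := by
      have h2 : (g : X) * h = h * g := hHab g g.2 h hh
      have h3 : h⁻¹ * (g : X)⁻¹ = (g : X)⁻¹ * h⁻¹ := by rw [← mul_inv_rev, ← mul_inv_rev, h2]
      calc (g : X) * (h * w * h⁻¹) * (g : X)⁻¹ * (h * w * h⁻¹)⁻¹ = ((g : X) * h) * w * (h⁻¹ * (g : X)⁻¹) * h * w⁻¹ * h⁻¹ := by group
        _ = (h * g) * w * ((g : X)⁻¹ * h⁻¹) * h * w⁻¹ * h⁻¹ := by rw [h2, h3]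
        _ = _ := by group
    rw [h1]
    exact hW1inv h hh _ hw1
  have hF_W1 : ∀ (g : H), W1 ≤ Fk W W1 hWab (g : X) (hinv g g.2) := fun g w hw =>
    ⟨hW1 hw, W1.mul_mem (hW1inv g g.2 w hw) (W1.inv_mem hw)⟩
  have hF_le : ∀ (g : H), Fk W W1 hWab (g : X) (hinv g g.2) ≤ W := fun g w hw => hw.1
  -- if some u ∉ W1 has [g,u] ∈ W1 then g ∈ C1
  have hfree : ∀ (g : H) (u : X), u ∈ W → u ∉ W1 → (g : X) * u * (g : X)⁻¹ * u⁻¹ ∈ W1 → g ∈ Ck H W W1 hinv := by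
    intro g u hu hu1 hgu
    rcases hmax _ (hF_W1 g) (hF_le g) (hF_inv g) with h | h
    · exfalso
      apply hu1
      rw [← h]; exact ⟨hu, hgu⟩
    · intro w hw
      have : w ∈ Fk W W1 hWab (g : X) (hinv g g.2) := by rw [h]; exact hw
      exact this.2
  obtain ⟨u, hu, hu1⟩ : ∃ u, u ∈ W ∧ u ∉ W1 := by
    by_contra hcon
    push Not at hcon
    exact hW1ne (le_antisymm hW1 hcon)
  -- the index bound
  have hidx : (Ck H W W1 hinv).index + 1 ≤ W1.relIndex W := by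
    have huq : ∀ q : H ⧸ Ck H W W1 hinv, (q.out : X) * u * (q.out : X)⁻¹ ∈ W := fun q => hinv _ q.out.2 u hu
    let f : Option (H ⧸ Ck H W W1 hinv) → W ⧸ W1.subgroupOf W := fun o => o.elim ((1 : W) : W ⧸ W1.subgroupOf W)
      (fun q => ((⟨(q.out : X) * u * (q.out : X)⁻¹, huq q⟩ : W) : W ⧸ W1.subgroupOf W))
    have hf : Function.Injective f := by
      have h1 : ∀ q : H ⧸ Ck H W W1 hinv, ((⟨(q.out : X) * u * (q.out : X)⁻¹, huq q⟩ : W) : W ⧸ W1.subgroupOf W) ≠ ((1 : W) : W ⧸ W1.subgroupOf W) := by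
        intro q h
        rw [QuotientGroup.eq, mul_one, Subgroup.mem_subgroupOf] at h
        have h2 : (q.out : X) * u * (q.out : X)⁻¹ ∈ W1 := by
          have := W1.inv_mem h
          rw [Subgroup.coe_inv, inv_inv] at this
          exact this
        have h3 := hW1inv _ (H.inv_mem q.out.2) _ h2
        have h4 : (q.out : X)⁻¹ * ((q.out : X) * u * (q.out : X)⁻¹) * ((q.out : X)⁻¹)⁻¹ = u := by group
        rw [h4] at h3
        exact hu1 h3
      rintro (_ | q) (_ | q') h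
      · rfl
      · exact absurd h.symm (h1 q')
      · exact absurd h (h1 q)
      · have h2 : ((⟨(q.out : X) * u * (q.out : X)⁻¹, huq q⟩ : W) : W ⧸ W1.subgroupOf W) = ((⟨(q'.out : X) * u * (q'.out : X)⁻¹, huq q'⟩ : W) : W ⧸ W1.subgroupOf W) := h
        rw [QuotientGroup.eq, Subgroup.mem_subgroupOf] at h2
        have h3 : ((q.out : X) * u * (q.out : X)⁻¹)⁻¹ * ((q'.out : X) * u * (q'.out : X)⁻¹) ∈ W1 := h2
        have h4 := hW1inv _ (H.inv_mem q.out.2) _ h3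
        have h5 : (q.out : X)⁻¹ * (((q.out : X) * u * (q.out : X)⁻¹)⁻¹ * ((q'.out : X) * u * (q'.out : X)⁻¹)) * ((q.out : X)⁻¹)⁻¹ =
            u⁻¹ * (((q.out⁻¹ * q'.out : H) : X) * u * ((q.out⁻¹ * q'.out : H) : X)⁻¹) := by
          rw [Subgroup.coe_mul, Subgroup.coe_inv]; group
        rw [h5, hWab u⁻¹ (W.inv_mem hu) _ (hinv _ (q.out⁻¹ * q'.out : H).2 u hu)] at h4
        have h6 := hfree _ u hu hu1 h4
        have h7 : ((q.out : H) : H ⧸ Ck H W W1 hinv) = ((q'.out : H) : H ⧸ Ck H W W1 hinv) := QuotientGroup.eq.2 h6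
        rw [QuotientGroup.out_eq', QuotientGroup.out_eq'] at h7
        rw [h7]
    have h1 := Nat.card_le_card_of_injective f hf
    rw [Finite.card_option] at h1
    exact h1
  obtain ⟨A1, hA1⟩ : ∃ A1 : Subgroup (Dl H), ∀ φ, φ ∈ A1 ↔ ∀ c ∈ Ck H W W1 hinv, ap φ c = 1 :=
    ⟨{ carrier := {φ | ∀ c ∈ Ck H W W1 hinv, ap φ c = 1}
       one_mem' := fun c _ => ap_one c
       mul_mem' := fun {a b} ha hb c hc => by rw [ap_mul, ha c hc, hb c hc, mul_one]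
       inv_mem' := fun {a} ha c hc => by rw [ap_inv, ha c hc, inv_one] }, fun φ => Iff.rfl⟩
  have hA1card : Nat.card A1 ≤ (Ck H W W1 hinv).index := dl_ann_card hHab' _ A1 (fun φ hφ => (hA1 φ).1 hφ)
  have hWcard : Nat.card W1 * W1.relIndex W = Nat.card W := by
    rw [← Subgroup.relIndex_bot_left, ← Subgroup.relIndex_bot_left]
    exact Subgroup.relIndex_mul_relIndex _ _ _ bot_le hW1
  have hC1sep : ∀ h : H, (∀ φ ∈ A1, ap φ h = 1) → h ∈ Ck H W W1 hinv := by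
    intro h hh
    by_contra hcon
    obtain ⟨φ, hφ, hφ1⟩ := dl_sep hHab' _ hcon
    exact hφ1 (hh φ ((hA1 φ).2 hφ))
  refine ⟨A1 ⊔ B1, PP_step hB1 (fun y => ?_), fun h hh w hw => ?_⟩
  · have hposW1 : (0 : ℝ) < (Nat.card ↥(W1 ⊓ Subgroup.centralizer {(y : X)}) : ℝ) := by exact_mod_cast Nat.card_pos
    have hposW : (0 : ℝ) < (Nat.card ↥(W ⊓ Subgroup.centralizer {(y : X)}) : ℝ) := by exact_mod_cast Nat.card_pos
    by_cases hy : y ∈ Ck H W W1 hinv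
    · have h1 : ∑ x ∈ Finset.univ.filter (fun x : Dl H => x ∈ A1), ‖1 - ap x y‖ ^ 2 = 0 := by
        refine Finset.sum_eq_zero fun x hx => ?_
        rw [Finset.mem_filter] at hx
        rw [(hA1 x).1 hx.2 y hy, sub_self, norm_zero]; norm_num
      rw [h1, mul_zero, add_zero, mul_one, div_le_div_iff₀ hposW1 hposW]
      rcases card_mul_le_of_le W W1 (W ⊓ Subgroup.centralizer {(y : X)}) inf_le_left with h2 | h2
      · have h3 : W1 ⊓ (W ⊓ Subgroup.centralizer {(y : X)}) = W1 ⊓ Subgroup.centralizer {(y : X)} := by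
          rw [← inf_assoc, inf_eq_left.2 hW1]
        rw [h3] at h2
        exact_mod_cast h2
      · exact absurd hW1 h2
    · have h0 : ∃ φ ∈ A1, ap φ y ≠ 1 := by
        by_contra hcon
        push Not at hcon
        exact hy (hC1sep y hcon)
      obtain ⟨φ, hφ, hφ1⟩ := h0
      rw [sum_A_norm A1 φ hφ hφ1]
      have hKle : W ⊓ Subgroup.centralizer {(y : X)} ≤ W1 := by
        intro k hk
        by_contra hk1
        apply hy
        apply hfree y k (Subgroup.mem_inf.1 hk).1 hk1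
        have h4 : k * (y : X) = y * k := Subgroup.mem_centralizer_singleton_iff.1 (Subgroup.mem_inf.1 hk).2
        rw [← h4, mul_inv_cancel_right, mul_inv_cancel]
        exact W1.one_mem
      have hKeq : W ⊓ Subgroup.centralizer {(y : X)} = W1 ⊓ Subgroup.centralizer {(y : X)} :=
        le_antisymm (le_inf hKle inf_le_right) (inf_le_inf_right _ hW1)
      show (Nat.card W1 : ℝ) / (Nat.card ↥(W1 ⊓ Subgroup.centralizer {(y : X)}) : ℝ) * (1 + 1 / 2 * (2 * (Nat.card A1 : ℝ))) ≤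
        (Nat.card W : ℝ) / (Nat.card ↥(W ⊓ Subgroup.centralizer {(y : X)}) : ℝ)
      rw [hKeq, div_mul_eq_mul_div]
      apply div_le_div_of_nonneg_right _ hposW1.le
      have h5 : (Nat.card A1 : ℝ) + 1 ≤ (W1.relIndex W : ℝ) := by exact_mod_cast (Nat.add_le_add_right hA1card 1).trans hidx
      have h6 : (Nat.card W : ℝ) = Nat.card W1 * (W1.relIndex W : ℝ) := by exact_mod_cast hWcard.symm
      rw [h6]
      apply mul_le_mul_of_nonneg_left _ (by positivity)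
      linarith
  · have hhC1 : h ∈ Ck H W W1 hinv := hC1sep h fun φ hφ => hh φ (Subgroup.mem_sup_left hφ)
    have hhW1 : ∀ w ∈ W1, (h : X) * w = w * h := hB1' h fun φ hφ => hh φ (Subgroup.mem_sup_right hφ)
    have hc := hhC1 w hw
    set c := (h : X) * w * (h : X)⁻¹ * w⁻¹ with hcdef
    have hpow : ∀ k : ℕ, (h : X) ^ k * w * ((h : X) ^ k)⁻¹ = c ^ k * w := by
      intro k
      induction k with
      | zero => simp
      | succ k ihk =>
        have h1 : (h : X) ^ (k + 1) * w * ((h : X) ^ (k + 1))⁻¹ = (h : X) * ((h : X) ^ k * w * ((h : X) ^ k)⁻¹) * (h : X)⁻¹ := by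
          rw [pow_succ']; group
        have h2 : (h : X) * c ^ k = c ^ k * (h : X) := hhW1 _ (W1.pow_mem hc k)
        have h3 : (h : X) * w * (h : X)⁻¹ = c * w := by rw [hcdef]; group
        rw [h1, ihk]
        calc (h : X) * (c ^ k * w) * (h : X)⁻¹ = ((h : X) * c ^ k) * w * (h : X)⁻¹ := by group
          _ = c ^ k * ((h : X) * w * (h : X)⁻¹) := by rw [h2]; group
          _ = c ^ (k + 1) * w := by rw [h3, pow_succ]; group
    have hcn : c ^ (Nat.card H) = 1 := by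
      have h1 := hpow (Nat.card H)
      have h2 : (h : X) ^ (Nat.card H) = 1 := by
        have : h ^ (Nat.card H) = 1 := pow_card_eq_one'
        have h3 := congrArg (Subtype.val) this
        rw [Subgroup.coe_pow, OneMemClass.coe_one] at h3
        exact h3
      rw [h2, inv_one, mul_one, one_mul] at h1
      exact (mul_eq_right.1 h1.symm)
    have hcV : c ∈ V := hWV (hW1 hc)
    obtain ⟨k, hk⟩ := hV ⟨c, hcV⟩
    have hk' : c ^ (p ^ k) = 1 := congrArg Subtype.val hk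
    have hcop : (Nat.card H).Coprime (p ^ k) := by
      apply Nat.Coprime.pow_right
      exact ((Nat.Prime.coprime_iff_not_dvd hp.out).2 hHp).symm
    have hc1 : c = 1 := by
      have h1 : orderOf c ∣ Nat.gcd (Nat.card H) (p ^ k) := Nat.dvd_gcd (orderOf_dvd_of_pow_eq_one hcn) (orderOf_dvd_of_pow_eq_one hk')
      rw [hcop] at h1
      exact orderOf_eq_one_iff.1 (Nat.dvd_one.1 h1)
    rw [hcdef] at hc1
    have h2 : (h : X) * w * (h : X)⁻¹ = w := mul_inv_eq_one.1 hc1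
    calc (h : X) * w = (h : X) * w * (h : X)⁻¹ * h := by group
      _ = w * h := by rw [h2]

end Str

end CfsgH5
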