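import Cfsg.Agent.H5.Kno3

/-!
# Knörr's theorem: abelian stabilizers
-/

set_option autoImplicit false
open Cfsg
open CfsgH4 hiding centralChar sum_conj regInner_symm

namespace CfsgH5

open scoped ComplexConjugate

section

variable {X : Type*} [Group X] [Fintype X]

/-- the coefficients of a character -/
noncomputable def aX (H : Subgroup X) [Fintype H] (v : X) (N : ℕ) (χ : X → ℂ) (φ : Dl H) (k : (ZMod N)ˣ) : ℂ :=
  classInner (fun h : H => χ (v ^ (k : ZMod N).val * h)) (ap φ)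

theorem aX_mem (H : Subgroup X) [Fintype H] (v : X) [NeZero (Nat.card X)] (hcomm : ∀ h ∈ H, h * v = v * h) {χ : X → ℂ} (hχ : IsCharacter X χ)
    (φ : Dl H) : aX H v (Nat.card X) χ φ ∈ SS (Nat.card X) := by
  classical
  haveI := Fintype.ofFinite (Subgroup.zpowers v)
  haveI : Finite (Subgroup.zpowers v →* ℂˣ) := inferInstance
  haveI := Fintype.ofFinite (Subgroup.zpowers v →* ℂˣ)
  have hC : ∀ (c : Subgroup.zpowers v) (h : H), Commute (c : X) (h : X) := by
    rintro ⟨c, hc⟩ h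
    obtain ⟨z, rfl⟩ := Subgroup.mem_zpowers_iff.1 hc
    have : Commute v (h : X) := (hcomm h h.2).symm
    exact this.zpow_left z
  let ρ : Subgroup.zpowers v × H →* X := MonoidHom.noncommCoprod (Subgroup.zpowers v).subtype H.subtype (fun c h => hC c h)
  let f : Subgroup.zpowers v → ℂ := fun c => classInner (fun h : H => χ ((c : X) * h)) (ap φ)
  have hCab : ∀ a b : Subgroup.zpowers v, a * b = b * a := by
    rintro ⟨a, ha⟩ ⟨b, hb⟩
    obtain ⟨i, rfl⟩ := Subgroup.mem_zpowers_iff.1 ha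
    obtain ⟨j, rfl⟩ := Subgroup.mem_zpowers_iff.1 hb
    exact Subtype.ext (zpow_mul_comm v i j)
  have hnat : ∀ l : Subgroup.zpowers v →* ℂˣ, ∃ m : ℕ, classInner f (lch l) = m := by
    intro l
    obtain ⟨m, hm⟩ := IsCharacter.inner_irr_nat (isCharacter_comp ρ hχ) (isCharacter_one_dim (l.coprod (Dl.hom φ)))
    refine ⟨m, ?_⟩
    rw [← hm, classInner_def, classInner_def, Fintype.sum_prod_type, Nat.card_prod]
    have h1 : ∀ c : Subgroup.zpowers v, f c * conj (lch l c) =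
        (Nat.card H : ℂ)⁻¹ * ∑ h : H, χ (ρ (c, h)) * conj (((l.coprod (Dl.hom φ)) (c, h) : ℂˣ) : ℂ) := by
      intro c
      show classInner (fun h : H => χ ((c : X) * h)) (ap φ) * conj (lch l c) = _
      rw [classInner_def, mul_assoc, Finset.sum_mul]
      congr 1
      refine Finset.sum_congr rfl fun h _ => ?_
      have h2 : (((l.coprod (Dl.hom φ)) (c, h) : ℂˣ) : ℂ) = lch l c * ap φ h := by
        rw [MonoidHom.coprod_apply, Units.val_mul]; rfl
      rw [h2, map_mul]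
      show χ ((c : X) * h) * conj (ap φ h) * conj (lch l c) = χ ((c : X) * h) * (conj (lch l c) * conj (ap φ h))
      ring
    rw [Finset.sum_congr rfl fun c _ => h1 c, ← Finset.mul_sum, ← mul_assoc]
    push_cast
    rw [mul_inv]
  choose m hm using hnat
  have hvN : ∀ l : Subgroup.zpowers v →* ℂˣ, ((l ⟨v, Subgroup.mem_zpowers v⟩ : ℂˣ) : ℂ) ^ (Nat.card X) = 1 := by
    intro l
    rw [← Units.val_pow_eq_pow_val, ← map_pow]
    have h1 : (⟨v, Subgroup.mem_zpowers v⟩ : Subgroup.zpowers v) ^ Nat.card X = 1 := Subtype.ext pow_card_eq_one'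
    rw [h1, map_one, Units.val_one]
  have hsum : aX H v (Nat.card X) χ φ = ∑ l : Subgroup.zpowers v →* ℂˣ,
      fun k : (ZMod (Nat.card X))ˣ => (((m l : ℕ) : ℤ) : ℂ) * ((l ⟨v, Subgroup.mem_zpowers v⟩ : ℂˣ) : ℂ) ^ (k : ZMod (Nat.card X)).val := by
    funext k
    rw [Finset.sum_apply]
    have h1 := fourier_inv hCab f ((⟨v, Subgroup.mem_zpowers v⟩ : Subgroup.zpowers v) ^ (k : ZMod (Nat.card X)).val)
    have h2 : aX H v (Nat.card X) χ φ k = f ((⟨v, Subgroup.mem_zpowers v⟩ : Subgroup.zpowers v) ^ (k : ZMod (Nat.card X)).val) := rfl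
    rw [h2, h1]
    refine Finset.sum_congr rfl fun l _ => ?_
    rw [hm l, map_pow, Units.val_pow_eq_pow_val]
    push_cast; rfl
  rw [hsum]
  exact AddSubgroup.sum_mem _ fun l _ => SS_root (hvN l) _

theorem Dv_aX (H : Subgroup X) [Fintype H] (hab : ∀ a b : H, a * b = b * a) (v : X) [NeZero (Nat.card X)] (χ : X → ℂ) (k : (ZMod (Nat.card X))ˣ)
    (h : H) : Dv (aX H v (Nat.card X) χ) k h = χ (v ^ (k : ZMod (Nat.card X)).val * h) := by
  have h1 := @fourier_inv H _ _ (instFintypeDlOfFinite (H := H)) hab (fun h : H => χ (v ^ (k : ZMod (Nat.card X)).val * h)) h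
  exact h1.symm

theorem card_cent_le {p : ℕ} [hp : Fact p.Prime] (V G : Subgroup X) (hVexp : ∀ v ∈ V, v ^ p = 1) (hVab : ∀ a ∈ V, ∀ b ∈ V, a * b = b * a)
    (hGV : Subgroup.IsComplement' V G) (hpG : ¬ p ∣ Nat.card G) (v : X) (hv : v ∈ V)
    (hab : ∀ a ∈ G ⊓ Subgroup.centralizer ({v} : Set X), ∀ b ∈ G ⊓ Subgroup.centralizer ({v} : Set X), a * b = b * a)
    [V.Normal] {k : ℕ} (hk : k.Coprime (Nat.card X)) {h : X} (hh : h ∈ G ⊓ Subgroup.centralizer ({v} : Set X)) :
    Nat.card (Subgroup.centralizer ({v ^ k * h} : Set X)) ≤ Nat.card ↥(V ⊓ Subgroup.centralizer ({h} : Set X)) *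
      Nat.card ↥(G ⊓ Subgroup.centralizer ({v} : Set X)) := by
  have hhv : h * v = v * h := Subgroup.mem_centralizer_singleton_iff.1 (Subgroup.mem_inf.1 hh).2
  have hkey : ∀ x : Subgroup.centralizer ({v ^ k * h} : Set X),
      ∃ q : ↥(V ⊓ Subgroup.centralizer ({h} : Set X)) × ↥(G ⊓ Subgroup.centralizer ({v} : Set X)), (q.1 : X) * q.2 = x := by
    rintro ⟨x, hx⟩
    have hx1 : Commute x (v ^ k * h) := Subgroup.mem_centralizer_singleton_iff.1 hx
    have hcomm : Commute (v ^ k) h := (show Commute v h from hhv.symm).pow_left k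
    have hcop : p.Coprime (Nat.card G) := (Nat.Prime.coprime_iff_not_dvd hp.out).2 hpG
    obtain ⟨j, hj1, hj2⟩ := Nat.chineseRemainder hcop 1 0
    have h1 : (v ^ k * h) ^ j = v ^ k := by
      rw [hcomm.mul_pow]
      have e1 : h ^ j = 1 := by
        have h2 : (Nat.card G) ∣ j := (Nat.modEq_zero_iff_dvd.1 hj2)
        obtain ⟨c, rfl⟩ := h2
        have h3 : (⟨h, (Subgroup.mem_inf.1 hh).1⟩ : G) ^ Nat.card G = 1 := pow_card_eq_one'
        have h4 : h ^ Nat.card G = 1 := congrArg Subtype.val h3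
        rw [pow_mul, h4, one_pow]
      have e2 : (v ^ k) ^ j = v ^ k := by
        have h3 : (v ^ k) ^ p = 1 := hVexp _ (V.pow_mem hv k)
        have h4 : (v ^ k) ^ j = (v ^ k) ^ 1 := pow_eq_pow_iff_modEq.2 (hj1.of_dvd (orderOf_dvd_of_pow_eq_one h3))
        rw [h4, pow_one]
      rw [e1, e2, mul_one]
    have hx2 : Commute x (v ^ k) := by
      have := hx1.pow_right j
      rwa [h1] at this
    have hx3 : Commute x h := by
      have h2 : h = (v ^ k)⁻¹ * (v ^ k * h) := by group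
      rw [h2]
      exact hx2.inv_right.mul_right hx1
    have hx4 : x ∈ Subgroup.centralizer ({v} : Set X) := by
      rw [← centralizer_pow_unit hk]
      exact Subgroup.mem_centralizer_singleton_iff.2 hx2
    obtain ⟨⟨a, b⟩, hab'⟩ := hGV.2 x
    have hab2 : (a : X) * b = x := hab'
    have hb : (b : X) ∈ G ⊓ Subgroup.centralizer ({v} : Set X) := by
      refine Subgroup.mem_inf.2 ⟨b.2, ?_⟩
      have h3 : (b : X) = (a : X)⁻¹ * x := by rw [← hab2]; group
      rw [h3]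
      exact Subgroup.mul_mem _ (Subgroup.inv_mem _ (Subgroup.mem_centralizer_singleton_iff.2 (hVab a a.2 v hv))) hx4
    have ha : (a : X) ∈ V ⊓ Subgroup.centralizer ({h} : Set X) := by
      refine Subgroup.mem_inf.2 ⟨a.2, ?_⟩
      have h3 : (a : X) = x * (b : X)⁻¹ := by rw [← hab2]; group
      rw [h3]
      refine Subgroup.mul_mem _ (Subgroup.mem_centralizer_singleton_iff.2 hx3) (Subgroup.inv_mem _ (Subgroup.mem_centralizer_singleton_iff.2 (hab b hb h hh)))
    exact ⟨(⟨a, ha⟩, ⟨b, hb⟩), hab2⟩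
  choose f hf using hkey
  rw [← Nat.card_prod]
  refine Nat.card_le_card_of_injective f ?_
  intro x y hxy
  apply Subtype.ext
  rw [← hf x, ← hf y, hxy]

theorem s4958 (p : ℕ) [hp : Fact p.Prime] (V : Subgroup X) [V.Normal] (hVexp : ∀ v ∈ V, v ^ p = 1) (hidx : ¬ p ∣ V.index)
    (hself : Subgroup.centralizer (V : Set X) = V) (G : Subgroup X) (hGV : Subgroup.IsComplement' V G) (v : X) (hv : v ∈ V)
    (hab : ∀ a ∈ G ⊓ Subgroup.centralizer ({v} : Set X), ∀ b ∈ G ⊓ Subgroup.centralizer ({v} : Set X), a * b = b * a) :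
    Nat.card (ConjClasses X) ≤ Nat.card V := by
  classical
  haveI : NeZero (Nat.card X) := ⟨Nat.card_pos.ne'⟩
  have hVab : ∀ a ∈ V, ∀ b ∈ V, a * b = b * a := by
    intro a ha b hb
    rw [← hself] at ha
    exact (Subgroup.mem_centralizer_iff.1 ha b hb).symm
  have hVp : IsPGroup p V := fun x => ⟨1, by rw [pow_one]; exact Subtype.ext (hVexp x x.2)⟩
  have hpG : ¬ p ∣ Nat.card G := by rw [← hGV.symm.index_eq_card]; exact hidx
  obtain ⟨H, hH⟩ : ∃ H : Subgroup X, H = G ⊓ Subgroup.centralizer ({v} : Set X) := ⟨_, rfl⟩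
  rw [← hH] at hab
  haveI := Fintype.ofFinite H
  have hHG : H ≤ G := by rw [hH]; exact inf_le_left
  have hHp : ¬ p ∣ Nat.card H := fun h => hpG (h.trans (Subgroup.card_dvd_of_le hHG))
  have hHab' : ∀ a b : H, a * b = b * a := fun a b => Subtype.ext (hab a a.2 b b.2)
  obtain ⟨B, hB, hsep⟩ := knorr_ind (N := Nat.card X) V hVp hVab H hab hHp (Nat.card V) V rfl le_rfl
    (fun h _ w hw => Subgroup.Normal.conj_mem inferInstance w hw h)
  have hBtop : B = ⊤ := by
    apply dl_top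
    intro h hh
    have h1 := hsep h hh
    have h2 : (h : X) ∈ Subgroup.centralizer (V : Set X) := Subgroup.mem_centralizer_iff.2 fun w hw => (h1 w hw).symm
    rw [hself] at h2
    have h3 : (h : X) ∈ V ⊓ G := Subgroup.mem_inf.2 ⟨h2, hHG h.2⟩
    rw [hGV.disjoint.eq_bot, Subgroup.mem_bot] at h3
    exact Subtype.ext h3
  subst hBtop
  have hφ : (0 : ℝ) < (Fintype.card (ZMod (Nat.card X))ˣ : ℝ) := by exact_mod_cast Fintype.card_pos
  have hHpos : (0 : ℝ) < (Nat.card H : ℝ) := by exact_mod_cast Nat.card_pos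
  have hcomm : ∀ h ∈ H, h * v = v * h := fun h hh => by
    rw [hH] at hh
    exact Subgroup.mem_centralizer_singleton_iff.1 (Subgroup.mem_inf.1 hh).2
  have h1 : ∀ χ : IrrCharacter X, (Nat.card H : ℝ) * (Fintype.card (ZMod (Nat.card X))ˣ : ℝ) * (Nat.card H : ℝ) ≤
      ∑ k : (ZMod (Nat.card X))ˣ, ∑ h : H, (Nat.card V : ℝ) / (Nat.card ↥(V ⊓ Subgroup.centralizer {(h : X)}) : ℝ) *
        ‖(χ : X → ℂ) (v ^ (k : ZMod (Nat.card X)).val * h)‖ ^ 2 := by
    intro χ
    have h2 := hB (aX H v (Nat.card X) χ) (fun φ => aX_mem H v hcomm (IsIrr.isCharacter χ.2) φ)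
    have h3 : Tf (⊤ : Subgroup (Dl H)) (aX H v (Nat.card X) χ) = Finset.univ := by
      rw [Finset.eq_univ_iff_forall]
      intro φ
      rw [mem_Tf]
      obtain ⟨ψ, hψ⟩ : ∃ ψ, aX H v (Nat.card X) (χ : X → ℂ) ψ ≠ 0 := by
        by_contra hcon
        push Not at hcon
        have h4 := Dv_aX H hHab' v (χ : X → ℂ) 1 1
        have h5 : Dv (aX H v (Nat.card X) (χ : X → ℂ)) 1 (1 : H) = 0 := by
          unfold Dv
          exact Finset.sum_eq_zero fun ψ _ => by rw [hcon ψ]; simp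
        rw [h5, OneMemClass.coe_one, mul_one] at h4
        exact nonvanish_on_V V hVp hidx hVab χ.2 (V.pow_mem hv _) h4.symm
      exact ⟨φ * ψ⁻¹, Subgroup.mem_top _, ψ, hψ, by rw [inv_mul_cancel_right]⟩
    have h6 : ((Finset.univ : Finset (Dl H)).card : ℝ) = (Nat.card H : ℝ) := by
      rw [Finset.card_univ, ← Nat.card_eq_fintype_card, dl_card hHab']
    rw [h3, h6] at h2
    refine h2.trans (le_of_eq ?_)
    unfold Fw
    refine Finset.sum_congr rfl fun k _ => Finset.sum_congr rfl fun h _ => ?_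
    rw [Dv_aX H hHab' v (χ : X → ℂ) k h]
  have h2 := Finset.sum_le_sum (fun χ (_ : χ ∈ (Finset.univ : Finset (IrrCharacter X))) => h1 χ)
  rw [Finset.sum_const, Finset.card_univ, nsmul_eq_mul, Finset.sum_comm, ← Nat.card_eq_fintype_card, card_irr] at h2
  have h3 : ∑ k : (ZMod (Nat.card X))ˣ, ∑ χ : IrrCharacter X, ∑ h : H, (Nat.card V : ℝ) / (Nat.card ↥(V ⊓ Subgroup.centralizer {(h : X)}) : ℝ) *
        ‖(χ : X → ℂ) (v ^ (k : ZMod (Nat.card X)).val * h)‖ ^ 2 ≤ (Fintype.card (ZMod (Nat.card X))ˣ : ℝ) * ((Nat.card H : ℝ) * ((Nat.card V : ℝ) * (Nat.card H : ℝ))) := by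
    have h4 : ∀ k : (ZMod (Nat.card X))ˣ, ∑ χ : IrrCharacter X, ∑ h : H, (Nat.card V : ℝ) / (Nat.card ↥(V ⊓ Subgroup.centralizer {(h : X)}) : ℝ) *
        ‖(χ : X → ℂ) (v ^ (k : ZMod (Nat.card X)).val * h)‖ ^ 2 ≤ (Nat.card H : ℝ) * ((Nat.card V : ℝ) * (Nat.card H : ℝ)) := by
      intro k
      rw [Finset.sum_comm]
      have h5 : ∀ h : H, ∑ χ : IrrCharacter X, (Nat.card V : ℝ) / (Nat.card ↥(V ⊓ Subgroup.centralizer {(h : X)}) : ℝ) *
          ‖(χ : X → ℂ) (v ^ (k : ZMod (Nat.card X)).val * h)‖ ^ 2 ≤ (Nat.card V : ℝ) * (Nat.card H : ℝ) := by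
        intro h
        rw [← Finset.mul_sum, sum_sq_centralizer]
        have h6 := card_cent_le V G hVexp hVab hGV hpG v hv (by rw [← hH]; exact hab) (unit_val_coprime k) (h := (h : X)) (by rw [← hH]; exact h.2)
        rw [← hH] at h6
        have h7 : (Nat.card (Subgroup.centralizer ({v ^ (k : ZMod (Nat.card X)).val * (h : X)} : Set X)) : ℝ) ≤
          (Nat.card ↥(V ⊓ Subgroup.centralizer {(h : X)}) : ℝ) * (Nat.card H : ℝ) := by exact_mod_cast h6
        have hpos : (0 : ℝ) < (Nat.card ↥(V ⊓ Subgroup.centralizer {(h : X)}) : ℝ) := by exact_mod_cast Nat.card_pos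
        refine (mul_le_mul_of_nonneg_left h7 (by positivity)).trans (le_of_eq ?_)
        field_simp
      refine (Finset.sum_le_sum fun h _ => h5 h).trans (le_of_eq ?_)
      rw [Finset.sum_const, Finset.card_univ, nsmul_eq_mul, ← Nat.card_eq_fintype_card]
    refine (Finset.sum_le_sum fun k _ => h4 k).trans (le_of_eq ?_)
    rw [Finset.sum_const, Finset.card_univ, nsmul_eq_mul]
  have h4 := h2.trans h3
  have h5 : (Nat.card (ConjClasses X) : ℝ) * ((Nat.card H : ℝ) * (Fintype.card (ZMod (Nat.card X))ˣ : ℝ) * (Nat.card H : ℝ)) ≤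
      (Nat.card V : ℝ) * ((Nat.card H : ℝ) * (Fintype.card (ZMod (Nat.card X))ˣ : ℝ) * (Nat.card H : ℝ)) := by
    refine h4.trans (le_of_eq ?_)
    ring
  have h6 := le_of_mul_le_mul_right h5 (by positivity)
  exact_mod_cast h6

end

end CfsgH5
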