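import Mathlib
import Cfsg.Agent.H5.BSd
import Cfsg.Agent.H5.Third

/-!
# Characters vanishing on the elements of order p
-/

set_option autoImplicit false
open scoped ComplexConjugate
open Cfsg MonoidAlgebra
open CfsgH4 hiding centralChar sum_conj

namespace CfsgH5

variable {G : Type*} [Group G] [Finite G] {p : ℕ} [hp : Fact p.Prime] {M : Ideal AlgInt}

/-- translation invariant sums -/
theorem translate_sum [Fintype G] (hM : IsPModular p M) {z : G} (hz1 : z ≠ 1) (hz : ∃ k, orderOf z = p ^ k) (f : G → ℂ)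
    (hf : ∀ x, f (x * z) = f x) (hT : ∀ x, MemLocalRing M (f x)) : MemLocalIdeal M (∑ x : G, f x) := by
  classical
  haveI := IsPModular.isPrime hM
  letI act : MulAction (Subgroup.zpowers z) G :=
    { smul := fun k x => x * (k : G)⁻¹
      one_smul := fun x => by show x * ((1 : Subgroup.zpowers z) : G)⁻¹ = x; simp
      mul_smul := fun a b x => by
        show x * ((a * b : Subgroup.zpowers z) : G)⁻¹ = x * (b : G)⁻¹ * (a : G)⁻¹
        simp [mul_assoc] }
  have hf' : ∀ (k : Subgroup.zpowers z) (x : G), f (k • x) = f x := by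
    intro k x
    show f (x * (k : G)⁻¹) = f x
    have key : ∀ n : ℕ, ∀ x, f (x * z ^ n) = f x := by
      intro n
      induction n with
      | zero => intro x; simp
      | succ n ih => intro x; rw [pow_succ, ← mul_assoc, hf, ih]
    have h1 : (k : G)⁻¹ ∈ Subgroup.zpowers z := inv_mem k.2
    rw [← mem_powers_iff_mem_zpowers] at h1
    obtain ⟨n, hn⟩ := h1
    rw [← show z ^ n = (k : G)⁻¹ from hn, key]
  obtain ⟨t, ht, h⟩ := orbit_sum (isPGroup_zpowers hz) f hf' (locRing M).toAddSubgroup hT
  rw [h, Finset.sum_eq_zero, zero_add, nsmul_eq_mul]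
  · exact MemLocalIdeal.mul_right (memLocalIdeal_p hM) ht
  · intro x _
    rw [if_neg]
    intro hx
    have h1 : x * ((⟨z, Subgroup.mem_zpowers z⟩ : Subgroup.zpowers z) : G)⁻¹ = x := hx ⟨z, Subgroup.mem_zpowers z⟩
    apply hz1
    simpa using h1

open Classical in
/-- the sum of the solutions of `x ^ p = 1` -/
noncomputable def solA (p : ℕ) (G : Type*) [Group G] [Finite G] : MonoidAlgebra ℂ G := mkA fun x => if x ^ p = 1 then 1 else 0

open Classical in
theorem coeff_solA (x : G) : (solA p G).coeff x = if x ^ p = 1 then 1 else 0 := rfl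

theorem isCen_solA : IsCen (solA p G) := by
  classical
  intro x g
  rw [coeff_solA, coeff_solA, conj_pow]
  have h : x * g ^ p * x⁻¹ = 1 ↔ g ^ p = 1 := by
    rw [mul_inv_eq_one]
    constructor
    · intro h; simpa using h
    · intro h; rw [h, mul_one]
  simp only [h]

theorem inS_solA [hMp : M.IsPrime] : InS M (solA p G) := by
  classical
  intro x
  rw [coeff_solA]
  split_ifs
  · exact memLocalRing_one
  · exact memLocalRing_zero

theorem om_solA {χ : G → ℂ} (hχ : IsIrrCharacter G χ) (hvan : ∀ g : G, orderOf g = p → χ g = 0) : om χ (solA p G) = 1 := by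
  classical
  haveI := Fintype.ofFinite G
  rw [om, ev_eq_sum, Finset.sum_eq_single 1]
  · rw [coeff_solA, one_pow, if_pos rfl, one_mul, div_self (IsIrr.one_ne_zero hχ)]
  · intro x _ hx
    rw [coeff_solA]
    by_cases h : x ^ p = 1
    · rw [hvan x (orderOf_eq_prime h hx), mul_zero]
    · rw [if_neg h, zero_mul]
  · intro h; exact absurd (Finset.mem_univ _) h

theorem cutA_solA_sq (hM : IsPModular p M) {D : Subgroup G} (hD : IsPGroup p D) (hne : D ≠ ⊥) :
    InP M (cutA D (solA p G) * cutA D (solA p G)) := by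
  classical
  haveI := IsPModular.isPrime hM
  haveI := Fintype.ofFinite G
  -- a central element of order p
  haveI : Nontrivial D := (Subgroup.nontrivial_iff_ne_bot D).2 hne
  haveI := hD.center_nontrivial
  obtain ⟨w, hw⟩ := exists_ne (1 : Subgroup.center D)
  obtain ⟨z, hzD, hz1, hzp, hzc⟩ : ∃ z ∈ D, z ≠ 1 ∧ z ^ p = 1 ∧ ∀ d ∈ D, z * d = d * z := by
    obtain ⟨k, hk⟩ := hD (w : D)
    obtain ⟨m, -, hm⟩ := (Nat.dvd_prime_pow hp.out).1 (orderOf_dvd_of_pow_eq_one hk)
    have hm0 : m ≠ 0 := by
      rintro rfl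
      rw [pow_zero, orderOf_eq_one_iff] at hm
      exact hw (Subtype.ext hm)
    refine ⟨(((w : D) ^ p ^ (m - 1) : D) : G), SetLike.coe_mem _, ?_, ?_, ?_⟩
    · intro h
      have h1 : (w : D) ^ p ^ (m - 1) = 1 := Subtype.ext h
      have h2 := orderOf_dvd_of_pow_eq_one h1
      rw [hm, Nat.pow_dvd_pow_iff_le_right hp.out.one_lt] at h2
      omega
    · have h1 : ((w : D) ^ p ^ (m - 1)) ^ p = 1 := by
        rw [← pow_mul, ← pow_succ, Nat.sub_add_cancel (Nat.pos_of_ne_zero hm0), ← hm, pow_orderOf_eq_one]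
      exact congrArg Subtype.val h1
    · intro d hd
      have h1 : (w : D) ^ p ^ (m - 1) ∈ Subgroup.center D := pow_mem w.2 _
      exact (congrArg Subtype.val (Subgroup.mem_center_iff.1 h1 ⟨d, hd⟩)).symm
  have hzC : z ∈ Subgroup.centralizer (D : Set G) := by
    rw [Subgroup.mem_centralizer_iff]; intro d hd; exact (hzc d hd).symm
  have hzo : orderOf z = p := orderOf_eq_prime hzp hz1
  -- invariance
  have hinv : ∀ x : G, (cutA D (solA p G)).coeff (x * z) = (cutA D (solA p G)).coeff x := by
    intro x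
    rw [coeff_cutA, coeff_cutA]
    have h1 : x * z ∈ Subgroup.centralizer (D : Set G) ↔ x ∈ Subgroup.centralizer (D : Set G) :=
      Subgroup.mul_mem_cancel_right _ hzC
    by_cases hx : x ∈ Subgroup.centralizer (D : Set G)
    · rw [if_pos (h1.2 hx), if_pos hx, coeff_solA, coeff_solA]
      have h2 : Commute x z := ((Subgroup.mem_centralizer_iff.1 hx) z hzD).symm
      rw [h2.mul_pow, hzp, mul_one]
    · rw [if_neg (fun h => hx (h1.1 h)), if_neg hx]
  have hinv' : ∀ x : G, (cutA D (solA p G)).coeff (z⁻¹ * x) = (cutA D (solA p G)).coeff x := by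
    intro x
    by_cases hx : x ∈ Subgroup.centralizer (D : Set G)
    · have h2 : z⁻¹ * x = x * z⁻¹ := by
        have : Commute x z := ((Subgroup.mem_centralizer_iff.1 hx) z hzD).symm
        exact this.symm.inv_left.eq
      have h3 := hinv (x * z⁻¹)
      rw [inv_mul_cancel_right] at h3
      rw [h2, h3]
    · have hx' : z⁻¹ * x ∉ Subgroup.centralizer (D : Set G) := fun h => hx ((Subgroup.mul_mem_cancel_left _ (inv_mem hzC)).1 h)
      rw [coeff_cutA, coeff_cutA, if_neg hx, if_neg hx']
  intro g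
  rw [coeff_mul_left]
  refine translate_sum hM hz1 ⟨1, by rw [hzo, pow_one]⟩ _ (fun x => ?_) (fun x => ?_)
  · rw [hinv, mul_inv_rev, mul_assoc, hinv']
  · exact MemLocalRing.mul (inS_cutA inS_solA x) (inS_cutA inS_solA _)

theorem knorr {χ : IrrCharacter G} (hvan : ∀ g : G, orderOf g = p → (χ : G → ℂ) g = 0) :
    (charDegree (χ : G → ℂ)).factorization p = (Nat.card G).factorization p := by
  classical
  obtain ⟨M, hM⟩ := exists_isPModular p
  haveI := IsPModular.isPrime hM
  obtain ⟨D, hD⟩ := exists_defectGroup hM (isPBlock_blockOf (M := M) χ)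
  have hχ := mem_blockOf_self (M := M) χ
  have hDb : D = ⊥ := by
    by_contra hne
    have h1 := om_solA χ.2 hvan
    have hX2 : IsCen (solA p G * solA p G) := isCen_solA.mul isCen_solA
    have hX2S : InS M (solA p G * solA p G) := inS_solA.mul inS_solA
    have h2 : ¬ MemLocalIdeal M (om (χ : G → ℂ) (solA p G * solA p G)) := by
      rw [om_mul χ.2 isCen_solA, h1, one_mul]
      exact not_memLocalIdeal_one
    obtain ⟨g, hg1, hg2⟩ := exists_class (B := blockOf M (χ : G → ℂ)) hX2 hX2S h2
    obtain ⟨x, hx, hDx⟩ := defect_le_centralizer hM (isPBlock_blockOf χ) hD hχ hg2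
    apply hg1
    rw [hX2.eq_of_isConj hx]
    have h3 := cutA_mul hM (IsDefectGroup.isPGroup hD) (isCen_solA (p := p)) (inS_solA (M := M) (p := p) (G := G)) (isCen_solA (p := p)) (inS_solA (p := p)) x
    have h4 := cutA_solA_sq hM (IsDefectGroup.isPGroup hD) hne x
    have h5 := MemLocalIdeal.add h3 h4
    rw [coeff_sub, Finsupp.sub_apply, sub_add_cancel, coeff_cutA, if_pos (le_centralizer_singleton_iff.1 hDx)] at h5
    exact h5
  obtain ⟨y, hy, hyD⟩ := isDefectGroup_iff.1 hD
  rw [hDb] at hyD
  have h1 := hyD.2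
  rw [Subgroup.card_bot] at h1
  have h2 : (Nat.card (Subgroup.centralizer ({y} : Set G))).factorization p = 0 := by
    by_contra h3
    exact (Nat.one_lt_pow h3 hp.out.one_lt).ne h1
  have h3 := index_factorization (p := p) (Subgroup.centralizer ({y} : Set G))
  have h4 := degree_ge hM (hy.2.2 χ hχ)
  have h5 : (charDegree (χ : G → ℂ)).factorization p ≤ (Nat.card G).factorization p :=
    (Nat.factorization_le_iff_dvd (charDegree_ne_zero χ) Nat.card_pos.ne').2 (charDegree_dvd χ) p
  omega

end CfsgH5
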