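import Cfsg.Agent.H5.ItoM2
import Cfsg.Agent.H5.Kuls

/-!
# Sums of squares over the principal block
-/

set_option autoImplicit false
open Cfsg MonoidAlgebra
open CfsgH4 hiding centralChar sum_conj regInner_symm

namespace CfsgH5

open scoped ComplexConjugate

universe u

variable {p : ℕ} [hp : Fact p.Prime] {M : Ideal AlgInt}

section L1

variable {G : Type u} [Group G] [Finite G]

theorem mem_principal_iff_om (hM : IsPModular p M) (χ : IrrCharacter G) :
    χ ∈ principalBlock M G ↔ om (χ : G → ℂ) (regA p G) ≠ 0 := by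
  haveI := IsPModular.isPrime hM
  constructor
  · intro h h0
    have h1 := om_regA hM h
    rw [h0, zero_sub] at h1
    have h2 := MemLocalIdeal.neg h1
    rw [neg_neg, memLocalIdeal_natCast_iff hM] at h2
    exact not_dvd_card_regular (G := G) hM h2
  · intro h
    by_contra hc
    exact h (om_regA_zero hM hc)

/-- the Galois action on irreducible characters -/
noncomputable def galI (σ : ℂ ≃+* ℂ) (χ : IrrCharacter G) : IrrCharacter G :=
  ⟨fun x => σ ((χ : G → ℂ) x), isIrrCharacter_aut σ χ.2⟩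

theorem galI_apply (σ : ℂ ≃+* ℂ) (χ : IrrCharacter G) (x : G) :
    (galI σ χ : G → ℂ) x = σ ((χ : G → ℂ) x) := rfl

noncomputable def galE (σ : ℂ ≃+* ℂ) : IrrCharacter G ≃ IrrCharacter G :=
  ⟨galI σ, galI σ.symm, fun χ => Subtype.ext (funext fun x => by
    show σ.symm (σ _) = _
    rw [RingEquiv.symm_apply_apply]), fun χ => Subtype.ext (funext fun x => by
    show σ (σ.symm _) = _
    rw [RingEquiv.apply_symm_apply])⟩

theorem om_galI (σ : ℂ ≃+* ℂ) (χ : IrrCharacter G) :
    om (galI σ χ : G → ℂ) (regA p G) = σ (om (χ : G → ℂ) (regA p G)) := by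
  classical
  haveI : Fintype G := Fintype.ofFinite _
  rw [om, om, ev_eq_sum, ev_eq_sum, map_div₀, map_sum]
  congr 1
  refine Finset.sum_congr rfl fun g _ => ?_
  rw [map_mul, coeff_regA, galI_apply]
  split_ifs <;> simp

theorem galI_principal (hM : IsPModular p M) (σ : ℂ ≃+* ℂ) (χ : IrrCharacter G) :
    galI σ χ ∈ principalBlock M G ↔ χ ∈ principalBlock M G := by
  rw [mem_principal_iff_om hM, mem_principal_iff_om hM, om_galI]
  rw [Ne, Ne, EmbeddingLike.map_eq_zero_iff]

theorem lam_int (hM : IsPModular p M) (x : G) : ∃ n : ℕ, 0 < n ∧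
    ∑ᶠ χ ∈ principalBlock M G, Complex.normSq ((χ : G → ℂ) x) = n := by
  classical
  haveI := IsPModular.isPrime hM
  haveI : Fintype G := Fintype.ofFinite _
  rw [finsum_set_eq]
  obtain ⟨S, hS⟩ : ∃ S : ℝ, S = ∑ χ ∈ Finset.univ.filter (· ∈ principalBlock M G),
    Complex.normSq ((χ : G → ℂ) x) := ⟨_, rfl⟩
  rw [← hS]
  have hpos : 0 < S := by
    rw [hS]
    refine Finset.sum_pos' (fun χ _ => Complex.normSq_nonneg _) ⟨irrOne G, ?_, ?_⟩
    · rw [Finset.mem_filter]; exact ⟨Finset.mem_univ _, irrOne_mem⟩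
    · show 0 < Complex.normSq 1
      simp
  have hSC : (S : ℂ) = ∑ χ ∈ Finset.univ.filter (· ∈ principalBlock M G),
      (χ : G → ℂ) x * (χ : G → ℂ) x⁻¹ := by
    rw [hS, Complex.ofReal_sum]
    refine Finset.sum_congr rfl fun χ _ => ?_
    rw [IsCharacter.inv_eq (IsIrr.isCharacter χ.2), Complex.mul_conj]
  have hint : IsIntegral ℤ (S : ℂ) := by
    rw [hSC]
    apply IsIntegral.sum
    intro χ _
    exact (IsCharacter.isIntegral (IsIrr.isCharacter χ.2) x).mul (IsCharacter.isIntegral (IsIrr.isCharacter χ.2) x⁻¹)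
  obtain ⟨q, hq⟩ := rat_of_fixed (α := (S : ℂ)) hint.tower_top (by
    intro σ
    rw [hSC, map_sum]
    rw [← Finset.sum_equiv (galE σ) (s := Finset.univ.filter (· ∈ principalBlock M G))
      (t := Finset.univ.filter (· ∈ principalBlock M G))
      (f := fun χ => σ ((χ : G → ℂ) x * (χ : G → ℂ) x⁻¹)) (g := fun χ => (χ : G → ℂ) x * (χ : G → ℂ) x⁻¹)]
    · intro χ
      rw [Finset.mem_filter, Finset.mem_filter]
      have := galI_principal hM σ χ
      exact ⟨fun h => ⟨Finset.mem_univ _, this.2 h.2⟩, fun h => ⟨Finset.mem_univ _, this.1 h.2⟩⟩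
    · intro χ _
      rw [map_mul]; rfl)
  obtain ⟨n, hn⟩ := int_of_isIntegral_rat hint hq
  have hn2 : S = (n : ℝ) := by
    have h1 : (S : ℂ) = ((n : ℝ) : ℂ) := by rw [hn]; push_cast; rfl
    exact_mod_cast h1
  have hn3 : 0 < n := by
    rw [hn2] at hpos
    exact_mod_cast hpos
  refine ⟨n.toNat, by omega, ?_⟩
  rw [hn2]
  have h4 : ((n.toNat : ℤ)) = n := Int.toNat_of_nonneg hn3.le
  have h5 : ((n.toNat : ℤ) : ℝ) = (n : ℝ) := by rw [h4]
  rw [← h5]; push_cast; rfl

/-- the principal block of `G` and of `G/O_{p'}(G)` -/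
theorem sum_principal_quot (hM : IsPModular p M) {A : Type*} [AddCommMonoid A] (F : IrrCharacter G → A) :
    ∑ᶠ χ ∈ principalBlock M G, F χ =
      ∑ᶠ ψ ∈ principalBlock M (G ⧸ pPrimeCore p G), F (inflI (pPrimeCore p G) ψ) := by
  classical
  haveI := IsPModular.isPrime hM
  haveI : Fintype G := Fintype.ofFinite _
  rw [finsum_set_eq, finsum_set_eq]
  symm
  refine Finset.sum_bij (fun χ' _ => inflI (pPrimeCore p G) χ') ?_ ?_ ?_ ?_
  · intro χ' hχ'
    rw [Finset.mem_filter] at hχ' ⊢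
    exact ⟨Finset.mem_univ _, sameBlock_infl (N := pPrimeCore p G) (χ := irrOne _) (ψ := χ') hχ'.2⟩
  · intro a _ b _ h
    exact inflI_injective _ h
  · intro χ hχ
    rw [Finset.mem_filter] at hχ
    obtain ⟨χ', h⟩ := exists_defl (pPrimeCore p G) (χ := χ) (fun n hn => principal_ker hM hχ.2 hn)
    refine ⟨χ', ?_, h.symm⟩
    rw [Finset.mem_filter]
    refine ⟨Finset.mem_univ _, ?_⟩
    have h1 : SameBlock M (inflI (pPrimeCore p G) (irrOne _) : G → ℂ) (inflI (pPrimeCore p G) χ' : G → ℂ) := by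
      rw [← h]
      exact hχ.2
    exact sameBlock_defl (pPrimeCore p G) hM (not_dvd_pPrimeCore hp.out) h1
  · intro a _; rfl

end L1

theorem s4735_main {G : Type u} [Group G] [Finite G] (hM : IsPModular p M) (x : G) :
    (∃ n : ℕ, 0 < n ∧ ∑ᶠ χ ∈ principalBlock M G, Complex.normSq ((χ : G → ℂ) x) = n) ∧
    ∑ᶠ χ ∈ principalBlock M G, Complex.normSq ((χ : G → ℂ) x) =
      ∑ᶠ ψ ∈ principalBlock M (G ⧸ pPrimeCore p G),
        Complex.normSq ((ψ : G ⧸ pPrimeCore p G → ℂ) (QuotientGroup.mk x)) ∧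
    ∑ᶠ χ ∈ principalBlock M G, Complex.normSq ((χ : G → ℂ) x) ≤
      (Nat.card ↥(Subgroup.centralizer ({(QuotientGroup.mk x : G ⧸ pPrimeCore p G)} :
        Set (G ⧸ pPrimeCore p G))) : ℝ) ∧
    ((∑ᶠ χ ∈ principalBlock M G, charDegree (χ : G → ℂ) ^ 2) = (pPrimeCore p G).index ↔
      ∀ B : Set (IrrCharacter (G ⧸ pPrimeCore p G)), IsPBlock M B → B = principalBlock M (G ⧸ pPrimeCore p G)) := by
  classical
  haveI := IsPModular.isPrime hM
  haveI : Fintype G := Fintype.ofFinite _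
  haveI : Fintype (G ⧸ pPrimeCore p G) := Fintype.ofFinite _
  have h2 : ∑ᶠ χ ∈ principalBlock M G, Complex.normSq ((χ : G → ℂ) x) =
      ∑ᶠ ψ ∈ principalBlock M (G ⧸ pPrimeCore p G),
        Complex.normSq ((ψ : G ⧸ pPrimeCore p G → ℂ) (QuotientGroup.mk x)) :=
    sum_principal_quot (G := G) hM (fun χ : IrrCharacter G => Complex.normSq ((χ : G → ℂ) x))
  refine ⟨lam_int hM x, h2, ?_, ?_⟩
  · rw [h2, finsum_set_eq]
    have h3 : (∑ χ : IrrCharacter (G ⧸ pPrimeCore p G),
        Complex.normSq ((χ : G ⧸ pPrimeCore p G → ℂ) (QuotientGroup.mk x)) : ℝ) =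
        (Nat.card ↥(Subgroup.centralizer ({(QuotientGroup.mk x : G ⧸ pPrimeCore p G)} :
        Set (G ⧸ pPrimeCore p G))) : ℝ) := by
      have h4 := col_orth_isConj (IsConj.refl (QuotientGroup.mk x : G ⧸ pPrimeCore p G))
      have h5 : ((∑ χ : IrrCharacter (G ⧸ pPrimeCore p G),
        Complex.normSq ((χ : G ⧸ pPrimeCore p G → ℂ) (QuotientGroup.mk x)) : ℝ) : ℂ) =
        ((Nat.card ↥(Subgroup.centralizer ({(QuotientGroup.mk x : G ⧸ pPrimeCore p G)} :
        Set (G ⧸ pPrimeCore p G))) : ℝ) : ℂ) := by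
        rw [Complex.ofReal_natCast, ← h4, Complex.ofReal_sum]
        exact Finset.sum_congr rfl fun χ _ => (Complex.mul_conj _).symm
      exact_mod_cast h5
    rw [← h3]
    exact Finset.sum_le_sum_of_subset_of_nonneg (Finset.filter_subset _ _)
      (fun χ _ _ => Complex.normSq_nonneg _)
  · have h3 : (∑ᶠ χ ∈ principalBlock M G, charDegree (χ : G → ℂ) ^ 2) =
        ∑ᶠ ψ ∈ principalBlock M (G ⧸ pPrimeCore p G), charDegree (ψ : G ⧸ pPrimeCore p G → ℂ) ^ 2 :=
      sum_principal_quot (G := G) hM (fun χ : IrrCharacter G => charDegree (χ : G → ℂ) ^ 2)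
    rw [h3, finsum_set_eq]
    have h4 := sum_deg_sq (G := G ⧸ pPrimeCore p G)
    have h5 := Finset.sum_filter_add_sum_filter_not (Finset.univ : Finset (IrrCharacter (G ⧸ pPrimeCore p G)))
      (· ∈ principalBlock M (G ⧸ pPrimeCore p G)) (fun χ => charDegree (χ : G ⧸ pPrimeCore p G → ℂ) ^ 2)
    rw [h4] at h5
    have hidx : (pPrimeCore p G).index = Nat.card (G ⧸ pPrimeCore p G) := rfl
    rw [hidx]
    constructor
    · intro h6
      have h7 : ∑ χ ∈ Finset.univ.filter (fun χ => ¬ χ ∈ principalBlock M (G ⧸ pPrimeCore p G)),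
          charDegree (χ : G ⧸ pPrimeCore p G → ℂ) ^ 2 = 0 := by omega
      have hall : ∀ χ : IrrCharacter (G ⧸ pPrimeCore p G), χ ∈ principalBlock M (G ⧸ pPrimeCore p G) := by
        intro χ
        by_contra hc
        have h8 := (Finset.sum_eq_zero_iff.1 h7) χ (by rw [Finset.mem_filter]; exact ⟨Finset.mem_univ _, hc⟩)
        have h9 := (IsIrr.one_eq χ.2).2
        have h10 : charDegree (χ : G ⧸ pPrimeCore p G → ℂ) = 0 := by
          exact pow_eq_zero_iff (two_ne_zero) |>.1 h8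
        omega
      intro B hB
      obtain ⟨χ, hχ⟩ := IsPBlock.nonempty hB
      have hP : IsPBlock M (principalBlock M (G ⧸ pPrimeCore p G)) := isPBlock_principalBlock
      ext ψ
      constructor
      · intro _; exact hall ψ
      · intro h8
        rw [IsPBlock.mem_iff hB hχ, ← IsPBlock.mem_iff hP (hall χ)]
        exact h8
    · intro h6
      have h7 : Finset.univ.filter (fun χ => ¬ χ ∈ principalBlock M (G ⧸ pPrimeCore p G)) = ∅ := by
        rw [Finset.filter_eq_empty_iff]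
        intro χ _
        rw [not_not, ← h6 _ (isPBlock_blockOf χ)]
        exact sameBlock_refl _
      rw [h7, Finset.sum_empty, add_zero] at h5
      exact h5

end CfsgH5
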