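import Mathlib
import Cfsg.Agent.H5.Contr

/-!
# Landau's theorem and the bound `k(B) ≤ p ^ (2 d)`
-/

set_option autoImplicit false

open Cfsg MonoidAlgebra
open CfsgH4 hiding centralChar sum_conj

namespace CfsgH5

/-- Egyptian fractions with `k` terms and given sum are bounded -/
theorem egyptian (k : ℕ) : ∀ q : ℚ, ∃ N : ℕ, ∀ s : Multiset ℕ, s.card = k → (∀ n ∈ s, 0 < n) →
    (s.map (fun n : ℕ => (1 : ℚ) / n)).sum = q → ∀ n ∈ s, n ≤ N := by
  induction k with
  | zero =>
    intro q
    refine ⟨0, fun s hs _ _ n hn => ?_⟩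
    rw [Multiset.card_eq_zero] at hs
    rw [hs] at hn
    exact absurd hn (Multiset.notMem_zero n)
  | succ k ih =>
    intro q
    choose N hN using ih
    set m0 := ⌊((k : ℚ) + 1) / q⌋₊ with hm0
    refine ⟨m0 + ∑ j ∈ Finset.range (m0 + 1), N (q - 1 / (j : ℚ)), fun s hs hpos hsum n hn => ?_⟩
    have hs0 : s ≠ 0 := by rintro rfl; simp at hs
    have hqpos : 0 < q := by
      rw [← hsum]
      obtain ⟨a, ha⟩ := Multiset.exists_mem_of_ne_zero hs0
      obtain ⟨t, rfl⟩ := Multiset.exists_cons_of_mem ha
      rw [Multiset.map_cons, Multiset.sum_cons]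
      have h1 : (0 : ℚ) < 1 / (a : ℚ) := by
        have : (0 : ℚ) < a := by exact_mod_cast hpos a ha
        positivity
      have h2 : 0 ≤ (t.map (fun n : ℕ => (1 : ℚ) / n)).sum := by
        apply Multiset.sum_nonneg
        intro x hx
        obtain ⟨y, -, rfl⟩ := Multiset.mem_map.1 hx
        positivity
      linarith
    -- a small element
    obtain ⟨a, ha, ha2⟩ : ∃ a ∈ s, q / (k + 1) ≤ (1 : ℚ) / a := by
      by_contra hcon
      push Not at hcon
      have h1 : (s.map (fun n : ℕ => (1 : ℚ) / n)).sum < (s.map (fun _ : ℕ => q / (k + 1))).sum := by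
        apply Multiset.sum_lt_sum_of_nonempty hs0
        intro i hi
        exact hcon i hi
      rw [hsum, Multiset.map_const', Multiset.sum_replicate, hs, nsmul_eq_mul] at h1
      push_cast at h1
      have : ((k : ℚ) + 1) * (q / (k + 1)) = q := by field_simp
      rw [this] at h1
      exact lt_irrefl _ h1
    have ham : a ≤ m0 := by
      have hapos : (0 : ℚ) < a := by exact_mod_cast hpos a ha
      have hk : (0 : ℚ) < (k : ℚ) + 1 := by positivity
      rw [hm0, Nat.le_floor_iff (by positivity), le_div_iff₀ hqpos]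
      rw [div_le_div_iff₀ hk hapos] at ha2
      linarith
    obtain ⟨t, rfl⟩ := Multiset.exists_cons_of_mem ha
    rcases Multiset.mem_cons.1 hn with rfl | hnt
    · omega
    · have h1 : n ≤ N (q - 1 / (a : ℚ)) := by
        apply hN (q - 1 / (a : ℚ)) t
        · rw [Multiset.card_cons] at hs; omega
        · exact fun x hx => hpos x (Multiset.mem_cons_of_mem hx)
        · rw [Multiset.map_cons, Multiset.sum_cons] at hsum
          linarith
        · exact hnt
      have h2 : N (q - 1 / (a : ℚ)) ≤ ∑ j ∈ Finset.range (m0 + 1), N (q - 1 / (j : ℚ)) :=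
        Finset.single_le_sum (f := fun j : ℕ => N (q - 1 / (j : ℚ))) (fun _ _ => Nat.zero_le _)
          (Finset.mem_range.2 (by omega))
      omega

/-- Landau: finitely many groups with a given number of conjugacy classes -/
theorem landau (k : ℕ) : ∃ N : ℕ, ∀ (G : Type*) [Group G] [Finite G], Nat.card (ConjClasses G) ≤ k →
    Nat.card G ≤ N := by
  choose N hN using fun j => egyptian j 1
  refine ⟨∑ j ∈ Finset.range (k + 1), N j, fun G _ _ hk => ?_⟩
  classical
  haveI := Fintype.ofFinite G
  haveI := Fintype.ofFinite (ConjClasses G)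
  have hG : (Nat.card G : ℚ) ≠ 0 := by exact_mod_cast Nat.card_pos.ne'
  let s : Multiset ℕ := (Finset.univ : Finset (ConjClasses G)).val.map
    fun K => Nat.card (Subgroup.centralizer ({K.out} : Set G))
  have hcls : ∀ K : ConjClasses G, (Nat.card {x : G // ConjClasses.mk x = K} : ℚ) / Nat.card G =
      1 / (Nat.card (Subgroup.centralizer ({K.out} : Set G)) : ℚ) := by
    intro K
    have h1 : Nat.card {x : G // ConjClasses.mk x = K} = (Subgroup.centralizer ({K.out} : Set G)).index := by
      rw [← card_isConj]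
      apply Nat.card_congr
      apply Equiv.subtypeEquivRight
      intro x
      have e : ConjClasses.mk K.out = K := Quotient.out_eq K
      constructor
      · intro hx
        rw [← ConjClasses.mk_eq_mk_iff_isConj, e, hx]
      · intro hx
        rw [← ConjClasses.mk_eq_mk_iff_isConj, e] at hx
        exact hx.symm
    rw [h1, ← Subgroup.card_mul_index (Subgroup.centralizer ({K.out} : Set G))]
    have h2 : (Nat.card (Subgroup.centralizer ({K.out} : Set G)) : ℚ) ≠ 0 := by exact_mod_cast Nat.card_pos.ne'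
    have h3 : ((Subgroup.centralizer ({K.out} : Set G)).index : ℚ) ≠ 0 := by
      exact_mod_cast (Subgroup.index_ne_zero_of_finite (H := Subgroup.centralizer ({K.out} : Set G)))
    push_cast
    field_simp
  have hsum : (s.map (fun n : ℕ => (1 : ℚ) / n)).sum = 1 := by
    rw [Multiset.map_map]
    show ∑ K : ConjClasses G, (1 : ℚ) / (Nat.card (Subgroup.centralizer ({K.out} : Set G)) : ℚ) = 1
    rw [Finset.sum_congr rfl fun K _ => (hcls K).symm, ← Finset.sum_div, div_eq_one_iff_eq hG]
    norm_cast
    rw [← Nat.card_sigma]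
    apply Nat.card_congr
    exact Equiv.sigmaFiberEquiv (fun x : G => ConjClasses.mk x)
  have h1 := hN s.card s rfl (by
    intro n hn
    obtain ⟨K, -, rfl⟩ := Multiset.mem_map.1 hn
    exact Nat.card_pos) hsum (Nat.card G) (by
    refine Multiset.mem_map.2 ⟨ConjClasses.mk 1, Finset.mem_univ _, ?_⟩
    have e : ConjClasses.mk (Quotient.out (ConjClasses.mk (1 : G))) = ConjClasses.mk (1 : G) := Quotient.out_eq _
    have h2 : (Quotient.out (ConjClasses.mk (1 : G)) : G) = 1 := by
      have := ConjClasses.mk_eq_mk_iff_isConj.1 e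
      exact isConj_one_left.1 this
    rw [h2]
    have h3 : Subgroup.centralizer ({1} : Set G) = ⊤ := by
      rw [Subgroup.eq_top_iff']; intro x; rw [Subgroup.mem_centralizer_singleton_iff]; simp
    rw [h3, Subgroup.card_top])
  have h2 : s.card = Nat.card (ConjClasses G) := by
    rw [Multiset.card_map, Finset.card_val, Finset.card_univ, Nat.card_eq_fintype_card]
  rw [h2] at h1
  exact h1.trans (Finset.single_le_sum (f := N) (fun _ _ => Nat.zero_le _) (Finset.mem_range.2 (by omega)))

section kB

variable {M : Ideal AlgInt} {p : ℕ} [hp : Fact p.Prime] {G : Type*} [Group G] [Finite G]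

/-- `k(B) ≤ p ^ (2 d)` -/
theorem card_block_le (hM : IsPModular p M) {B : Set (IrrCharacter G)} (hB : IsPBlock M B) :
    Nat.card B ≤ p ^ (2 * blockDefect p B) := by
  classical
  haveI := Fintype.ofFinite G
  haveI := IsPModular.isPrime hM
  obtain ⟨φ, hφ, hφ0⟩ := exists_height_zero p (B := B) (IsPBlock.nonempty hB)
  obtain ⟨A, hA0, hA1, hA2, hA3, hA4, hA5, hA6, hA7, hA8, hA9⟩ := contr hM hB hφ
  have h1 : (Nat.card B : ℤ) ≤ ∑ ψ : IrrCharacter G, A ψ ^ 2 := by
    haveI : Fintype B := Fintype.ofFinite B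
    rw [Nat.card_eq_fintype_card, ← Set.toFinset_card]
    calc (B.toFinset.card : ℤ) = ∑ i ∈ B.toFinset, 1 := by rw [Finset.sum_const, nsmul_eq_mul, mul_one]
      _ ≤ ∑ i ∈ B.toFinset, A i ^ 2 := Finset.sum_le_sum fun i hi => by
          have := sq_pos_of_ne_zero (hA9 hφ0 i (Set.mem_toFinset.1 hi))
          linarith
      _ ≤ ∑ i, A i ^ 2 := Finset.sum_le_sum_of_subset_of_nonneg (Finset.subset_univ _) fun i _ _ => sq_nonneg _
  have h2 : (Nat.card B : ℤ) ≤ (p : ℤ) ^ (2 * blockDefect p B) := by
    refine h1.trans ?_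
    rw [hA2, two_mul, pow_add]
    exact mul_le_mul_of_nonneg_left hA4 (by positivity)
  exact_mod_cast h2

end kB

end CfsgH5
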