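import Cfsg.Agent.H5.IndPair
import Cfsg.Prelude.Def_OddOrderLocal

/-!
# Normal `π'`-subgroups in kernels of blocks
-/

set_option autoImplicit false
open Cfsg MonoidAlgebra
open CfsgH4 hiding centralChar sum_conj

namespace CfsgH5

open scoped ComplexConjugate

section core

variable {G : Type*} [Group G] [Finite G]

/-- `K` is a `σ`-group -/
def IsSig (σ : Set ℕ) (K : Subgroup G) : Prop := ∀ q : ℕ, q.Prime → q ∣ Nat.card K → q ∈ σ

theorem IsSig.mono {σ : Set ℕ} {A B : Subgroup G} (h : IsSig σ B) (hAB : A ≤ B) : IsSig σ A :=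
  fun q hq hqA => h q hq (hqA.trans (Subgroup.card_dvd_of_le hAB))

theorem IsSig.sup {σ : Set ℕ} {A B : Subgroup G} (hA : IsSig σ A) (hB : IsSig σ B) [A.Normal] : IsSig σ (B ⊔ A) := by
  intro q hq hqd
  have h1 : Nat.card (B ⊔ A : Subgroup G) = Nat.card A * A.relIndex B := by
    rw [← Subgroup.relIndex_sup_right B A]
    have h2 := Subgroup.relIndex_mul_relIndex (⊥ : Subgroup G) A (B ⊔ A) bot_le le_sup_right
    rw [Subgroup.relIndex_bot_left, Subgroup.relIndex_bot_left] at h2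
    exact h2.symm
  rw [h1] at hqd
  rcases (Nat.Prime.dvd_mul hq).1 hqd with h2 | h2
  · exact hA q hq h2
  · exact hB q hq (h2.trans (Subgroup.relIndex_dvd_card A B))

theorem exists_max_core (σ : Set ℕ) (G : Type*) [Group G] [Finite G] : ∃ N : Subgroup G, N.Normal ∧ IsSig σ N ∧
    ∀ K : Subgroup G, K.Normal → IsSig σ K → K ≤ N := by
  classical
  have hne : ∃ N : Subgroup G, N.Normal ∧ IsSig σ N :=
    ⟨⊥, inferInstance, fun q hq h => absurd (by rwa [Subgroup.card_bot] at h) (fun h' => hq.one_lt.ne' (Nat.dvd_one.1 h'))⟩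
  obtain ⟨N, ⟨hN1, hN2⟩, hmax⟩ := Set.Finite.exists_maximalFor (fun N : Subgroup G => Nat.card N) {N : Subgroup G | N.Normal ∧ IsSig σ N}
    (Set.toFinite _) hne
  refine ⟨N, hN1, hN2, fun K hK1 hK2 => ?_⟩
  have h1 : (K ⊔ N : Subgroup G).Normal ∧ IsSig σ (K ⊔ N) := ⟨Subgroup.sup_normal K N, hN2.sup hK2⟩
  have h2 : Nat.card (K ⊔ N : Subgroup G) ≤ Nat.card N := hmax h1 (Subgroup.card_le_of_le le_sup_right)
  have h3 : N = K ⊔ N := Subgroup.eq_of_le_of_card_ge le_sup_right h2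
  rw [h3]; exact le_sup_left

theorem piCore_spec (σ : Set ℕ) (G : Type*) [Group G] [Finite G] : IsSig σ (piCore σ G) ∧
    ∀ K : Subgroup G, K.Normal → IsSig σ K → K ≤ piCore σ G := by
  obtain ⟨N, h1, h2, h3⟩ := exists_max_core σ G
  have h4 : piCore σ G = N := le_antisymm (sSup_le fun K hK => h3 K hK.1 hK.2) (le_sSup ⟨h1, h2⟩)
  rw [h4]; exact ⟨h2, h3⟩

theorem isSig_coreOf (σ : Set ℕ) (H : Subgroup G) : IsSig σ (piCoreOf σ H) := by
  intro q hq hqd
  rw [piCoreOf, Subgroup.card_map_of_injective H.subtype_injective] at hqd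
  exact (piCore_spec σ H).1 q hq hqd

theorem coreOf_le (σ : Set ℕ) (H : Subgroup G) : piCoreOf σ H ≤ H := Subgroup.map_subtype_le _

theorem le_coreOf {σ : Set ℕ} {H K : Subgroup G} (hKH : K ≤ H) (hn : H ≤ nz K) (hK : IsSig σ K) : K ≤ piCoreOf σ H := by
  have h1 : (K.subgroupOf H).Normal := Subgroup.normal_subgroupOf_of_le_normalizer hn
  have h2 : IsSig σ (K.subgroupOf H) := by
    intro q hq hqd
    rw [Nat.card_congr (Subgroup.subgroupOfEquivOfLe hKH).toEquiv] at hqd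
    exact hK q hq hqd
  have h3 := (piCore_spec σ H).2 _ h1 h2
  intro x hx
  exact ⟨⟨x, hKH hx⟩, h3 (Subgroup.mem_subgroupOf.2 hx), rfl⟩

theorem le_nz_coreOf (σ : Set ℕ) (H : Subgroup G) : H ≤ nz (piCoreOf σ H) := by
  intro x hx
  rw [Subgroup.mem_normalizer_iff]
  intro y
  constructor
  · rintro ⟨z, hz, rfl⟩
    exact ⟨⟨x, hx⟩ * z * ⟨x, hx⟩⁻¹, (inferInstance : (piCore σ H).Normal).conj_mem z hz ⟨x, hx⟩, rfl⟩
  · rintro ⟨z, hz, hzy⟩
    refine ⟨⟨x, hx⟩⁻¹ * z * ⟨x, hx⟩, ?_, ?_⟩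
    · have := (inferInstance : (piCore σ H).Normal).conj_mem z hz ⟨x, hx⟩⁻¹
      simpa using this
    · have h1 : (z : G) = x * y * x⁻¹ := hzy
      show x⁻¹ * (z : G) * x = y
      rw [h1]; group

theorem isSig_cj {σ : Set ℕ} {K : Subgroup G} (h : IsSig σ K) (x : G) : IsSig σ (cj x K) := by
  intro q hq hqd
  rw [card_cj] at hqd
  exact h q hq hqd

theorem cj_coreOf_le (σ : Set ℕ) (H : Subgroup G) (x : G) : cj x (piCoreOf σ H) ≤ piCoreOf σ (cj x H) := by
  refine le_coreOf (cj_mono (coreOf_le σ H)) ?_ (isSig_cj (isSig_coreOf σ H) x)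
  rw [nz_cj]
  exact cj_mono (le_nz_coreOf σ H)

theorem cj_coreOf (σ : Set ℕ) (H : Subgroup G) (x : G) : cj x (piCoreOf σ H) = piCoreOf σ (cj x H) := by
  refine le_antisymm (cj_coreOf_le σ H x) ?_
  have h1 := cj_coreOf_le σ (cj x H) x⁻¹
  have h2 : cj x⁻¹ (cj x H) = H := by rw [cj_cj, inv_mul_cancel, cj_one]
  rw [h2] at h1
  have h3 := cj_mono (x := x) h1
  rwa [cj_cj, mul_inv_cancel, cj_one] at h3

theorem nz_le_nz_coreOf (σ : Set ℕ) (H : Subgroup G) : nz H ≤ nz (piCoreOf σ H) := by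
  intro x hx
  have h1 : cj x H = H := cj_eq_of_mem_normalizer hx
  have h2 := cj_coreOf σ H x
  rw [h1] at h2
  rw [Subgroup.mem_normalizer_iff'']
  intro y
  rw [← mem_cj, h2]

end core

section eK

variable {G : Type*} [Group G] [Finite G] {k : Type*} [Field k] {p : ℕ} [hp : Fact p.Prime]

open Classical in
/-- the principal idempotent of a subgroup of order prime to `p` -/
noncomputable def eK (k : Type*) [Field k] (K : Subgroup G) : MonoidAlgebra k G := mkA fun g => if g ∈ K then ((Nat.card K : k))⁻¹ else 0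

open Classical in
omit hp in
theorem coeff_eK (K : Subgroup G) (g : G) : (eK k K).coeff g = if g ∈ K then ((Nat.card K : k))⁻¹ else 0 := rfl

omit hp in
theorem sup_eK {K H : Subgroup G} (h : K ≤ H) : Sup H (eK k K) := by
  intro g hg
  rw [coeff_eK, if_neg (fun h' => hg (h h'))]

omit hp in
theorem fx_eK {K N : Subgroup G} (h : N ≤ nz K) : Fx N (eK k K) := by
  intro x hx g
  rw [coeff_eK, coeff_eK]
  have h1 : x * g * x⁻¹ ∈ K ↔ g ∈ K := (Subgroup.mem_normalizer_iff.1 (h hx) g).symm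
  by_cases hg : g ∈ K
  · rw [if_pos hg, if_pos (h1.2 hg)]
  · rw [if_neg hg, if_neg (fun h' => hg (h1.1 h'))]

omit hp in
theorem ca_eK (x : G) (K : Subgroup G) : ca x (eK k K) = eK k (cj x K) := by
  refine algExt fun g => ?_
  rw [coeff_ca, coeff_eK, coeff_eK, card_cj]
  have h1 : x⁻¹ * g * x ∈ K ↔ g ∈ cj x K := mem_cj.symm
  by_cases hg : g ∈ cj x K
  · rw [if_pos hg, if_pos (h1.2 hg)]
  · rw [if_neg hg, if_neg (fun h' => hg (h1.1 h'))]

omit hp in
theorem eK_mul {A B : Subgroup G} (hAB : A ≤ B) (hA : (Nat.card A : k) ≠ 0) : eK k B * eK k A = eK k B := by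
  classical
  haveI := Fintype.ofFinite G
  refine algExt fun g => ?_
  rw [coeff_mul_right]
  have h1 : ∀ x : G, (eK k B).coeff (g * x⁻¹) * (eK k A).coeff x = if x ∈ A then (eK k B).coeff g * ((Nat.card A : k))⁻¹ else 0 := by
    intro x
    rw [coeff_eK A]
    split_ifs with hx
    · congr 1
      rw [coeff_eK, coeff_eK]
      have h2 : g * x⁻¹ ∈ B ↔ g ∈ B := B.mul_mem_cancel_right (B.inv_mem (hAB hx))
      by_cases hg : g ∈ B
      · rw [if_pos hg, if_pos (h2.2 hg)]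
      · rw [if_neg hg, if_neg (fun h' => hg (h2.1 h'))]
    · rw [mul_zero]
  rw [Finset.sum_congr rfl fun x _ => h1 x, ← Finset.sum_filter, Finset.sum_const, nsmul_eq_mul]
  have h2 : ((Finset.univ.filter (fun x : G => x ∈ A)).card : k) = (Nat.card A : k) := by
    rw [Nat.card_eq_fintype_card, Fintype.card_subtype]
  rw [h2, mul_left_comm, mul_inv_cancel₀ hA, mul_one]

omit hp in
theorem eK_mul' {A B : Subgroup G} (hAB : A ≤ B) (hA : (Nat.card A : k) ≠ 0) : eK k A * eK k B = eK k B := by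
  classical
  haveI := Fintype.ofFinite G
  refine algExt fun g => ?_
  rw [coeff_mul_left]
  have h1 : ∀ x : G, (eK k A).coeff x * (eK k B).coeff (x⁻¹ * g) = if x ∈ A then (eK k B).coeff g * ((Nat.card A : k))⁻¹ else 0 := by
    intro x
    rw [coeff_eK A]
    split_ifs with hx
    · rw [mul_comm]
      congr 1
      rw [coeff_eK, coeff_eK]
      have h2 : x⁻¹ * g ∈ B ↔ g ∈ B := B.mul_mem_cancel_left (B.inv_mem (hAB hx))
      by_cases hg : g ∈ B
      · rw [if_pos hg, if_pos (h2.2 hg)]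
      · rw [if_neg hg, if_neg (fun h' => hg (h2.1 h'))]
    · rw [zero_mul]
  rw [Finset.sum_congr rfl fun x _ => h1 x, ← Finset.sum_filter, Finset.sum_const, nsmul_eq_mul]
  have h2 : ((Finset.univ.filter (fun x : G => x ∈ A)).card : k) = (Nat.card A : k) := by
    rw [Nat.card_eq_fintype_card, Fintype.card_subtype]
  rw [h2, mul_left_comm, mul_inv_cancel₀ hA, mul_one]

theorem card_inf_cz_modEq {K P : Subgroup G} (hP : IsPGroup p P) (hPK : P ≤ nz K) :
    Nat.card K ≡ Nat.card (K ⊓ cz P : Subgroup G) [MOD p] := by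
  classical
  let act : MulAction P K :=
    { smul := fun x y => ⟨(x : G) * y * (x : G)⁻¹, (Subgroup.mem_normalizer_iff.1 (hPK x.2) y).1 y.2⟩
      one_smul := fun y => Subtype.ext (by show ((1 : P) : G) * (y : G) * ((1 : P) : G)⁻¹ = y; simp)
      mul_smul := fun a b y => Subtype.ext (by
        show ((a * b : P) : G) * (y : G) * ((a * b : P) : G)⁻¹ = (a : G) * ((b : G) * y * (b : G)⁻¹) * (a : G)⁻¹
        simp [mul_assoc]) }
  letI := act
  have h1 := hP.card_modEq_card_fixedPoints K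
  have h2 : Nat.card (MulAction.fixedPoints P K) = Nat.card (K ⊓ cz P : Subgroup G) := ?_
  · rw [h2] at h1; exact h1
  refine Nat.card_congr
    { toFun := fun y => ⟨(y : K), ⟨(y : K).2, ?_⟩⟩
      invFun := fun y => ⟨⟨y, y.2.1⟩, ?_⟩
      left_inv := fun y => rfl
      right_inv := fun y => rfl }
  · show ((y : K) : G) ∈ Subgroup.centralizer (P : Set G)
    rw [Subgroup.mem_centralizer_iff]
    intro x hx
    have h2 : (x : G) * ((y : K) : G) * (x : G)⁻¹ = ((y : K) : G) := congrArg Subtype.val (y.2 ⟨x, hx⟩)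
    rw [mul_inv_eq_iff_eq_mul] at h2
    exact h2
  · intro x
    apply Subtype.ext
    show (x : G) * (y : G) * (x : G)⁻¹ = (y : G)
    rw [mul_inv_eq_iff_eq_mul]
    exact Subgroup.mem_centralizer_iff.1 y.2.2 x x.2

theorem br_eK [CharP k p] {K P : Subgroup G} (hP : IsPGroup p P) (hPK : P ≤ nz K) : br P (eK k K) = eK k (K ⊓ cz P) := by
  have h1 : (Nat.card K : k) = (Nat.card (K ⊓ cz P : Subgroup G) : k) :=
    (CharP.natCast_eq_natCast k p).2 (card_inf_cz_modEq hP hPK)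
  refine algExt fun g => ?_
  rw [coeff_br, coeff_eK, coeff_eK, h1]
  by_cases hg : g ∈ cz P
  · rw [if_pos hg]
    by_cases hgK : g ∈ K
    · rw [if_pos hgK, if_pos ⟨hgK, hg⟩]
    · rw [if_neg hgK, if_neg (fun h => hgK h.1)]
  · rw [if_neg hg, if_neg (fun h => hg h.2)]

omit hp in
theorem card_ne_zero_of_sig [CharP k p] {σ : Set ℕ} (hp : p.Prime) (hpσ : p ∉ σ) {K : Subgroup G} (hK : IsSig σ K) : (Nat.card K : k) ≠ 0 := by
  intro h
  rw [CharP.cast_eq_zero_iff k p] at h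
  exact hpσ (hK p hp h)

end eK

section chain

variable {G : Type*} [Group G] [Finite G] {p : ℕ} [hp : Fact p.Prime] {M : Ideal AlgInt} [hMp : M.IsPrime] {σ : Set ℕ}

/-- `O_σ(C(Q))` -/
abbrev Yc (σ : Set ℕ) (Q : Subgroup G) : Subgroup G := piCoreOf σ (cz Q)

theorem nz_le_nz_Yc (Q : Subgroup G) : nz Q ≤ nz (Yc σ Q) := (nz_le_nz_cz Q).trans (nz_le_nz_coreOf σ (cz Q))

theorem Yc_inf_le {Q R : Subgroup G} (h : Q ≤ R) : Yc σ Q ⊓ cz R ≤ Yc σ R := by
  refine le_coreOf inf_le_right ?_ ((isSig_coreOf σ (cz Q)).mono inf_le_left)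
  intro x hx
  have h1 : x ∈ nz (Yc σ Q) := le_nz_coreOf σ (cz Q) (cz_le_cz h hx)
  have h2 : x ∈ nz (cz R) := Subgroup.le_normalizer hx
  rw [Subgroup.mem_normalizer_iff] at h1 h2 ⊢
  intro y
  rw [Subgroup.mem_inf, Subgroup.mem_inf, h1 y, h2 y]

/-- one step down -/
theorem NS.ker_down (hM : IsPModular p M) (hpσ : p ∉ σ) {a b : Subgroup G × MonoidAlgebra (kk M) G} (h : NS p a b)
    (hb : eK (kk M) (Yc σ b.1) * b.2 = b.2) : eK (kk M) (Yc σ a.1) * a.2 = a.2 := by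
  haveI := charP_kk hM
  obtain ⟨Q, f⟩ := a
  obtain ⟨R, g⟩ := b
  have hRN : R ≤ nz (Yc σ Q) := h.nle.trans (nz_le_nz_Yc Q)
  have hcard : ∀ Q : Subgroup G, (Nat.card (Yc σ Q) : kk M) ≠ 0 := fun Q => card_ne_zero_of_sig hp.out hpσ (isSig_coreOf σ (cz Q))
  rcases h.ba.prim (eK (kk M) (Yc σ Q)) (sup_eK (coreOf_le σ _)) (fx_eK (le_nz_coreOf σ _)) (eK_mul le_rfl (hcard Q)) with h1 | h1
  · exact h1
  · exfalso
    have h2 := congrArg (fun z => br R z * g) h1
    simp only [br_zero, zero_mul] at h2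
    rw [br_mul h.pb (fx_eK hRN) h.fx, br_eK h.pb hRN, mul_assoc] at h2
    have h3 : br R f * g = g := h.mul
    have h4 : eK (kk M) (Yc σ R) * g = g := hb
    rw [h3, ← h4, ← mul_assoc, eK_mul' (Yc_inf_le h.le) (card_ne_zero_of_sig hp.out hpσ ((isSig_coreOf σ (cz Q)).mono inf_le_left)), h4] at h2
    exact h.bb.ne h2

theorem LE.ker_down (hM : IsPModular p M) (hpσ : p ∉ σ) {a b : Subgroup G × MonoidAlgebra (kk M) G} (h : LE p a b)
    (hb : eK (kk M) (Yc σ b.1) * b.2 = b.2) : eK (kk M) (Yc σ a.1) * a.2 = a.2 := by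
  induction h using Relation.ReflTransGen.head_induction_on with
  | refl => exact hb
  | head h1 _ ih => exact NS.ker_down hM hpσ h1 ih

/-- `Y(Q)` is a Hall subgroup of `C(Q)` -/
def HallY (σ : Set ℕ) (Q : Subgroup G) : Prop := ∀ x ∈ cz Q, (∀ q : ℕ, q.Prime → q ∣ orderOf x → q ∈ σ) → x ∈ Yc σ Q

omit [Finite G] in
theorem isSig_elt {K : Subgroup G} (hK : IsSig σ K) {x : G} (hx : x ∈ K) : ∀ q : ℕ, q.Prime → q ∣ orderOf x → q ∈ σ := by
  intro q hq hqd
  have h1 : orderOf x ∣ Nat.card K := by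
    have := orderOf_dvd_natCard (⟨x, hx⟩ : K)
    rwa [Subgroup.orderOf_mk] at this
  exact hK q hq (hqd.trans h1)

theorem NS.ker_up (hM : IsPModular p M) (hpσ : p ∉ σ) {a b : Subgroup G × MonoidAlgebra (kk M) G} (h : NS p a b)
    (ha : eK (kk M) (Yc σ a.1) * a.2 = a.2) (hH : HallY σ a.1) : eK (kk M) (Yc σ b.1) * b.2 = b.2 ∧ HallY σ b.1 := by
  haveI := charP_kk hM
  obtain ⟨Q, f⟩ := a
  obtain ⟨R, g⟩ := b
  have hQR : Q ≤ R := h.le
  have hRN : R ≤ nz (Yc σ Q) := h.nle.trans (nz_le_nz_Yc Q)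
  have h1 : Yc σ R = Yc σ Q ⊓ cz R := by
    apply le_antisymm
    · intro x hx
      exact ⟨hH x (cz_le_cz hQR (coreOf_le σ _ hx)) (isSig_elt (isSig_coreOf σ _) hx), coreOf_le σ _ hx⟩
    · exact Yc_inf_le hQR
  refine ⟨?_, fun x hx hxs => ?_⟩
  · have h2 : br R f = eK (kk M) (Yc σ R) * br R f := by
      have h3 : br R (eK (kk M) (Yc σ Q) * f) = br R f := congrArg (br R) ha
      rw [br_mul h.pb (fx_eK hRN) h.fx, br_eK h.pb hRN, ← h1] at h3
      exact h3.symm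
    have h3 : br R f * g = g := h.mul
    show eK (kk M) (Yc σ R) * g = g
    conv_lhs => rw [← h3, ← mul_assoc, ← h2]
    exact h3
  · show x ∈ Yc σ R
    rw [h1]
    exact ⟨hH x (cz_le_cz hQR hx) hxs, hx⟩

theorem LE.ker_up (hM : IsPModular p M) (hpσ : p ∉ σ) {a b : Subgroup G × MonoidAlgebra (kk M) G} (h : LE p a b)
    (ha : eK (kk M) (Yc σ a.1) * a.2 = a.2) (hH : HallY σ a.1) : eK (kk M) (Yc σ b.1) * b.2 = b.2 ∧ HallY σ b.1 := by
  induction h with
  | refl => exact ⟨ha, hH⟩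
  | tail _ h2 ih => exact NS.ker_up hM hpσ h2 ih.1 ih.2

end chain

end CfsgH5
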