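import Cfsg.Agent.H5.PiKer
import Cfsg.Agent.H5.Princ

/-!
# Normal `π'`-subgroups in kernels of blocks, II
-/

set_option autoImplicit false
open Cfsg MonoidAlgebra
open CfsgH4 hiding centralChar sum_conj

namespace CfsgH5

open scoped ComplexConjugate

section ker

variable {G : Type*} [Group G] [Finite G] {p : ℕ} [hp : Fact p.Prime] {M : Ideal AlgInt} [hMp : M.IsPrime]

omit hp hMp in
theorem ker_of_om (K : Subgroup G) (hn : (⊤ : Subgroup G) ≤ nz K) (ξ : IrrCharacter G) (h : om (ξ : G → ℂ) (eK ℂ K) ≠ 0) :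
    ∀ n ∈ K, (ξ : G → ℂ) n = (ξ : G → ℂ) 1 := by
  classical
  haveI := Fintype.ofFinite G
  intro n hn'
  have h1 : eK ℂ K * single n 1 = eK ℂ K := by
    refine algExt fun g => ?_
    rw [coeff_mul_right, Finset.sum_eq_single n]
    · rw [MonoidAlgebra.coeff_single, Finsupp.single_eq_same, mul_one, coeff_eK, coeff_eK]
      have h2 : g * n⁻¹ ∈ K ↔ g ∈ K := K.mul_mem_cancel_right (K.inv_mem hn')
      by_cases hg : g ∈ K
      · rw [if_pos hg, if_pos (h2.2 hg)]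
      · rw [if_neg hg, if_neg (fun h' => hg (h2.1 h'))]
    · intro x _ hx
      rw [MonoidAlgebra.coeff_single, Finsupp.single_eq_of_ne hx, mul_zero]
    · intro h; exact absurd (Finset.mem_univ _) h
  have hc : IsCen (eK ℂ K) := fx_top.1 (fx_eK hn)
  have h2 := ev_cen_mul ξ.2 hc (single n 1)
  have h3 := ev_cen_mul ξ.2 hc (single 1 1)
  rw [h1, ev_single, one_mul] at h2
  have h4 : eK ℂ K * single 1 1 = eK ℂ K := by
    rw [← MonoidAlgebra.one_def, mul_one]
  rw [h4, ev_single, one_mul] at h3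
  rw [h2] at h3
  exact mul_left_cancel₀ h h3

omit hp in
theorem resid_inv {n : ℕ} (hn : MemLocalRing M ((n : ℂ)⁻¹)) (hn0 : n ≠ 0) : resid M ((n : ℂ)⁻¹) = ((n : kk M))⁻¹ := by
  have h1 := resid_mul hn (memLocalRing_natCast (M := M) n)
  rw [inv_mul_cancel₀ (by exact_mod_cast hn0), resid_one, resid_natCast] at h1
  exact eq_inv_of_mul_eq_one_left h1.symm

theorem rd_eK (hM : IsPModular p M) (K : Subgroup G) (hK : ¬ p ∣ Nat.card K) : InS M (eK ℂ K) ∧ rd M (eK ℂ K) = eK (kk M) K := by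
  have h1 : MemLocalRing M ((Nat.card K : ℂ)⁻¹) := by
    have := memLocalRing_div hM (m := 1) one_ne_zero (Nat.card_pos (α := K)).ne' (by
      rw [Nat.factorization_eq_zero_of_not_dvd hK]; exact Nat.zero_le _)
    rwa [Nat.cast_one, one_div] at this
  refine ⟨fun g => ?_, algExt fun g => ?_⟩
  · rw [coeff_eK]
    split_ifs
    · exact h1
    · exact memLocalRing_zero
  · rw [coeff_rd, coeff_eK, coeff_eK]
    split_ifs
    · exact resid_inv h1 Nat.card_pos.ne'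
    · exact resid_zero

omit hp hMp in
theorem rsK_eK {k : Type*} [Field k] {H K : Subgroup G} (hKH : K ≤ H) : rsK H (eK k K) = eK k (K.subgroupOf H) := by
  refine algExt fun g => ?_
  rw [coeff_rsK, coeff_eK, coeff_eK, Nat.card_congr (Subgroup.subgroupOfEquivOfLe hKH).toEquiv]
  by_cases hg : (g : G) ∈ K
  · rw [if_pos hg, if_pos (Subgroup.mem_subgroupOf.2 hg)]
  · rw [if_neg hg, if_neg (fun h => hg (Subgroup.mem_subgroupOf.1 h))]

/-- kernels in terms of idempotents -/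
theorem ker_iff (hM : IsPModular p M) {H K : Subgroup G} (hKH : K ≤ H) (hn : H ≤ nz K) (hK : ¬ p ∣ Nat.card K)
    {b : Set (IrrCharacter H)} (hb : IsPBlock M b) :
    (∀ χ ∈ b, ∀ x : H, (x : G) ∈ K → (χ : H → ℂ) x = (χ : H → ℂ) 1) ↔ eK (kk M) K * idH M H b = idH M H b := by
  classical
  haveI := Fintype.ofFinite H
  haveI := charP_kk hM
  have hKk : (Nat.card K : kk M) ≠ 0 := by
    intro h
    rw [CharP.cast_eq_zero_iff (kk M) p] at h
    exact hK h
  set K' := K.subgroupOf H with hK'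
  have hcard : Nat.card K' = Nat.card K := Nat.card_congr (Subgroup.subgroupOfEquivOfLe hKH).toEquiv
  have hn' : (⊤ : Subgroup H) ≤ nz K' := by
    rw [hK', nz_subgroupOf hKH]
    intro x _
    exact hn x.2
  have hcen : IsCen (eK ℂ K') := fx_top.1 (fx_eK hn')
  have hrd := rd_eK hM K' (by rw [hcard]; exact hK)
  have key : ∀ ξ ∈ b, (eK (kk M) K * idH M H b = idH M H b ↔ resid M (om (ξ : H → ℂ) (eK ℂ K')) = 1) := by
    intro ξ hξ
    rw [mul_idH_iff hb (sup_eK hKH) (fx_eK hn) (eK_mul le_rfl hKk) hξ, rsK_eK hKH, ← hrd.2, lam_rd ξ hcen hrd.1]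
  constructor
  · intro h
    obtain ⟨ξ, hξ⟩ := IsPBlock.nonempty hb
    rw [key ξ hξ]
    have h1 : om (ξ : H → ℂ) (eK ℂ K') = 1 := by
      rw [om, ev_eq_sum]
      have h2 : ∀ g : H, (eK ℂ K').coeff g * (ξ : H → ℂ) g = if g ∈ K' then ((Nat.card K' : ℂ))⁻¹ * (ξ : H → ℂ) 1 else 0 := by
        intro g
        rw [coeff_eK]
        split_ifs with hg
        · rw [h ξ hξ g (Subgroup.mem_subgroupOf.1 hg)]
        · rw [zero_mul]
      rw [Finset.sum_congr rfl fun g _ => h2 g, ← Finset.sum_filter, Finset.sum_const, nsmul_eq_mul]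
      have h3 : ((Finset.univ.filter (fun x : H => x ∈ K')).card : ℂ) = (Nat.card K' : ℂ) := by
        rw [Nat.card_eq_fintype_card, Fintype.card_subtype]
      have h4 : (Nat.card K' : ℂ) ≠ 0 := by exact_mod_cast Nat.card_pos.ne'
      rw [h3, ← mul_assoc, mul_inv_cancel₀ h4, one_mul, div_self (IsIrr.one_ne_zero ξ.2)]
    rw [h1, resid_one]
  · intro h ξ hξ x hx
    rw [key ξ hξ] at h
    refine ker_of_om K' hn' ξ ?_ x (Subgroup.mem_subgroupOf.2 hx)
    intro h0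
    rw [h0, resid_zero] at h
    exact zero_ne_one h

end ker

section main

variable {G : Type*} [Group G] [Finite G] {p : ℕ} [hp : Fact p.Prime] {M : Ideal AlgInt} [hMp : M.IsPrime] {σ : Set ℕ}

theorem not_dvd_sig (hpσ : p ∉ σ) {K : Subgroup G} (hK : IsSig σ K) : ¬ p ∣ Nat.card K := fun h => hpσ (hK p hp.out h)

theorem mem_coreOf {H : Subgroup G} {x : H} : (x : G) ∈ piCoreOf σ H ↔ x ∈ piCore σ H := by
  constructor
  · rintro ⟨y, hy, hyx⟩
    have : y = x := Subtype.ext hyx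
    rwa [← this]
  · intro h; exact ⟨x, h, rfl⟩

/-- the core of `H` is in the kernel of the block `b` -/
theorem core_ker_iff (hM : IsPModular p M) (hpσ : p ∉ σ) {H : Subgroup G} {b : Set (IrrCharacter H)} (hb : IsPBlock M b) :
    (∀ x : H, x ∈ piCore σ H → x ∈ blockKer b) ↔ eK (kk M) (piCoreOf σ H) * idH M H b = idH M H b := by
  rw [← ker_iff hM (coreOf_le σ H) (le_nz_coreOf σ H) (not_dvd_sig hpσ (isSig_coreOf σ H)) hb]
  constructor
  · intro h χ hχ x hx
    exact h x (mem_coreOf.1 hx) χ hχ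
  · intro h x hx χ hχ
    exact h χ hχ x (mem_coreOf.2 hx)

/-- the pair of a defect group -/
theorem top_pair (hM : IsPModular p M) {B : Set (IrrCharacter G)} (hB : IsPBlock M B) {D : Subgroup G} (hBD : IsDefectGroup p M B D)
    {B₁ : Set (IrrCharacter (nz D))} (hB₁ : IsInducedBlock M (nz D) B₁ B) {Q : Subgroup G} {f : MonoidAlgebra (kk M) G}
    (hQ : Of p (⊤ : Subgroup G) (idB M B) (Q, f)) :
    ∃ (x : G) (e : MonoidAlgebra (kk M) G), LE p (cp x (Q, f)) (D, e) ∧ IsBl (cz D) e ∧ idH M (nz D) B₁ * e = e := by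
  have hDG := (isDefectGroup_iff_DG hM hB).1 hBD
  obtain ⟨⟨D', e'⟩, hmax, hle⟩ := exists_MP_ge hQ
  have hD'G := hmax.dg hM (isBl_top hB)
  obtain ⟨x, -, hx⟩ := DG.conj hM (isBl_top hB) hD'G hDG
  have hmax' := hmax.cp (isBl_top hB) (Subgroup.mem_top x)
  refine ⟨x, ca x e', ?_, ?_, ?_⟩
  · have h1 := hle.cp x
    have h2 : cp x (D', e') = (D, ca x e') := Prod.ext hx.symm rfl
    rwa [h2] at h1
  · have h1 : IsBl (cz (cj x D')) (ca x e') := hmax'.1.2.2.2.1
    have h2 : cj x D' = D := hx.symm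
    rwa [h2] at h1
  · have h1 : br (cj x D') (idB M B) * ca x e' = ca x e' := hmax'.1.2.2.2.2
    have h2 : cj x D' = D := hx.symm
    rw [h2] at h1
    have h3 : IsBl (nz D ⊓ (⊤ : Subgroup G)) (br D (idB M B)) := (br_isBl hM (isBl_top hB) hDG).1
    rw [inf_top_eq] at h3
    have h4 := (ind_iff hM hDG.pg Subgroup.le_normalizer (cz_le_nz D) le_rfl hB₁.1 hB).1 hB₁
    have h5 : br D (idB M B) = idH M (nz D) B₁ := IsBl.eq_of_mul h3 (isBl_idH hB₁.1) (by rw [h4]; exact (isBl_idH hB₁.1).ne)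
    rw [← h5]; exact h1

theorem Yc_le_core (D : Subgroup G) : Yc σ D ≤ piCoreOf σ (nz D) :=
  le_coreOf ((coreOf_le σ _).trans (cz_le_nz D)) (nz_le_nz_Yc D) (isSig_coreOf σ _)

theorem cj_Yc (x : G) (Q : Subgroup G) : cj x (Yc σ Q) = Yc σ (cj x Q) := by
  rw [Yc, cj_coreOf, Yc, cz_cj]

/-- the pair-level form of S4734 -/
theorem pair_ker (hM : IsPModular p M) (hpσ : p ∉ σ) {B : Set (IrrCharacter G)} (hB : IsPBlock M B) {D : Subgroup G}
    (hBD : IsDefectGroup p M B D) {B₁ : Set (IrrCharacter (nz D))} (hB₁ : IsInducedBlock M (nz D) B₁ B)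
    (hker : ∀ x : nz D, x ∈ piCore σ (nz D) → x ∈ blockKer B₁) {Q : Subgroup G} {f : MonoidAlgebra (kk M) G}
    (hQ : Of p (⊤ : Subgroup G) (idB M B) (Q, f)) : eK (kk M) (Yc σ Q) * f = f := by
  haveI := charP_kk hM
  obtain ⟨x, e, hle, he, hB₁e⟩ := top_pair hM hB hBD hB₁ hQ
  rw [core_ker_iff hM hpσ hB₁.1] at hker
  have h1 : eK (kk M) (Yc σ D) * e = e := by
    have h2 : eK (kk M) (piCoreOf σ (nz D)) * e = e := by
      conv_lhs => rw [← hB₁e, ← mul_assoc, hker]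
      exact hB₁e
    conv_lhs => rw [← h2, ← mul_assoc, eK_mul' (Yc_le_core D) (card_ne_zero_of_sig hp.out hpσ (isSig_coreOf σ _))]
    exact h2
  have h2 := LE.ker_down hM hpσ hle h1
  have h3 : eK (kk M) (Yc σ (cj x Q)) * ca x f = ca x f := h2
  rw [← cj_Yc, ← ca_eK, ← ca_mul] at h3
  exact ca_injective x h3

/-- S4734 -/
theorem s4734 (hM : IsPModular p M) (hpσ : p ∉ σ) {B : Set (IrrCharacter G)} (hB : IsPBlock M B) {D : Subgroup G}
    (hBD : IsDefectGroup p M B D) {B₁ : Set (IrrCharacter (nz D))} (hB₁ : IsInducedBlock M (nz D) B₁ B)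
    (hker : ∀ x : nz D, x ∈ piCore σ (nz D) → x ∈ blockKer B₁) {G₀ : Subgroup G} {B₀ : Set (IrrCharacter G₀)}
    (hB₀ : IsInducedBlock M G₀ B₀ B) {P : Subgroup G} (hD₀ : DG p G₀ (idH M G₀ B₀) P) (hC : cz P ≤ G₀) :
    ∀ x : G₀, x ∈ piCore σ G₀ → x ∈ blockKer B₀ := by
  haveI := charP_kk hM
  have hb := hB₀.1
  have hPp := hD₀.pg
  obtain ⟨f, hmax⟩ := exists_MP_of_DG hM (isBl_idH hb) hD₀ hC
  have hf : IsBl (cz P) f := hmax.1.2.2.2.1
  obtain ⟨B', ⟨hB', hB'f⟩, -⟩ := exists_unique_above hM hPp (le_top : P ≤ ⊤) le_top hf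
  obtain ⟨B'', hB'', rfl⟩ := exists_block_of_top hB'
  have hind := ind_of_pair hM hPp hD₀.le hC hf hb hmax.1.2.2.2.2 hB'' hB'f
  obtain rfl := induced_unique hind hB₀
  have hof : Of p (⊤ : Subgroup G) (idB M B'') (P, f) := ⟨hPp, le_top, le_top, hf, hB'f⟩
  have h1 := pair_ker hM hpσ hB hBD hB₁ hker hof
  rw [core_ker_iff hM hpσ hb]
  set K := piCoreOf σ G₀ with hK
  have hKs : IsSig σ K := isSig_coreOf σ G₀
  have hKc : (Nat.card K : kk M) ≠ 0 := card_ne_zero_of_sig hp.out hpσ hKs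
  rcases (isBl_idH hb).prim (eK (kk M) K) (sup_eK (coreOf_le σ _)) (fx_eK (le_nz_coreOf σ _)) (eK_mul le_rfl hKc) with h2 | h2
  · exact h2
  · exfalso
    have hPK : P ≤ nz K := hD₀.le.trans (le_nz_coreOf σ G₀)
    have h3 := congrArg (fun z => br P z * f) h2
    simp only [br_zero, zero_mul] at h3
    rw [br_mul hPp (fx_eK hPK) ((isBl_idH hb).fx.mono hD₀.le), br_eK hPp hPK, mul_assoc, hmax.1.2.2.2.2] at h3
    have h4 : K ⊓ cz P ≤ Yc σ P := by
      refine le_coreOf inf_le_right ?_ (hKs.mono inf_le_left)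
      intro x hx
      have a1 : x ∈ nz K := le_nz_coreOf σ G₀ (hC hx)
      have a2 : x ∈ nz (cz P) := Subgroup.le_normalizer hx
      rw [Subgroup.mem_normalizer_iff] at a1 a2 ⊢
      intro y
      rw [Subgroup.mem_inf, Subgroup.mem_inf, a1 y, a2 y]
    rw [← h1, ← mul_assoc, eK_mul' h4 (card_ne_zero_of_sig hp.out hpσ (hKs.mono inf_le_left)), h1] at h3
    exact hf.ne h3

end main

end CfsgH5
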