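import Cfsg.Agent.H5.PiKer2

/-!
# Normal `π'`-subgroups in kernels of blocks, III
-/

set_option autoImplicit false
open Cfsg MonoidAlgebra
open CfsgH4 hiding centralChar sum_conj

namespace CfsgH5

open scoped ComplexConjugate

variable {G : Type*} [Group G] [Finite G] {p : ℕ} [hp : Fact p.Prime] {M : Ideal AlgInt} [hMp : M.IsPrime] {σ : Set ℕ}

theorem isBl_cz_of_sup (hM : IsPModular p M) {P : Subgroup G} (hP : IsPGroup p P) {z : MonoidAlgebra (kk M) G}
    (hz : IsBl (P ⊔ cz P) z) : IsBl (cz P) z := by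
  have hs : Sup (cz P) z := IsBl.sup_cz hM hP le_sup_left (sup_cz_le_nz P) hz
  refine ⟨hz.ne, hz.idem, hs, hz.fx.mono le_sup_right, fun w hw hwf hww => ?_⟩
  apply hz.prim w (hw.mono le_sup_right) _ hww
  rw [fx_iff_le]
  exact sup_le (fx_iff_le.1 (fx_of_sup_centralizer hw)) (fx_iff_le.1 hwf)

theorem core_nz_le (hpσ : p ∉ σ) {D : Subgroup G} (hD : IsPGroup p D) : piCoreOf σ (nz D) ≤ Yc σ D := by
  set K := piCoreOf σ (nz D) with hK
  have hKs : IsSig σ K := isSig_coreOf σ _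
  have hKn : nz D ≤ nz K := le_nz_coreOf σ _
  have h1 : K ≤ cz D := by
    intro x hx
    show x ∈ Subgroup.centralizer (D : Set G)
    rw [Subgroup.mem_centralizer_iff]
    intro d hd
    have hxN : x ∈ nz D := coreOf_le σ _ hx
    have h2 : d * x * d⁻¹ * x⁻¹ ∈ K := by
      have : d * x * d⁻¹ ∈ K := (Subgroup.mem_normalizer_iff.1 (hKn (Subgroup.le_normalizer hd)) x).1 hx
      exact K.mul_mem this (K.inv_mem hx)
    have h3 : d * x * d⁻¹ * x⁻¹ ∈ D := by
      have : x * d⁻¹ * x⁻¹ ∈ D := (Subgroup.mem_normalizer_iff.1 hxN d⁻¹).1 (D.inv_mem hd)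
      have h4 : d * x * d⁻¹ * x⁻¹ = d * (x * d⁻¹ * x⁻¹) := by group
      rw [h4]
      exact D.mul_mem hd this
    obtain ⟨k, hk⟩ := orderOf_of_mem_pgroup hD h3
    have h5 : d * x * d⁻¹ * x⁻¹ = 1 := by
      rw [← orderOf_eq_one_iff, hk]
      rcases Nat.eq_zero_or_pos k with rfl | hk0
      · rw [pow_zero]
      · exfalso
        apply hpσ
        exact isSig_elt hKs h2 p hp.out (by rw [hk]; exact dvd_pow_self p hk0.ne')
    have h6 : d * x * d⁻¹ * x⁻¹ * x * d = 1 * x * d := by rw [h5]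
    have h7 : d * x * d⁻¹ * x⁻¹ * x * d = d * x := by group
    rw [h7, one_mul] at h6
    exact h6
  exact le_coreOf h1 ((cz_le_nz D).trans hKn) hKs

/-- S4728 -/
theorem s4728 (hM : IsPModular p M) (hpσ : p ∉ σ) {B : Set (IrrCharacter G)} (hB : IsPBlock M B) {D : Subgroup G}
    (hBD : IsDefectGroup p M B D) {B₁ : Set (IrrCharacter (nz D))} (hB₁ : IsInducedBlock M (nz D) B₁ B)
    {P : Subgroup G} (hP : IsPGroup p P) {b : Set (IrrCharacter ↥(P ⊔ cz P))} (hb : IsInducedBlock M (P ⊔ cz P) b B)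
    (hH : HallY σ P) (hker : ∀ χ ∈ b, ∀ x : ↥(P ⊔ cz P), (x : G) ∈ Yc σ P → (χ : ↥(P ⊔ cz P) → ℂ) x = (χ : ↥(P ⊔ cz P) → ℂ) 1) :
    ∀ x : nz D, x ∈ piCore σ (nz D) → x ∈ blockKer B₁ := by
  haveI := charP_kk hM
  have hDp : IsPGroup p D := CfsgH5.IsDefectGroup.isPGroup hBD
  have hKN := sup_cz_le_nz P
  have h1 := (ind_iff hM hP le_sup_left le_sup_right hKN hb.1 hB).1 hb
  have hf := isBl_cz_of_sup hM hP (isBl_idH hb.1)
  set f := idH M (P ⊔ cz P) b with hfd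
  have hof : Of p (⊤ : Subgroup G) (idB M B) (P, f) := ⟨hP, le_top, le_top, hf, h1⟩
  have h2 : eK (kk M) (Yc σ P) * f = f :=
    (ker_iff hM ((coreOf_le σ _).trans le_sup_right) (hKN.trans (nz_le_nz_Yc P)) (not_dvd_sig hpσ (isSig_coreOf σ _)) hb.1).1 hker
  obtain ⟨x, e, hle, he, hB₁e⟩ := top_pair hM hB hBD hB₁ hof
  have h3 : eK (kk M) (Yc σ (cp x (P, f)).1) * (cp x (P, f)).2 = (cp x (P, f)).2 := by
    show eK (kk M) (Yc σ (cj x P)) * ca x f = ca x f
    rw [← cj_Yc, ← ca_eK, ← ca_mul, h2]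
  have h4 : HallY σ (cp x (P, f)).1 := by
    intro y hy hys
    show y ∈ Yc σ (cj x P)
    rw [← cj_Yc, mem_cj]
    have hy' : y ∈ cz (cj x P) := hy
    rw [cz_cj, mem_cj] at hy'
    refine hH _ hy' fun q hq hqd => hys q hq ?_
    have h5 : orderOf (x⁻¹ * y * x) = orderOf y := by
      have := orderOf_injective (MulAut.conj x⁻¹).toMonoidHom (MulAut.conj x⁻¹).injective y
      simpa using this
    rwa [h5] at hqd
  obtain ⟨h5, -⟩ := LE.ker_up hM hpσ hle h3 h4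
  have h6 : eK (kk M) (Yc σ D) * e = e := h5
  rw [core_ker_iff hM hpσ hB₁.1]
  set K := piCoreOf σ (nz D) with hK
  have hKs : IsSig σ K := isSig_coreOf σ _
  have hKc : (Nat.card K : kk M) ≠ 0 := card_ne_zero_of_sig hp.out hpσ hKs
  have h7 : eK (kk M) K * e = e := by
    conv_lhs => rw [← h6, ← mul_assoc, eK_mul' (core_nz_le hpσ hDp) hKc]
    exact h6
  rcases (isBl_idH hB₁.1).prim (eK (kk M) K) (sup_eK (coreOf_le σ _)) (fx_eK (le_nz_coreOf σ _)) (eK_mul le_rfl hKc) with h8 | h8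
  · exact h8
  · exfalso
    have h9 : eK (kk M) K * idH M (nz D) B₁ * e = 0 := by rw [h8, zero_mul]
    rw [mul_assoc, hB₁e, h7] at h9
    exact he.ne h9

/-- S4727 -/
theorem s4727 (hM : IsPModular p M) (hpσ : p ∉ σ) {B : Set (IrrCharacter G)} (hB : IsPBlock M B) {D : Subgroup G}
    (hBD : IsDefectGroup p M B D) {B₁ : Set (IrrCharacter (nz D))} (hB₁ : IsInducedBlock M (nz D) B₁ B)
    (hker : ∀ x : nz D, x ∈ piCore σ (nz D) → x ∈ blockKer B₁) {y : G} (hy : ∃ k : ℕ, orderOf y = p ^ k)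
    {χ : IrrCharacter G} (hχ : χ ∈ B) (x : Subgroup.centralizer ({y} : Set G)) (hx : x ∈ piCore σ (Subgroup.centralizer ({y} : Set G))) :
    (χ : G → ℂ) (y * (x : G)) = (χ : G → ℂ) y := by
  classical
  haveI := Fintype.ofFinite G
  haveI := Fintype.ofFinite (Subgroup.centralizer ({y} : Set G))
  have hyC : y ∈ Subgroup.centralizer ({y} : Set G) := Subgroup.mem_centralizer_singleton_iff.2 rfl
  have hker' : ∀ ψ : IrrCharacter (Subgroup.centralizer ({y} : Set G)), ψ ∈ indSet M (Subgroup.centralizer ({y} : Set G)) B →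
      (ψ : Subgroup.centralizer ({y} : Set G) → ℂ) x = (ψ : Subgroup.centralizer ({y} : Set G) → ℂ) 1 := by
    intro ψ hψ
    have hind : IsInducedBlock M (Subgroup.centralizer ({y} : Set G)) (blockOf M (ψ : Subgroup.centralizer ({y} : Set G) → ℂ)) B := hψ
    obtain ⟨D₀, hD₀⟩ := exists_defectGroup hM hind.1
    have h1 := (isDefectGroup_iff_DG'' hM hind.1).1 hD₀
    have h2 := mem_defect_centralizer hM hy hind.1 hD₀ hyC
    have h3 : cz (D₀.map (Subgroup.centralizer ({y} : Set G)).subtype) ≤ Subgroup.centralizer ({y} : Set G) := by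
      intro g hg
      rw [Subgroup.mem_centralizer_singleton_iff]
      exact (Subgroup.mem_centralizer_iff.1 hg y ⟨_, h2, rfl⟩).symm
    exact s4734 hM hpσ hB hBD hB₁ hker hind h1 h3 x hx ψ (mem_blockOf_self ψ)
  have hxs := isSig_elt (piCore_spec σ (Subgroup.centralizer ({y} : Set G))).1 hx
  have hxreg : ¬ p ∣ orderOf x := fun h => hpσ (hxs p hp.out h)
  have hpy : IsPPart p (y * (x : G)) y := by
    refine ⟨x, rfl, ?_, hy, ?_⟩
    · exact (Subgroup.mem_centralizer_singleton_iff.1 x.2).symm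
    · rwa [Subgroup.orderOf_coe]
  have hpy1 : IsPPart p y y := ⟨1, mul_one _, Commute.one_right _, hy, by simpa using hp.out.one_lt.ne'⟩
  have h1 := second_gen hM hB (h := ⟨y, hyC⟩ * x) hpy χ
  have h2 := second_gen hM hB (h := ⟨y, hyC⟩) hpy1 χ
  rw [if_pos hχ] at h1 h2
  show (χ : G → ℂ) (y * (x : G)) = (χ : G → ℂ) y
  have h3 : (χ : G → ℂ) (y * (x : G)) = (χ : G → ℂ) (((⟨y, hyC⟩ * x : Subgroup.centralizer ({y} : Set G))) : G) := rfl
  have h4 : (χ : G → ℂ) y = (χ : G → ℂ) (((⟨y, hyC⟩ : Subgroup.centralizer ({y} : Set G))) : G) := rfl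
  rw [h3, h4, ← h1, ← h2]
  refine Finset.sum_congr rfl fun ψ _ => ?_
  split_ifs with hψ
  · rw [IsCharacter.mul_ker (IsIrr.isCharacter ψ.2) (hker' ψ hψ)]
  · rfl

end CfsgH5
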