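import Cfsg.Agent.H5.OneChar
import Cfsg.Agent.H5.Second

/-!
# Faithful characters of prime power degree and defects
-/

set_option autoImplicit false
open Cfsg MonoidAlgebra
open CfsgH4 hiding centralChar sum_conj regInner_symm

namespace CfsgH5

open scoped ComplexConjugate

section PPow

variable {G : Type*} [Group G] [Fintype G] {M : Ideal AlgInt} {p : ℕ} [hp : Fact p.Prime]

theorem ppow_defect (hM : IsPModular p M) (hZ : Subgroup.center G = ⊥) (P : Sylow p G) (a b : ℕ)
    (ha : Nat.card P = p ^ a) (hb : Nat.card (Subgroup.center ↥(P : Subgroup G)) = p ^ b)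
    (χ : IrrCharacter G) (hfaith : ∀ g : G, (χ : G → ℂ) g = (χ : G → ℂ) 1 → g = 1) (n : ℕ)
    (hdeg : charDegree (χ : G → ℂ) = p ^ n) :
    blockDefect p (blockOf M (χ : G → ℂ)) ≤ a - b := by
  classical
  haveI hMp : M.IsPrime := IsPModular.isPrime hM
  set Z : Subgroup G := (Subgroup.center ↥(P : Subgroup G)).map (P : Subgroup G).subtype with hZdef
  haveI : Fintype Z := Fintype.ofFinite Z
  have hZcard : Nat.card Z = p ^ b := by
    rw [hZdef, Subgroup.card_map_of_injective (Subgroup.subtype_injective _), hb]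
  have hidx : ∀ u ∈ Z, ¬ p ∣ (Subgroup.centralizer ({u} : Set G)).index := by
    rintro _ ⟨u, hu, rfl⟩ h
    have h1 : (P : Subgroup G) ≤ Subgroup.centralizer ({((P : Subgroup G).subtype u)} : Set G) := by
      intro g hg
      rw [Subgroup.mem_centralizer_singleton_iff]
      exact congrArg Subtype.val (Subgroup.mem_center_iff.1 hu ⟨g, hg⟩)
    exact P.not_dvd_index (h.trans (Subgroup.index_dvd_of_le h1))
  have hvan : ∀ u ∈ Z, u ≠ 1 → (χ : G → ℂ) u = 0 := by
    intro u hu hu1
    have hd : (χ : G → ℂ) 1 = (p ^ n : ℕ) := by rw [(IsIrr.one_eq χ.2).1, hdeg]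
    rcases burnside_zero_or_norm χ.2 hd u (by
      rw [card_isConj_eq_index]
      exact Nat.Coprime.pow_left n ((Nat.Prime.coprime_iff_not_dvd hp.out).2 (hidx u hu))) with h | h
    · exact h
    · exfalso
      have h1 := central_of_norm (IsIrr.isCharacter χ.2) hfaith (g := u) (by rw [h, hd]; simp)
      rw [hZ, Subgroup.mem_bot] at h1
      exact hu1 h1
  set B := blockOf M (χ : G → ℂ) with hB
  have hχB : χ ∈ B := mem_blockOf_self χ
  obtain ⟨ζ, hζ, hζ0⟩ := exists_height_zero p (B := B) ⟨χ, hχB⟩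
  have hs := (height_zero_iff hζ).1 hζ0
  unfold blockDefect
  rw [← hs]
  have hGa : (Nat.card G).factorization p = a := by
    have h1 := P.card_eq_multiplicity
    rw [ha] at h1
    exact (Nat.pow_right_injective hp.out.two_le h1).symm
  rw [hGa]
  suffices hsb : b ≤ (charDegree (ζ : G → ℂ)).factorization p by omega
  by_contra hlt
  push Not at hlt
  set s := (charDegree (ζ : G → ℂ)).factorization p with hsdef
  obtain ⟨m, hm⟩ : p ^ s ∣ charDegree (ζ : G → ℂ) := Nat.ordProj_dvd _ _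
  have hd0 := charDegree_ne_zero ζ
  have hpm : ¬ p ∣ m := by
    rintro ⟨c, rfl⟩
    have h1 : p ^ (s + 1) ∣ charDegree (ζ : G → ℂ) := ⟨c, by rw [hm]; ring⟩
    have h2 := (hp.out.pow_dvd_iff_le_factorization hd0).1 h1
    omega
  have hζ1 : (ζ : G → ℂ) 1 = (p : ℂ) ^ s * m := by
    rw [(IsIrr.one_eq ζ.2).1, hm]; push_cast; ring
  have hval : ∀ u ∈ Z, u ≠ 1 → MemLocalIdeal M ((ζ : G → ℂ) u / (ζ : G → ℂ) 1) := by
    intro u hu hu1
    have h1 := (hζ : SameBlock M (χ : G → ℂ) (ζ : G → ℂ)) u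
    have h2 : centralChar (χ : G → ℂ) u = 0 := by
      unfold centralChar; rw [hvan u hu hu1, mul_zero, zero_div]
    rw [h2, zero_sub] at h1
    have h3 := MemLocalIdeal.neg h1
    rw [neg_neg] at h3
    have h4 := MemLocalIdeal.mul_left (memLocalRing_natCast_inv hM (hidx u hu)) h3
    unfold centralChar at h4
    have h5 : ((Subgroup.centralizer ({u} : Set G)).index : ℂ) ≠ 0 := by
      exact_mod_cast Subgroup.index_ne_zero_of_finite
    have h6 : ((Subgroup.centralizer ({u} : Set G)).index : ℂ)⁻¹ *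
        (((Subgroup.centralizer ({u} : Set G)).index : ℂ) * (ζ : G → ℂ) u / (ζ : G → ℂ) 1) =
        (ζ : G → ℂ) u / (ζ : G → ℂ) 1 := by
      field_simp
    rw [h6] at h4
    exact h4
  obtain ⟨c, hc⟩ := IsCharacter.inner_nat (isCharacter_restrict Z (IsIrr.isCharacter ζ.2))
    (IsIrr.isCharacter (irrOne Z).2)
  have hsum : ∑ u : Z, (ζ : G → ℂ) u = (p : ℂ) ^ b * c := by
    have h1 : classInner (fun n : Z => (ζ : G → ℂ) n) (irrOne Z : Z → ℂ) =
        (Nat.card Z : ℂ)⁻¹ * ∑ u : Z, (ζ : G → ℂ) u := by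
      unfold classInner
      congr 1
      refine Finset.sum_congr rfl fun u _ => ?_
      show _ * conj (1 : ℂ) = _
      rw [map_one, mul_one]
    rw [hc, hZcard] at h1
    have h2 : ((p ^ b : ℕ) : ℂ) ≠ 0 := by exact_mod_cast pow_ne_zero b hp.out.ne_zero
    rw [h1, ← mul_assoc, ← Nat.cast_pow, mul_inv_cancel₀ h2, one_mul]
  have hone : MemLocalIdeal M (1 : ℂ) := by
    have h1 : (1 : ℂ) = (p : ℂ) ^ (b - s) * (c * (m : ℂ)⁻¹) -
        ∑ u ∈ Finset.univ.erase (1 : Z), (ζ : G → ℂ) u / (ζ : G → ℂ) 1 := by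
      have h2 : (p : ℂ) ^ (b - s) * (c * (m : ℂ)⁻¹) = (∑ u : Z, (ζ : G → ℂ) u) / (ζ : G → ℂ) 1 := by
        rw [hsum, hζ1]
        have h3 : (m : ℂ) ≠ 0 := by
          have : m ≠ 0 := by rintro rfl; exact hpm (dvd_zero p)
          exact_mod_cast this
        have h4 : (p : ℂ) ≠ 0 := by exact_mod_cast hp.out.ne_zero
        have h5 : (p : ℂ) ^ b = (p : ℂ) ^ (b - s) * (p : ℂ) ^ s := by
          rw [← pow_add]; congr 1; omega
        rw [h5]
        field_simp
      rw [h2, ← Finset.add_sum_erase _ _ (Finset.mem_univ (1 : Z)), add_div, Finset.sum_div]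
      have h3 : (ζ : G → ℂ) ((1 : Z) : G) / (ζ : G → ℂ) 1 = 1 := div_self (irr_one_ne_zero ζ)
      rw [h3]; ring
    rw [h1]
    refine MemLocalIdeal.sub ?_ ?_
    · apply MemLocalIdeal.mul_right
      · rw [memLocalIdeal_pow_iff (memLocalRing_natCast p) (by omega)]
        exact memLocalIdeal_p hM
      · exact MemLocalRing.mul (memLocalRing_natCast c) (memLocalRing_natCast_inv hM hpm)
    · apply memLocalIdeal_sum
      intro u hu
      exact hval u u.2 (fun h => (Finset.mem_erase.1 hu).1 (Subtype.ext h))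
  exact not_memLocalIdeal_one hone

end PPow

end CfsgH5
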