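import Cfsg.Agent.H5.Over2
import Cfsg.Agent.H5.Second
import Cfsg.Agent.H5.OneChar

/-!
# Blocks with normal defect group: heights zero iff abelian
-/

set_option autoImplicit false
open Cfsg MonoidAlgebra
open CfsgH4 hiding centralChar sum_conj regInner_symm

namespace CfsgH5

open scoped ComplexConjugate

section Reyn

variable {G : Type*} [Group G] [Fintype G] {M : Ideal AlgInt} {p : ℕ} [hp : Fact p.Prime]

/-- values on the centralizer of a normal subgroup are divisible by the degrees below -/
theorem val_dvd_under (P : Subgroup G) [hPn : P.Normal] [Fintype P] (χ : IrrCharacter G)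
    (μ : IrrCharacter P) (hμ : classInner (fun n : P => (χ : G → ℂ) n) (μ : P → ℂ) ≠ 0) {y : G}
    (hy : y ∈ Subgroup.centralizer (P : Set G)) :
    ∃ z : ℂ, IsIntegral ℤ z ∧ (χ : G → ℂ) y = (μ : P → ℂ) 1 * z := by
  classical
  set C := Subgroup.centralizer (P : Set G) with hC
  haveI : Fintype C := Fintype.ofFinite C
  have hcomm : ∀ (u : P) (c : C), Commute (P.subtype u) (C.subtype c) := by
    intro u c
    exact (Subgroup.mem_centralizer_iff.1 c.2) u u.2
  set f : P × C →* G := MonoidHom.noncommCoprod P.subtype C.subtype hcomm with hf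
  have hfv : ∀ (u : P) (c : C), f (u, c) = (u : G) * (c : G) := fun u c => rfl
  have hχf : IsCharacter (P × C) (fun x => (χ : G → ℂ) (f x)) := isCharacter_comp f (IsIrr.isCharacter χ.2)
  obtain ⟨n, hn⟩ := IsCharacter.expand hχf
  have hpr : ∀ τ : IrrCharacter (P × C), ∃ (α : IrrCharacter P) (β : IrrCharacter C),
      ∀ x, (τ : P × C → ℂ) x = (α : P → ℂ) x.1 * (β : C → ℂ) x.2 := by
    intro τ
    obtain ⟨φ, ψ, hφ, hψ, h⟩ := (isIrrCharacter_prod_iff (τ : P × C → ℂ)).1 τ.2
    exact ⟨⟨φ, hφ⟩, ⟨ψ, hψ⟩, fun x => by rw [h]⟩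
  choose α β hαβ using hpr
  have hval : ∀ x : P × C, (χ : G → ℂ) (f x) = ∑ τ : IrrCharacter (P × C), (n τ : ℂ) * (τ : P × C → ℂ) x := by
    intro x
    have := congrFun hn x
    rw [Finset.sum_apply] at this
    exact this
  -- the constituents are conjugate
  have hα : ∀ τ, n τ ≠ 0 → (α τ : P → ℂ) 1 = (μ : P → ℂ) 1 := by
    intro τ hτ
    have h1 : classInner (fun u : P => (χ : G → ℂ) u) (α τ : P → ℂ) ≠ 0 := by
      have h2 : (fun u : P => (χ : G → ℂ) u) =
          ∑ σ : IrrCharacter (P × C), ((n σ * charDegree (β σ : C → ℂ) : ℕ) : ℂ) • (α σ : P → ℂ) := by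
        funext u
        have h3 := hval (u, 1)
        rw [hfv, Subgroup.coe_one, mul_one] at h3
        rw [h3, Finset.sum_apply]
        refine Finset.sum_congr rfl fun σ _ => ?_
        rw [hαβ, Pi.smul_apply, smul_eq_mul]
        push_cast
        rw [(IsIrr.one_eq (β σ).2).1]
        ring
      rw [h2, classInner_sum_left]
      have h4 : ∀ σ : IrrCharacter (P × C),
          classInner (((n σ * charDegree (β σ : C → ℂ) : ℕ) : ℂ) • (α σ : P → ℂ)) (α τ : P → ℂ) =
          ((if α σ = α τ then n σ * charDegree (β σ : C → ℂ) else 0 : ℕ) : ℂ) := by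
        intro σ
        rw [classInner_smul_left, classInner_irr']
        split_ifs <;> simp
      rw [Finset.sum_congr rfl (fun σ _ => h4 σ), ← Nat.cast_sum]
      have h5 : n τ * charDegree (β τ : C → ℂ) ≠ 0 := mul_ne_zero hτ (charDegree_ne_zero (β τ))
      have h6 : n τ * charDegree (β τ : C → ℂ) ≤ ∑ σ : IrrCharacter (P × C),
          (if α σ = α τ then n σ * charDegree (β σ : C → ℂ) else 0) := by
        have h7 := Finset.single_le_sum (s := Finset.univ)
          (f := fun σ : IrrCharacter (P × C) => if α σ = α τ then n σ * charDegree (β σ : C → ℂ) else 0)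
          (fun _ _ => Nat.zero_le _) (Finset.mem_univ τ)
        simp only [if_true] at h7
        exact h7
      have h8 : ∑ σ : IrrCharacter (P × C),
          (if α σ = α τ then n σ * charDegree (β σ : C → ℂ) else 0) ≠ 0 := by omega
      exact_mod_cast h8
    obtain ⟨g, hg⟩ := clifford' (N := P) hμ h1
    rw [hg, cjI_apply]
    refine congrArg (μ : P → ℂ) (Subtype.ext ?_)
    show g * ((1 : P) : G) * g⁻¹ = 1
    rw [Subgroup.coe_one, mul_one, mul_inv_cancel]
  refine ⟨∑ τ : IrrCharacter (P × C), (n τ : ℂ) * (β τ : C → ℂ) ⟨y, hy⟩, ?_, ?_⟩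
  · refine IsIntegral.sum _ fun τ _ => ?_
    exact IsIntegral.mul (isIntegral_algebraMap (R := ℤ) (A := ℂ) (x := (n τ : ℤ)) |> fun h => by simpa using h)
      (IsCharacter.isIntegral (IsIrr.isCharacter (β τ).2) _)
  · have h1 := hval (1, ⟨y, hy⟩)
    rw [hfv, Subgroup.coe_one, one_mul] at h1
    rw [h1, Finset.mul_sum]
    refine Finset.sum_congr rfl fun τ _ => ?_
    rw [hαβ]
    by_cases hτ : n τ = 0
    · rw [hτ]; simp
    · rw [hα τ hτ]; ring

theorem sameBlock_pgroup {P : Type*} [Group P] [Finite P] (hM : IsPModular p M) (hP : IsPGroup p P)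
    (α β : IrrCharacter P) : SameBlock M (α : P → ℂ) (β : P → ℂ) := by
  apply sameBlock_of_regular hM
  intro g hg
  have h1 : g = 1 := by
    obtain ⟨k, hk⟩ := IsPGroup.iff_orderOf.1 hP g
    rcases Nat.eq_zero_or_pos k with h | h
    · rw [h, pow_zero] at hk
      exact orderOf_eq_one_iff.1 hk
    · exfalso
      apply hg
      rw [hk]
      exact dvd_pow_self p h.ne'
  haveI := Fintype.ofFinite P
  have h2 : ∀ γ : IrrCharacter P, Cfsg.centralChar (γ : P → ℂ) 1 = 1 := by
    intro γ
    unfold Cfsg.centralChar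
    have h3 : Subgroup.centralizer ({(1 : P)} : Set P) = ⊤ := by
      rw [eq_top_iff]
      intro x _
      rw [Subgroup.mem_centralizer_singleton_iff]
      simp
    rw [h3, Subgroup.index_top, Nat.cast_one, one_mul, div_self (irr_one_ne_zero γ)]
  haveI := IsPModular.isPrime hM
  rw [h1, h2, h2, sub_self]
  exact memLocalIdeal_zero

theorem over_normal_pgroup (hM : IsPModular p M) (P : Subgroup G) [hPn : P.Normal] [Fintype P]
    (hP : IsPGroup p P) {B : Set (IrrCharacter G)} (hB : IsPBlock M B) (μ : IrrCharacter P) :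
    ∃ χ ∈ B, classInner (fun n : P => (χ : G → ℂ) n) (μ : P → ℂ) ≠ 0 := by
  haveI := IsPModular.isPrime hM
  obtain ⟨χ, rfl⟩ := id hB
  have hχ : χ ∈ blockOf M (χ : G → ℂ) := mem_blockOf_self χ
  obtain ⟨θ, hθ⟩ := exists_under (N := P) χ
  have hb := isPBlock_blockOf (M := M) μ
  have hcov : Covers P (blockOf M (χ : G → ℂ)) (blockOf M (μ : P → ℂ)) :=
    ⟨χ, hχ, θ, sameBlock_pgroup hM hP μ θ, hθ⟩
  exact over_of_covers P hB hb hcov (mem_blockOf_self μ)

theorem defect_min (hM : IsPModular p M) {B : Set (IrrCharacter G)} (hB : IsPBlock M B)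
    {P : Subgroup G} (hP : IsDefectGroup p M B P) :
    P.index.factorization p =
      sInf ((fun χ : IrrCharacter G => (charDegree (χ : G → ℂ)).factorization p) '' B) := by
  haveI := IsPModular.isPrime hM
  have h1 := defectGroup_card hM hB hP
  have h2 := Subgroup.card_mul_index P
  rw [h1] at h2
  have hi : P.index ≠ 0 := Subgroup.index_ne_zero_of_finite
  have h3 : (Nat.card G).factorization p = blockDefect p B + P.index.factorization p := by
    rw [← h2, Nat.factorization_mul (pow_ne_zero _ hp.out.ne_zero) hi, Finsupp.add_apply,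
      hp.out.factorization_pow, Finsupp.single_eq_same]
  obtain ⟨χ, hχ⟩ : ∃ χ, χ ∈ B := by
    obtain ⟨χ, rfl⟩ := hB
    exact ⟨χ, sameBlock_refl _⟩
  have h4 := min_degree_le (p := p) hχ
  have h5 : (charDegree (χ : G → ℂ)).factorization p ≤ (Nat.card G).factorization p :=
    (Nat.factorization_le_iff_dvd (charDegree_ne_zero χ) Nat.card_pos.ne').2 (irr_degree_dvd χ) p
  unfold blockDefect at h3
  omega

theorem reynolds (hM : IsPModular p M) {B : Set (IrrCharacter G)} (hB : IsPBlock M B)
    (P : Subgroup G) [hPn : P.Normal] (hP : IsDefectGroup p M B P) :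
    (∀ a ∈ P, ∀ c ∈ P, a * c = c * a) ↔ ∀ χ ∈ B, blockHeight p B (χ : G → ℂ) = 0 := by
  classical
  haveI := IsPModular.isPrime hM
  haveI : Fintype P := Fintype.ofFinite P
  constructor
  · intro hab χ hχ
    rw [height_zero_iff hχ, ← defect_min hM hB hP]
    apply le_antisymm
    · obtain ⟨d, hd, hdd⟩ := ito P hab χ.2
      rw [(IsIrr.one_eq χ.2).1] at hd
      have hd' : charDegree (χ : G → ℂ) = d := by exact_mod_cast hd
      rw [← hd'] at hdd
      exact (Nat.factorization_le_iff_dvd (charDegree_ne_zero χ) Subgroup.index_ne_zero_of_finite).2 hdd p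
    · rw [defect_min hM hB hP]
      exact min_degree_le hχ
  · intro hz
    have hPp := IsDefectGroup.isPGroup hP
    have hlin : ∀ μ : IrrCharacter P, (μ : P → ℂ) 1 = 1 := by
      intro μ
      rcases pgroup_degree' hPp μ with h | h
      · exact h
      · exfalso
        obtain ⟨χ, hχ, hne⟩ := over_normal_pgroup hM P hPp hB μ
        obtain ⟨y, hy, hsyl⟩ := (isDefectGroup_iff (p := p) (M := M)).1 hP
        have hyC : y ∈ Subgroup.centralizer (P : Set G) := by
          rw [Subgroup.mem_centralizer_iff]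
          intro u hu
          have := hsyl.1 hu
          rw [Subgroup.mem_centralizer_singleton_iff] at this
          exact this
        have h1 := height_zero_val hM hB hy hχ (hz χ hχ)
        apply h1
        obtain ⟨z, hzi, hz⟩ := val_dvd_under P χ μ hne hyC
        rw [hz, (IsIrr.one_eq μ.2).1]
        exact MemLocalIdeal.mul_right ((memLocalIdeal_natCast_iff hM _).2 h) (memLocalRing_of_isIntegral hzi)
    have h2 := comm_of_linear hlin
    intro a ha c hc
    exact congrArg Subtype.val (h2 ⟨a, ha⟩ ⟨c, hc⟩)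

end Reyn

end CfsgH5
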