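import Cfsg.Agent.H5.LocalRing
import Mathlib.GroupTheory.FiniteAbelian.Basic
import Mathlib.RingTheory.Polynomial.Cyclotomic.Basic
import Mathlib.RingTheory.RootsOfUnity.Complex

/-!
# Roots of unity modulo a maximal ideal
-/

set_option autoImplicit false
open Cfsg

namespace CfsgH5

theorem rres_inj (p : ℕ) [hp : Fact p.Prime] (M : Ideal Cfsg.AlgInt) (hM : Cfsg.IsPModular p M)
    (ε₁ ε₂ : Cfsg.AlgInt) (h1 : ∃ m : ℕ, ¬ p ∣ m ∧ (ε₁ : ℂ) ^ m = 1) (h2 : ∃ m : ℕ, ¬ p ∣ m ∧ (ε₂ : ℂ) ^ m = 1)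
    (h : ε₁ - ε₂ ∈ M) : ε₁ = ε₂ := by
  haveI := IsPModular.isPrime hM
  obtain ⟨m1, hm1, he1⟩ := h1
  obtain ⟨m2, hm2, he2⟩ := h2
  have he1' : ε₁ ^ m1 = 1 := Subtype.ext (by push_cast; exact he1)
  have he2' : ε₂ ^ m2 = 1 := Subtype.ext (by push_cast; exact he2)
  obtain ⟨N, hN⟩ : ∃ N, N = m1 * m2 := ⟨_, rfl⟩
  have hpN : ¬ p ∣ N := by rw [hN, hp.out.dvd_mul]; tauto
  have hN0 : 0 < N := Nat.pos_of_ne_zero (fun h0 => hpN (h0 ▸ dvd_zero p))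
  have hN1 : ε₁ ^ N = 1 := by rw [hN, pow_mul, he1', one_pow]
  have hN2 : ε₂ ^ N = 1 := by rw [hN, mul_comm, pow_mul, he2', one_pow]
  have hinv : ε₂ * ε₂ ^ (N - 1) = 1 := by rw [← pow_succ', Nat.sub_add_cancel hN0, hN2]
  obtain ⟨η, hη⟩ : ∃ η, η = ε₁ * ε₂ ^ (N - 1) := ⟨_, rfl⟩
  have hηM : η - 1 ∈ M := by
    have h3 : η - 1 = (ε₁ - ε₂) * ε₂ ^ (N - 1) := by rw [hη, sub_mul, hinv]
    rw [h3]; exact M.mul_mem_right _ h
  have hηN : η ^ N = 1 := by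
    rw [hη, mul_pow, hN1, one_mul, ← pow_mul, mul_comm, pow_mul, hN2, one_pow]
  by_contra hne
  have hη1 : η ≠ 1 := by
    intro h3
    apply hne
    have h4 : η * ε₂ = ε₁ := by rw [hη, mul_assoc, mul_comm (ε₂ ^ (N - 1)), hinv, mul_one]
    rw [← h4, h3, one_mul]
  have hsum : ∑ i ∈ Finset.range N, η ^ i = 0 := by
    have h3 := geom_sum_mul η N
    rw [hηN, sub_self] at h3
    exact (mul_eq_zero.1 h3).resolve_right (sub_ne_zero.2 hη1)
  have hmem : (N : Cfsg.AlgInt) ∈ M := by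
    have h3 : (N : Cfsg.AlgInt) = ∑ i ∈ Finset.range N, (1 - η ^ i) := by
      rw [Finset.sum_sub_distrib, hsum]; simp
    rw [h3]
    refine Ideal.sum_mem _ fun i _ => ?_
    have h4 : 1 - η ^ i = -(η ^ i - 1) := by ring
    rw [h4]
    apply M.neg_mem
    have h5 : η - 1 ∣ η ^ i - 1 := by simpa using sub_dvd_pow_sub_pow η 1 i
    exact M.mem_of_dvd h5 hηM
  exact hpN ((natCast_mem_iff hM N).1 hmem)

theorem rres_fin (p : ℕ) [hp : Fact p.Prime] (M : Ideal Cfsg.AlgInt) (hM : Cfsg.IsPModular p M)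
    (a : Cfsg.AlgInt) (ha : a ∉ M) : ∃ N : ℕ, 0 < N ∧ ¬ p ∣ N ∧ a ^ N - 1 ∈ M := by
  haveI := hM.2.1
  letI : Field (Cfsg.AlgInt ⧸ M) := Ideal.Quotient.field M
  have hchar : CharP (Cfsg.AlgInt ⧸ M) p := by
    refine CharP.mk (fun n => ?_)
    rw [← natCast_mem_iff hM, ← Ideal.Quotient.eq_zero_iff_mem]
    simp
  obtain ⟨x, hx⟩ : ∃ x : Cfsg.AlgInt ⧸ M, x = Ideal.Quotient.mk M a := ⟨_, rfl⟩
  have hx0 : x ≠ 0 := by rw [hx]; intro h; exact ha (Ideal.Quotient.eq_zero_iff_mem.1 h)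
  have hint : IsIntegral ℤ x := by
    rw [hx]
    have h1 : IsIntegral ℤ a := by
      have h2 : IsIntegral ℤ (a : ℂ) := a.2
      exact (isIntegral_algebraMap_iff (A := Cfsg.AlgInt) (B := ℂ) Subtype.val_injective).1 h2
    exact h1.map (Ideal.Quotient.mkₐ ℤ M)
  haveI : Module.Finite ℤ (Algebra.adjoin ℤ ({x} : Set (Cfsg.AlgInt ⧸ M))) :=
    Module.Finite.iff_fg.2 hint.fg_adjoin_singleton
  have htor : Module.IsTorsion ℤ (Algebra.adjoin ℤ ({x} : Set (Cfsg.AlgInt ⧸ M))) := by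
    intro y
    refine ⟨⟨(p : ℤ), mem_nonZeroDivisors_of_ne_zero (by exact_mod_cast hp.out.ne_zero)⟩, ?_⟩
    apply Subtype.ext
    show (p : ℤ) • (y : Cfsg.AlgInt ⧸ M) = 0
    rw [zsmul_eq_mul]
    have h1 : ((p : ℤ) : Cfsg.AlgInt ⧸ M) = 0 := by
      rw [Int.cast_natCast]; exact CharP.cast_eq_zero _ p
    rw [h1, zero_mul]
  haveI : Finite (Algebra.adjoin ℤ ({x} : Set (Cfsg.AlgInt ⧸ M))) := Module.finite_of_fg_torsion _ htor
  let y : Algebra.adjoin ℤ ({x} : Set (Cfsg.AlgInt ⧸ M)) := ⟨x, Algebra.subset_adjoin rfl⟩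
  obtain ⟨i, j, hij, hpow⟩ := Finite.exists_ne_map_eq_of_infinite (fun n : ℕ => y ^ n)
  have hpow' : x ^ i = x ^ j := congrArg Subtype.val hpow
  have hfin : ∃ n : ℕ, 0 < n ∧ x ^ n = 1 := by
    rcases lt_or_gt_of_ne hij with h | h
    · refine ⟨j - i, by omega, ?_⟩
      have h1 : x ^ i * x ^ (j - i) = x ^ i * 1 := by
        rw [← pow_add, mul_one, hpow']; congr 1; omega
      exact mul_left_cancel₀ (pow_ne_zero i hx0) h1
    · refine ⟨i - j, by omega, ?_⟩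
      have h1 : x ^ j * x ^ (i - j) = x ^ j * 1 := by
        rw [← pow_add, mul_one, ← hpow']; congr 1; omega
      exact mul_left_cancel₀ (pow_ne_zero j hx0) h1
  have hof : IsOfFinOrder x := isOfFinOrder_iff_pow_eq_one.2 hfin
  have hN0 : 0 < orderOf x := orderOf_pos_iff.2 hof
  refine ⟨orderOf x, hN0, ?_, ?_⟩
  · rintro ⟨N', hN'⟩
    have h1 : (x ^ N') ^ p = 1 := by rw [← pow_mul, mul_comm, ← hN', pow_orderOf_eq_one]
    have h2 : (x ^ N' - 1) ^ p = 0 := by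
      rw [sub_pow_char, h1, one_pow, sub_self]
    have h3 : x ^ N' = 1 := sub_eq_zero.1 (pow_eq_zero_iff hp.out.ne_zero |>.1 h2)
    have h4 := orderOf_dvd_of_pow_eq_one h3
    have hN'0 : 0 < N' := by
      rcases Nat.eq_zero_or_pos N' with h | h
      · rw [h, mul_zero] at hN'; omega
      · exact h
    have h5 := Nat.le_of_dvd hN'0 h4
    rw [hN'] at h5
    have := hp.out.two_le
    nlinarith
  · rw [← Ideal.Quotient.eq_zero_iff_mem, map_sub, map_pow, map_one, ← hx, pow_orderOf_eq_one, sub_self]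

theorem rres_surj (p : ℕ) [hp : Fact p.Prime] (M : Ideal Cfsg.AlgInt) (hM : Cfsg.IsPModular p M)
    (a : Cfsg.AlgInt) (ha : a ∉ M) : ∃ ε : Cfsg.AlgInt, (∃ m : ℕ, ¬ p ∣ m ∧ (ε : ℂ) ^ m = 1) ∧ a - ε ∈ M := by
  haveI := IsPModular.isPrime hM
  obtain ⟨N, hN0, hpN, hN⟩ := rres_fin p M hM a ha
  have hprim : IsPrimitiveRoot (Complex.exp (2 * Real.pi * Complex.I / N)) N :=
    Complex.isPrimitiveRoot_exp N hN0.ne'
  let ζ : Cfsg.AlgInt := ⟨Complex.exp (2 * Real.pi * Complex.I / N), by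
    refine ⟨Polynomial.X ^ N - 1, Polynomial.monic_X_pow_sub_C 1 hN0.ne', ?_⟩
    simp [hprim.pow_eq_one]⟩
  have hζ : IsPrimitiveRoot ζ N :=
    IsPrimitiveRoot.of_map_of_injective (f := algebraMap Cfsg.AlgInt ℂ) hprim Subtype.val_injective
  have h1 := congrArg (Polynomial.eval a) (Polynomial.X_pow_sub_one_eq_prod hN0 hζ)
  rw [Polynomial.eval_prod] at h1
  simp only [Polynomial.eval_sub, Polynomial.eval_pow, Polynomial.eval_X, Polynomial.eval_one,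
    Polynomial.eval_C] at h1
  rw [h1] at hN
  obtain ⟨ε, hε, hmem⟩ := (Ideal.IsPrime.prod_mem_iff).1 hN
  refine ⟨ε, ⟨N, hpN, ?_⟩, hmem⟩
  have h2 := (Polynomial.mem_nthRootsFinset hN0 (1 : Cfsg.AlgInt)).1 hε
  have h3 := congrArg (fun t : Cfsg.AlgInt => (t : ℂ)) h2
  push_cast at h3
  exact h3

end CfsgH5
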