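import Mathlib

/-!
# Self-dual irreducible representations of abelian groups over finite fields
-/

set_option autoImplicit false

namespace CfsgH5

universe u v w

theorem field_model {F : Type u} [Field F] [Finite F] {H : Type v} [CommGroup H] {V : Type w} [AddCommGroup V] [Module F V] [FiniteDimensional F V]
    (ρ : Representation F H V) (hfaith : Function.Injective ρ)
    (hirr : ∀ U : Submodule F V, (∀ h : H, ∀ u ∈ U, ρ h u ∈ U) → U = ⊥ ∨ U = ⊤) [Nontrivial V] :
    ∃ (K : Type (max u v)) (_ : Field K) (_ : Algebra F K) (ι : H →* K) (e : K ≃ₗ[F] V), Function.Injective ι ∧ (∀ h x, ρ h (e x) = e (ι h * x)) ∧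
      (∀ σ τ : K →ₐ[F] K, (∀ h, σ (ι h) = τ (ι h)) → σ = τ) ∧
      ((∃ B : LinearMap.BilinForm F V, B.Nondegenerate ∧ ∀ h : H, ∀ x y : V, B (ρ h x) (ρ h y) = B x y) →
        ∃ σ : K →ₐ[F] K, ∀ h, σ (ι h) = ι h⁻¹) := by
  classical
  obtain ⟨φ, hφ⟩ : ∃ φ, φ = ρ.asAlgebraHom := ⟨_, rfl⟩
  have hcomm : ∀ a b : MonoidAlgebra F H, φ a * φ b = φ b * φ a := fun a b => by rw [← map_mul, mul_comm, map_mul]
  have hof : ∀ h, φ (MonoidAlgebra.of F H h) = ρ h := fun h => by rw [hφ]; exact ρ.asAlgebraHom_of h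
  have hker : ∀ a : MonoidAlgebra F H, LinearMap.ker (φ a) = ⊥ ∨ φ a = 0 := by
    intro a
    rcases hirr (LinearMap.ker (φ a)) (fun h u hu => by
      rw [LinearMap.mem_ker] at hu ⊢
      have h1 := congrArg (fun f : Module.End F V => f u) (hcomm a (MonoidAlgebra.of F H h))
      simp only [Module.End.mul_apply, hof] at h1
      rw [h1, hu, map_zero]) with h | h
    · exact Or.inl h
    · exact Or.inr (LinearMap.ker_eq_top.1 h)
  obtain ⟨v₀, hv₀⟩ := exists_ne (0 : V)
  have hz : ∀ a : MonoidAlgebra F H, φ a v₀ = 0 → φ a = 0 := by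
    intro a ha
    rcases hker a with h | h
    · exfalso
      apply hv₀
      have h1 : v₀ ∈ LinearMap.ker (φ a) := ha
      rw [h] at h1
      exact h1
    · exact h
  let m : Ideal (MonoidAlgebra F H) := RingHom.ker φ
  have hmem : ∀ a, a ∈ m ↔ φ a = 0 := fun a => RingHom.mem_ker
  haveI hprime : m.IsPrime := by
    refine ⟨?_, ?_⟩
    · intro h
      have h1 : (1 : MonoidAlgebra F H) ∈ m := by rw [h]; trivial
      rw [hmem, map_one] at h1
      exact hv₀ (congrArg (fun f : Module.End F V => f v₀) h1)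
    · intro a b hab
      rw [hmem, map_mul] at hab
      rw [hmem, hmem]
      rcases hker a with h | h
      · right
        apply LinearMap.ext
        intro v
        have h1 : φ b v ∈ LinearMap.ker (φ a) := congrArg (fun f : Module.End F V => f v) hab
        rw [h] at h1
        exact h1
      · exact Or.inl h
  let ψ : (MonoidAlgebra F H ⧸ m) →ₐ[F] Module.End F V := Ideal.Quotient.liftₐ m φ (fun a ha => (hmem a).1 ha)
  have hψ : ∀ a, ψ (Ideal.Quotient.mk m a) = φ a := fun a => rfl
  let e0 : (MonoidAlgebra F H ⧸ m) →ₗ[F] V := (LinearMap.applyₗ v₀).comp ψ.toLinearMap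
  have he0 : ∀ x, e0 x = ψ x v₀ := fun x => rfl
  have hinj : Function.Injective e0 := by
    rw [injective_iff_map_eq_zero]
    intro x hx
    obtain ⟨a, rfl⟩ := Ideal.Quotient.mk_surjective x
    rw [he0, hψ] at hx
    exact Ideal.Quotient.eq_zero_iff_mem.2 ((hmem a).2 (hz a hx))
  have hsurj : Function.Surjective e0 := by
    rw [← LinearMap.range_eq_top]
    rcases hirr (LinearMap.range e0) (by
      rintro h _ ⟨x, rfl⟩
      refine ⟨Ideal.Quotient.mk m (MonoidAlgebra.of F H h) * x, ?_⟩
      rw [he0, he0, map_mul, hψ, hof]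
      rfl) with h | h
    · exfalso
      apply hv₀
      have h1 : v₀ ∈ LinearMap.range e0 := ⟨1, by rw [he0, map_one]; rfl⟩
      rw [h] at h1
      exact h1
    · exact h
  haveI : Finite V := Module.finite_of_finite F
  haveI : Finite (MonoidAlgebra F H ⧸ m) := Finite.of_injective e0 hinj
  haveI hmax : m.IsMaximal := Ideal.Quotient.maximal_of_isField _ (Finite.isField_of_domain _)
  refine ⟨MonoidAlgebra F H ⧸ m, Ideal.Quotient.field m, inferInstance, (Ideal.Quotient.mk m).toMonoidHom.comp (MonoidAlgebra.of F H),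
    LinearEquiv.ofBijective e0 ⟨hinj, hsurj⟩, ?_, ?_, ?_, ?_⟩
  · intro a b hab
    apply hfaith
    have h1 : Ideal.Quotient.mk m (MonoidAlgebra.of F H a) = Ideal.Quotient.mk m (MonoidAlgebra.of F H b) := hab
    rw [← hof, ← hof, ← hψ, ← hψ, h1]
  · intro h x
    change ρ h (ψ x v₀) = ψ (Ideal.Quotient.mk m (MonoidAlgebra.of F H h) * x) v₀
    rw [map_mul, hψ, hof]
    rfl
  · intro σ τ hστ
    apply Ideal.Quotient.algHom_ext
    apply MonoidAlgebra.algHom_ext'
    · apply MonoidHom.ext
      intro h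
      exact hστ h
    · exact Subsingleton.elim _ _
  · rintro ⟨B, hB, hBinv⟩
    let τ : MonoidAlgebra F H →ₐ[F] (MonoidAlgebra F H ⧸ m) :=
      MonoidAlgebra.lift F (MonoidAlgebra F H ⧸ m) H (((Ideal.Quotient.mk m).toMonoidHom.comp (MonoidAlgebra.of F H)).comp invMonoidHom)
    have hτ : ∀ h, τ (MonoidAlgebra.of F H h) = Ideal.Quotient.mk m (MonoidAlgebra.of F H h⁻¹) := fun h => by
      change MonoidAlgebra.lift F (MonoidAlgebra F H ⧸ m) H _ (MonoidAlgebra.of F H h) = _
      rw [MonoidAlgebra.lift_of]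
      rfl
    have hadj : ∀ (a : MonoidAlgebra F H) (x y : V), B (φ a x) y = B x (ψ (τ a) y) := by
      intro a x y
      induction a using MonoidAlgebra.induction_on with
      | of h =>
        rw [hτ, hψ, hof, hof, ← hBinv h x, ← Module.End.mul_apply, ← map_mul, mul_inv_cancel, map_one, Module.End.one_apply]
      | add a b ha hb => rw [map_add, map_add, map_add, LinearMap.add_apply, LinearMap.add_apply, map_add, LinearMap.add_apply, map_add, ha, hb]
      | smul r a ha => rw [map_smul, map_smul, map_smul, LinearMap.smul_apply, LinearMap.smul_apply, map_smul, LinearMap.smul_apply, map_smul, ha]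
    have hτm : ∀ a ∈ m, τ a = 0 := by
      intro a ha
      rw [hmem] at ha
      have h1 : ∀ y, ψ (τ a) y = 0 := by
        intro y
        apply hB.2
        intro x
        rw [← hadj, ha, LinearMap.zero_apply, map_zero, LinearMap.zero_apply]
      apply hinj
      rw [map_zero, he0, h1]
    refine ⟨Ideal.Quotient.liftₐ m τ hτm, ?_⟩
    intro h
    change τ (MonoidAlgebra.of F H h) = Ideal.Quotient.mk m (MonoidAlgebra.of F H h⁻¹)
    exact hτ h

section Two

variable {F : Type*} [Field F] [Fintype F] {H : Type*} [CommGroup H] [Finite H] {K : Type*} [Field K] [Algebra F K] [Finite K]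
  (ι : H →* K) (hι : Function.Injective ι) (hgen : ∀ σ τ : K →ₐ[F] K, (∀ h, σ (ι h) = τ (ι h)) → σ = τ)

include hι hgen

theorem sd_forward {σ : K →ₐ[F] K} (hσ : ∀ h, σ (ι h) = ι h⁻¹) :
    (Nat.card H ≤ 2 ∧ Module.finrank F K = 1) ∨
      (Even (Module.finrank F K) ∧ Nat.card H ∣ Fintype.card F ^ (Module.finrank F K / 2) + 1) := by
  classical
  haveI hcyc : IsCyclic H := isCyclic_of_injective_ringHom ι hι
  obtain ⟨i, hin0, hi'⟩ : ∃ i : ℕ, i < Module.finrank F K ∧ FiniteField.frobeniusAlgHom F K ^ i = σ := by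
    obtain ⟨i, hi⟩ := (FiniteField.bijective_frobeniusAlgHom_pow F K).2 σ
    exact ⟨i, i.2, hi⟩
  obtain ⟨n, hn⟩ : ∃ n, n = Module.finrank F K := ⟨_, rfl⟩
  have hord := FiniteField.orderOf_frobeniusAlgHom F K
  have hin : i < n := by rw [hn]; exact hin0
  have h2 : σ * σ = 1 := by
    apply hgen
    intro h
    change σ (σ (ι h)) = ι h
    rw [hσ, hσ, inv_inv]
  rw [← hi', ← pow_add] at h2
  have h3 := orderOf_dvd_of_pow_eq_one h2
  rw [hord, ← hn] at h3
  have h4 : i + i = 0 ∨ i + i = n := by
    obtain ⟨c, hc⟩ := h3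
    have h5 : c < 2 := by
      by_contra h6
      have : n * 2 ≤ n * c := Nat.mul_le_mul_left n (by omega)
      omega
    interval_cases c
    · left; omega
    · right; omega
  rcases h4 with h4 | h4
  · left
    have hi0 : i = 0 := by omega
    rw [hi0, pow_zero] at hi'
    have h5 : ∀ h : H, ι h = ι h⁻¹ := fun h => by
      have := hσ h
      rw [← hi'] at this
      exact this
    have h6 : ∀ h : H, h ^ 2 = 1 := fun h => by
      have := hι (h5 h)
      rw [sq]
      nth_rewrite 2 [this]
      exact mul_inv_cancel h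
    constructor
    · rw [← IsCyclic.exponent_eq_card]
      exact Nat.le_of_dvd (by norm_num) (Monoid.exponent_dvd_of_forall_pow_eq_one h6)
    · rw [← hord, orderOf_eq_one_iff]
      apply hgen
      intro h
      have h7 : ι h ^ 2 = 1 := by rw [← map_pow, h6, map_one]
      rw [sq] at h7
      rcases mul_self_eq_one_iff.1 h7 with h8 | h8
      · rw [h8, map_one, map_one]
      · rw [h8, map_neg, map_neg, map_one, map_one]
  · right
    rw [← hn]
    refine ⟨⟨i, h4.symm⟩, ?_⟩
    have hi2 : n / 2 = i := by omega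
    rw [hi2, ← IsCyclic.exponent_eq_card]
    apply Monoid.exponent_dvd_of_forall_pow_eq_one
    intro h
    apply hι
    have h5 := hσ h
    rw [← hi', AlgHom.coe_pow, FiniteField.coe_frobeniusAlgHom, pow_iterate] at h5
    rw [map_pow, map_one, pow_succ]
    have h6 : ι h ^ Fintype.card F ^ i = ι h⁻¹ := h5
    rw [h6, ← map_mul, inv_mul_cancel, map_one]

end Two

theorem sd_backward {F : Type*} [Field F] [Fintype F] {H : Type*} [CommGroup H] [Finite H] {K : Type*} [Field K] [Algebra F K] [Finite K]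
    (ι : H →* K) {V : Type*} [AddCommGroup V] [Module F V] (ρ : Representation F H V) (e : K ≃ₗ[F] V)
    (he : ∀ h x, ρ h (e x) = e (ι h * x)) {i : ℕ} (hH : Nat.card H ∣ Fintype.card F ^ i + 1) :
    ∃ B : LinearMap.BilinForm F V, B.Nondegenerate ∧ ∀ h : H, ∀ x y : V, B (ρ h x) (ρ h y) = B x y := by
  classical
  haveI : FiniteDimensional F K := Module.Finite.of_finite
  obtain ⟨f, hf⟩ : ∃ f : K →ₐ[F] K, f = FiniteField.frobeniusAlgHom F K ^ i := ⟨_, rfl⟩
  have hfx : ∀ x, f x = x ^ Fintype.card F ^ i := by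
    intro x
    rw [hf, AlgHom.coe_pow, FiniteField.coe_frobeniusAlgHom, pow_iterate]
  have hfs : Function.Surjective f := Finite.surjective_of_injective f.injective
  have hs : ∀ x v, ρ x v = e (ι x * e.symm v) := fun h v => by rw [← he, LinearEquiv.apply_symm_apply]
  let B : LinearMap.BilinForm F V := (Algebra.traceForm F K).compl₁₂ e.symm.toLinearMap (f.toLinearMap.comp e.symm.toLinearMap)
  have hB : ∀ v w, B v w = Algebra.trace F K (e.symm v * f (e.symm w)) := fun v w => rfl
  have hnd := traceForm_nondegenerate F K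
  refine ⟨B, ⟨?_, ?_⟩, ?_⟩
  · intro v hv
    have h1 : e.symm v = 0 := by
      apply hnd.1
      intro x
      obtain ⟨y, rfl⟩ := hfs x
      have := hv (e y)
      rw [hB, LinearEquiv.symm_apply_apply] at this
      exact this
    rw [← LinearEquiv.map_eq_zero_iff e.symm, h1]
  · intro w hw
    have h1 : f (e.symm w) = 0 := by
      apply hnd.2
      intro x
      have := hw (e x)
      rw [hB, LinearEquiv.symm_apply_apply] at this
      exact this
    have h2 : e.symm w = 0 := f.injective (h1.trans (map_zero f).symm)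
    rw [← LinearEquiv.map_eq_zero_iff e.symm, h2]
  · intro h x y
    rw [hB, hB, hs, hs, LinearEquiv.symm_apply_apply, LinearEquiv.symm_apply_apply, map_mul f, hfx (ι h)]
    have h1 : ι h * ι h ^ Fintype.card F ^ i = 1 := by
      rw [← pow_succ', ← map_pow]
      obtain ⟨c, hc⟩ := hH
      rw [hc, pow_mul, pow_card_eq_one', one_pow, map_one]
    congr 1
    calc ι h * e.symm x * (ι h ^ Fintype.card F ^ i * f (e.symm y)) = (ι h * ι h ^ Fintype.card F ^ i) * (e.symm x * f (e.symm y)) := by ring
      _ = e.symm x * f (e.symm y) := by rw [h1, one_mul]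

end CfsgH5
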